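import Mathlib

set_option autoImplicit false

namespace Cfsg.Agent.Lib.Helper7

section
variable {X : Type*} [Group X]

open Classical in
theorem cm_card_comm_eq_sum [Fintype X] :
    Nat.card { p : X × X // Commute p.1 p.2 } = ∑ a : X, ∑ b : X, if Commute a b then 1 else 0 := by
  rw [Nat.card_eq_fintype_card, Fintype.card_subtype, Finset.card_filter, Fintype.sum_prod_type]

open Classical in
theorem cm_sum_eq_card_centralizer [Fintype X] (x : X) :
    (∑ b : X, if Commute x b then 1 else 0) = Nat.card (Subgroup.centralizer ({x} : Set X)) := by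
  rw [← Finset.card_filter, ← Fintype.card_subtype, ← Nat.card_eq_fintype_card]
  refine Nat.card_congr (Equiv.subtypeEquivRight fun b => ?_)
  rw [Subgroup.mem_centralizer_iff]
  constructor
  · intro h y hy
    rw [Set.mem_singleton_iff] at hy
    subst hy
    exact h
  · intro h
    exact h x rfl

open Classical in
/-- Orbit–stabilizer for the centralizer of `x` acting on the cosets of `Y`. -/
theorem cm_core [Fintype X] (Y : Subgroup X) [Fintype Y] (x : X) :
    ∃ s o : ℕ, (∑ b : X, if Commute x b then 1 else 0) = s * o ∧ 0 < s ∧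
      s ≤ (∑ y : Y, if Commute x (y : X) then 1 else 0) ∧ o ≤ Y.index ∧
      ((∃ g : X, ∀ c : X, Commute x c → c⁻¹ * g ∉ Y) → o < Y.index) := by
  rw [cm_sum_eq_card_centralizer]
  obtain ⟨C, hC⟩ : ∃ C : Subgroup X, C = Subgroup.centralizer ({x} : Set X) := ⟨_, rfl⟩
  rw [← hC]
  have hCmem : ∀ c : X, c ∈ C → Commute x c := by
    intro c hc
    rw [hC, Subgroup.mem_centralizer_iff] at hc
    exact hc x rfl
  have h1 := (MulAction.stabilizer C (QuotientGroup.mk 1 : X ⧸ Y)).card_mul_index
  rw [MulAction.index_stabilizer] at h1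
  have hmemY : ∀ c : MulAction.stabilizer C (QuotientGroup.mk 1 : X ⧸ Y), (c.1.1 : X) ∈ Y := by
    intro c
    have h0 := c.2
    rw [MulAction.mem_stabilizer_iff] at h0
    have h4 : (QuotientGroup.mk ((c.1 : X) * 1) : X ⧸ Y) = QuotientGroup.mk 1 := h0
    rw [QuotientGroup.eq] at h4
    simpa using Y.inv_mem h4
  have hcomm : ∀ c : MulAction.stabilizer C (QuotientGroup.mk 1 : X ⧸ Y), Commute x (c.1.1 : X) :=
    fun c => hCmem _ c.1.2
  refine ⟨Nat.card (MulAction.stabilizer C (QuotientGroup.mk 1 : X ⧸ Y)),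
    (MulAction.orbit C (QuotientGroup.mk 1 : X ⧸ Y)).ncard, h1.symm,
    Nat.card_pos, ?_, Set.ncard_le_card _, ?_⟩
  · rw [← Finset.card_filter, ← Fintype.card_subtype, ← Nat.card_eq_fintype_card]
    refine Nat.card_le_card_of_injective (fun c => ⟨⟨c.1.1, hmemY c⟩, hcomm c⟩) ?_
    intro c c' h
    have h5 : (c.1.1 : X) = c'.1.1 := by
      have h6 := congrArg (fun z : {y : Y // Commute x (y : X)} => (z.1 : X)) h
      exact h6
    exact Subtype.ext (Subtype.ext h5)
  · rintro ⟨g, hg⟩
    apply Set.ncard_lt_card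
    intro huniv
    have h7 : (QuotientGroup.mk g : X ⧸ Y) ∈ MulAction.orbit C (QuotientGroup.mk 1 : X ⧸ Y) := by
      rw [huniv]; exact Set.mem_univ _
    obtain ⟨c, hc⟩ := h7
    have h8 : (QuotientGroup.mk ((c : X) * 1) : X ⧸ Y) = QuotientGroup.mk g := by
      rw [← hc]; rfl
    rw [QuotientGroup.eq] at h8
    apply hg c (hCmem _ c.2)
    simpa using h8

end

end Cfsg.Agent.Lib.Helper7
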