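import Mathlib
import Cfsg.Prelude
import Cfsg.Agent.S0014

set_option autoImplicit false

namespace Cfsg.Agent.Lib.Helper7

open scoped commutatorElement

section
variable {E : Type*} [Group E]

theorem es_comm_mem (hc : commutator E ≤ Subgroup.center E) (g x : E) :
    g * x * g⁻¹ * x⁻¹ ∈ Subgroup.center E := by
  apply hc
  rw [commutator_def]
  exact Subgroup.commutator_mem_commutator (Subgroup.mem_top g) (Subgroup.mem_top x)

/-- The commutator map `x ↦ g x g⁻¹ x⁻¹` as a homomorphism, when commutators are central. -/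
def esDelta (hc : commutator E ≤ Subgroup.center E) (g : E) : E →* E where
  toFun x := g * x * g⁻¹ * x⁻¹
  map_one' := by group
  map_mul' x y := by
    have hy := es_comm_mem hc g y
    rw [Subgroup.mem_center_iff] at hy
    calc g * (x * y) * g⁻¹ * (x * y)⁻¹ = g * x * g⁻¹ * ((g * y * g⁻¹ * y⁻¹) * x⁻¹) := by group
      _ = g * x * g⁻¹ * (x⁻¹ * (g * y * g⁻¹ * y⁻¹)) := by rw [← hy x⁻¹]
      _ = g * x * g⁻¹ * x⁻¹ * (g * y * g⁻¹ * y⁻¹) := by group

theorem esDelta_apply (hc : commutator E ≤ Subgroup.center E) (g x : E) :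
    esDelta hc g x = g * x * g⁻¹ * x⁻¹ := rfl

/-- In an extraspecial `p`-group, every homomorphism `E → Z(E)` is of the form
`x ↦ g x g⁻¹ x⁻¹`. -/
theorem es_hom_inner [Finite E] (p : ℕ) [Fact p.Prime] (hE : Cfsg.IsExtraspecial p E)
    (δ : E →* E) (hδ : ∀ x, δ x ∈ Subgroup.center E) :
    ∃ g : E, ∀ x, δ x = g * x * g⁻¹ * x⁻¹ := by
  classical
  haveI := Fintype.ofFinite E
  haveI : Finite (E →* E) :=
    Finite.of_injective (fun f : E →* E => (f : E → E)) DFunLike.coe_injective
  obtain ⟨⟨hP, hfrat, hcomm⟩, hZ⟩ := hE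
  have hc : commutator E ≤ Subgroup.center E := le_of_eq hcomm
  obtain ⟨d, hd⟩ := hP.index (frattini E)
  obtain ⟨T, -, hTcard, hT⟩ := (Cfsg.Agent.S0014.result p d hP hd).1 Finset.univ
    (by rw [Finset.coe_univ, Subgroup.closure_univ])
  have hrestr : Function.Injective
      (fun (δ : {δ : E →* E // ∀ x, δ x ∈ Subgroup.center E}) (t : T) =>
        (⟨δ.1 t, δ.2 t⟩ : Subgroup.center E)) := by
    intro δ₁ δ₂ h
    apply Subtype.ext
    apply MonoidHom.eq_of_eqOn_dense hT
    intro t ht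
    have h1 := congrFun h ⟨t, ht⟩
    exact congrArg Subtype.val h1
  have hcardH : Nat.card {δ : E →* E // ∀ x, δ x ∈ Subgroup.center E} ≤ p ^ d := by
    have h1 := Nat.card_le_card_of_injective _ hrestr
    rw [Nat.card_fun, hZ] at h1
    simpa [hTcard] using h1
  have hιinj : Function.Injective (fun q : E ⧸ Subgroup.center E =>
      (⟨esDelta hc q.out, fun x => es_comm_mem hc q.out x⟩ :
        {δ : E →* E // ∀ x, δ x ∈ Subgroup.center E})) := by
    intro q q' hqq
    have h1 : ∀ x : E, q.out * x * q.out⁻¹ * x⁻¹ = q'.out * x * q'.out⁻¹ * x⁻¹ := by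
      intro x
      have h2 := congrArg (fun h : {δ : E →* E // ∀ x, δ x ∈ Subgroup.center E} => h.1 x) hqq
      exact h2
    rw [← QuotientGroup.out_eq' q, ← QuotientGroup.out_eq' q', QuotientGroup.eq,
      Subgroup.mem_center_iff]
    intro x
    have h3 := mul_right_cancel (h1 x)
    calc x * (q.out⁻¹ * q'.out) = q.out⁻¹ * (q.out * x * q.out⁻¹) * q'.out := by group
      _ = q.out⁻¹ * (q'.out * x * q'.out⁻¹) * q'.out := by rw [h3]
      _ = q.out⁻¹ * q'.out * x := by group
  have hcardQ : Nat.card (E ⧸ Subgroup.center E) = p ^ d := by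
    rw [← hd, hfrat]; rfl
  have hbij := hιinj.bijective_of_nat_card_le (by rw [hcardQ]; exact hcardH)
  obtain ⟨q, hq⟩ := hbij.2 ⟨δ, hδ⟩
  refine ⟨q.out, fun x => ?_⟩
  have h2 := congrArg (fun h : {δ : E →* E // ∀ x, δ x ∈ Subgroup.center E} => h.1 x) hq
  exact h2.symm

end

end Cfsg.Agent.Lib.Helper7
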