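import Mathlib
import Cfsg.Prelude
import Cfsg.Agent.Lib.Helper7.GolayC17

set_option autoImplicit false

namespace Cfsg.Agent.Lib.Helper7

open scoped Pointwise

theorem gc_emb5 (a b c e f : Cfsg.GolayPt) (h : [a, b, c, e, f].Nodup) :
    ∃ x : Fin 5 ↪ Cfsg.GolayPt, x 0 = a ∧ x 1 = b ∧ x 2 = c ∧ x 3 = e ∧ x 4 = f :=
  ⟨⟨[a, b, c, e, f].get, List.nodup_iff_injective_get.mp h⟩, rfl, rfl, rfl, rfl, rfl⟩

theorem gc_forall5 {P : Fin 5 → Prop} (h0 : P 0) (h1 : P 1) (h2 : P 2) (h3 : P 3) (h4 : P 4) :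
    ∀ i, P i
  | ⟨0, _⟩ => h0
  | ⟨1, _⟩ => h1
  | ⟨2, _⟩ => h2
  | ⟨3, _⟩ => h3
  | ⟨4, _⟩ => h4

theorem gc_forall3 {P : Fin 3 → Prop} (h0 : P 0) (h1 : P 1) (h2 : P 2) : ∀ i, P i
  | ⟨0, _⟩ => h0
  | ⟨1, _⟩ => h1
  | ⟨2, _⟩ => h2

theorem gc_smul_compl {g : Equiv.Perm Cfsg.GolayPt} {S : Finset Cfsg.GolayPt} (h : g • S = S) :
    g • Sᶜ = Sᶜ := by
  ext z
  rw [← Finset.inv_smul_mem_iff, Finset.mem_compl, Finset.mem_compl, Finset.inv_smul_mem_iff, h]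

/-- three points of a twelve-set extend to five -/
theorem gc_emb_three (d : Finset Cfsg.GolayPt) (h12 : d.card = 12) (p q r : Cfsg.GolayPt)
    (hp : p ∈ d) (hq : q ∈ d) (hr : r ∈ d) (hpq : p ≠ q) (hpr : p ≠ r) (hqr : q ≠ r) :
    ∃ x : Fin 5 ↪ Cfsg.GolayPt, x 0 = p ∧ x 1 = q ∧ x 2 = r ∧ ∀ i, x i ∈ d := by
  classical
  have hTc : (((d.erase p).erase q).erase r).card = 9 := by
    rw [Finset.card_erase_of_mem (Finset.mem_erase.mpr ⟨hqr.symm, Finset.mem_erase.mpr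
      ⟨hpr.symm, hr⟩⟩), Finset.card_erase_of_mem (Finset.mem_erase.mpr ⟨hpq.symm, hq⟩),
      Finset.card_erase_of_mem hp, h12]
  obtain ⟨s, hs, t, ht, hst⟩ := Finset.one_lt_card.mp
    (by rw [hTc]; norm_num : 1 < (((d.erase p).erase q).erase r).card)
  simp only [Finset.mem_erase] at hs ht
  obtain ⟨hsr, hsq, hsp, hsd⟩ := hs
  obtain ⟨htr, htq, htp, htd⟩ := ht
  obtain ⟨x, hx0, hx1, hx2, hx3, hx4⟩ := gc_emb5 p q r s t (by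
    simp only [List.nodup_cons, List.mem_cons, List.not_mem_nil, or_false, not_or,
      List.nodup_nil, and_true, not_false_eq_true]
    exact ⟨⟨hpq, hpr, Ne.symm hsp, Ne.symm htp⟩, ⟨hqr, Ne.symm hsq, Ne.symm htq⟩,
      ⟨Ne.symm hsr, Ne.symm htr⟩, hst⟩)
  refine ⟨x, hx0, hx1, hx2, gc_forall5 ?_ ?_ ?_ ?_ ?_⟩
  · rw [hx0]; exact hp
  · rw [hx1]; exact hq
  · rw [hx2]; exact hr
  · rw [hx3]; exact hsd
  · rw [hx4]; exact htd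

/-- words in the stabiliser of the standard dodecad and three base points -/
def gcT72L : List (List ℕ) := [
  [], [], [], [], [1, 1], [2, 2, 2, 2, 0, 2, 0, 2, 0, 2, 2, 2, 0, 0, 0, 2, 0, 0, 0, 2, 0, 0, 0, 2,
  2, 0, 0, 0, 0, 0, 0, 0, 2, 2], [], [], [], [], [2, 2, 0, 2, 2, 0, 2, 2, 0, 2, 0, 0, 0, 2, 0, 2,
  2, 2, 0, 2, 2, 0, 0, 0, 2, 2, 0, 0, 0, 2, 0, 2, 2, 0, 0], [1, 0, 1, 0, 2, 2, 0, 1, 0, 1, 2, 2, 2,
  2, 0, 2, 0, 0, 0, 0, 1, 0, 0, 1, 2, 0, 1, 0, 1, 2, 0, 0, 1, 2, 2], [], [1, 1, 2, 0, 2, 2, 2, 0,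
  0, 2, 0, 2, 2, 0, 2, 0, 2], [], [], [2, 2, 2, 0, 2, 0, 0, 2, 2, 0, 2, 2, 0, 2, 0, 0, 2, 2, 0, 2,
  0, 0, 2, 2, 2, 0, 2, 2, 0, 0, 2, 2, 0, 2], [0, 0, 2, 2, 2, 2, 0, 0, 2, 0, 0, 0, 2, 0, 2, 2, 0, 0,
  0, 2, 2, 0, 2, 0, 0, 1, 0, 2, 0, 2, 0, 1, 2], [0, 2, 2, 0, 1, 2, 0, 0, 0, 0, 1, 0, 0, 2, 2, 0, 2,
  1, 0, 2, 2, 2, 2, 2, 0, 2, 0, 2, 0, 2, 2, 2, 2], [2, 0, 1, 2, 0, 2, 0, 0, 2, 0, 0, 0, 1, 0, 0, 2,
  1, 0, 0, 0, 1, 2, 2, 0, 1, 2, 0, 2, 0, 2, 0, 0, 1, 0], [0, 1, 0, 0, 2, 2, 2, 2, 0, 1, 2, 0, 1, 0,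
  2, 2, 0, 1, 0, 2, 0, 1, 2, 2, 0, 0, 2, 0, 0, 0, 0, 0, 2], [0, 0, 2, 0, 0, 0, 0, 2, 2, 0, 2, 2, 2,
  0, 2, 2, 0, 0, 0, 2, 0, 2, 0, 2, 0, 2, 0, 0, 2, 2, 0, 2, 0, 0, 2], [1, 2, 0, 0, 2, 0, 0, 2, 0, 2,
  0, 2, 0, 0, 0, 1, 2, 2, 2, 0, 0, 2, 0, 0, 2, 2, 0, 0, 0, 2, 2], []]

/-- the word carrying the point `a` outside the standard dodecad to the point 4 -/
def gcT72 (a : ℕ) : List ℕ := gcT72L.getD a []

theorem gc_t72_tab : ∀ a : Fin 24, gcD0.testBit a.val = false →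
    (∀ j < 3, gcEval (gcT72 a.val) (gcBase j) = gcBase j) ∧
    (∀ c : Fin 24, gcD0.testBit (gcEval (gcT72 a.val) c).val = gcD0.testBit c.val) ∧
    gcEval (gcT72 a.val) a = 4 := by
  decide +kernel

theorem gc_t72_word (z : Cfsg.GolayPt) (hz : z ∉ gcSet gcD0) :
    ∃ w : List ℕ, (∀ j < 3, gcWord w (gcPt (gcBase j)) = gcPt (gcBase j)) ∧
      gcWord w • gcSet gcD0 = gcSet gcD0 ∧ gcWord w z = gcPt 4 := by
  obtain ⟨a, rfl⟩ := gcEquiv.surjective z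
  have ha : gcD0.testBit a.val = false := by
    by_contra hcon
    exact hz ((gc_mem_set _ _).mpr (by simpa using hcon))
  obtain ⟨h1, h2, h3⟩ := gc_t72_tab a ha
  refine ⟨gcT72 a.val, fun j hj => ?_, gc_word_set _ _ _ h2, ?_⟩
  · rw [gc_word_rep, h1 j hj]
  · show gcWord (gcT72 a.val) (gcPt a) = gcPt 4
    rw [gc_word_rep, h3]

/-- the stabiliser of three points of a dodecad in its stabiliser is transitive on the
complement -/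
theorem gc_dodecad_three_trans (d : Finset Cfsg.GolayPt) (hd : d ∈ Cfsg.dodecads)
    (p q r : Cfsg.GolayPt) (hp : p ∈ d) (hq : q ∈ d) (hr : r ∈ d) (hpq : p ≠ q) (hpr : p ≠ r)
    (hqr : q ≠ r) (x y : Cfsg.GolayPt) (hx : x ∉ d) (hy : y ∉ d) :
    ∃ g ∈ Cfsg.M24, g • d = d ∧ g p = p ∧ g q = q ∧ g r = r ∧ g x = y := by
  obtain ⟨xe, hx0, hx1, hx2, hxe⟩ := gc_emb_three d ((gc_dodecad_iff d).mp hd).2 p q r hp hq hr
    hpq hpr hqr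
  obtain ⟨k, hk, hkx, hkd⟩ := gc_dodecad_norm d hd xe hxe
  have hout : ∀ z, z ∉ d → k z ∉ gcSet gcD0 := by
    intro z hz hcon
    rw [← hkd, ← Equiv.Perm.smul_def, Finset.smul_mem_smul_finset_iff] at hcon
    exact hz hcon
  obtain ⟨wx, hwx1, hwx2, hwx3⟩ := gc_t72_word (k x) (hout x hx)
  obtain ⟨wy, hwy1, hwy2, hwy3⟩ := gc_t72_word (k y) (hout y hy)
  have hkp : k p = gcPt (gcBase 0) := by rw [← hx0]; exact hkx 0
  have hkq : k q = gcPt (gcBase 1) := by rw [← hx1]; exact hkx 1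
  have hkr : k r = gcPt (gcBase 2) := by rw [← hx2]; exact hkx 2
  have hconj : ∀ z z' : Cfsg.GolayPt, gcWord wx (k z) = gcWord wy (k z') →
      (k⁻¹ * ((gcWord wy)⁻¹ * gcWord wx) * k) z = z' := by
    intro z z' h
    rw [Equiv.Perm.mul_apply, Equiv.Perm.mul_apply, Equiv.Perm.mul_apply, h]
    have h1 : (gcWord wy)⁻¹ (gcWord wy (k z')) = k z' := (gcWord wy).symm_apply_apply _
    rw [h1]
    exact k.symm_apply_apply _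
  refine ⟨k⁻¹ * ((gcWord wy)⁻¹ * gcWord wx) * k,
    mul_mem (mul_mem (inv_mem hk) (mul_mem (inv_mem (gc_word_mem _)) (gc_word_mem _))) hk,
    ?_, ?_, ?_, ?_, ?_⟩
  · rw [mul_smul, mul_smul, mul_smul, hkd, hwx2, inv_smul_eq_iff.mpr hwy2.symm,
      inv_smul_eq_iff.mpr hkd.symm]
  · apply hconj
    rw [hkp, hwx1 0 (by norm_num), hwy1 0 (by norm_num)]
  · apply hconj
    rw [hkq, hwx1 1 (by norm_num), hwy1 1 (by norm_num)]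
  · apply hconj
    rw [hkr, hwx1 2 (by norm_num), hwy1 2 (by norm_num)]
  · apply hconj
    rw [hwx3, hwy3]

/-- the stabiliser of a dodecad and a point on it is 3-transitive on the complement -/
theorem gc_dodecad_pt_three (d : Finset Cfsg.GolayPt) (hd : d ∈ Cfsg.dodecads)
    (p : Cfsg.GolayPt) (hp : p ∈ d) (x y : Fin 3 ↪ Cfsg.GolayPt) (hx : ∀ i, x i ∉ d)
    (hy : ∀ i, y i ∉ d) : ∃ g ∈ Cfsg.M24, g • d = d ∧ g p = p ∧ ∀ i, g (x i) = y i := by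
  have hD := gc_compl_dodecad hd
  have hD12 := ((gc_dodecad_iff dᶜ).mp hD).2
  have hxD : ∀ i, x i ∈ dᶜ := fun i => Finset.mem_compl.mpr (hx i)
  have hyD : ∀ i, y i ∈ dᶜ := fun i => Finset.mem_compl.mpr (hy i)
  obtain ⟨xe, hx0, hx1, hx2, hxe⟩ := gc_emb_three dᶜ hD12 (x 0) (x 1) (x 2) (hxD 0) (hxD 1)
    (hxD 2) (x.injective.ne (by decide)) (x.injective.ne (by decide))
    (x.injective.ne (by decide))
  obtain ⟨ye, hy0, hy1, hy2, hye⟩ := gc_emb_three dᶜ hD12 (y 0) (y 1) (y 2) (hyD 0) (hyD 1)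
    (hyD 2) (y.injective.ne (by decide)) (y.injective.ne (by decide))
    (y.injective.ne (by decide))
  obtain ⟨g1, hg1, hg1d, hg1x⟩ := gc_dodecad_five dᶜ hD xe ye hxe hye
  have hpD : p ∉ dᶜ := fun h => (Finset.mem_compl.mp h) hp
  have hg1p : g1 p ∉ dᶜ := by
    intro hcon
    rw [← hg1d, ← Equiv.Perm.smul_def, Finset.smul_mem_smul_finset_iff] at hcon
    exact hpD hcon
  obtain ⟨g2, hg2, hg2d, hg20, hg21, hg22, hg2p⟩ := gc_dodecad_three_trans dᶜ hD (y 0) (y 1)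
    (y 2) (hyD 0) (hyD 1) (hyD 2) (y.injective.ne (by decide)) (y.injective.ne (by decide))
    (y.injective.ne (by decide)) (g1 p) p hg1p hpD
  refine ⟨g2 * g1, mul_mem hg2 hg1, ?_, ?_, gc_forall3 ?_ ?_ ?_⟩
  · have h1 : (g2 * g1) • dᶜ = dᶜ := by rw [mul_smul, hg1d, hg2d]
    have h2 := gc_smul_compl h1
    rwa [compl_compl] at h2
  · rw [Equiv.Perm.mul_apply, hg2p]
  · rw [Equiv.Perm.mul_apply, ← hx0, hg1x 0, hy0, hg20]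
  · rw [Equiv.Perm.mul_apply, ← hx1, hg1x 1, hy1, hg21]
  · rw [Equiv.Perm.mul_apply, ← hx2, hg1x 2, hy2, hg22]

end Cfsg.Agent.Lib.Helper7
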