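import Mathlib
import Cfsg.Prelude
import Cfsg.Agent.Lib.Helper7.GolayC18

set_option autoImplicit false

namespace Cfsg.Agent.Lib.Helper7

open scoped Pointwise

theorem gc_mem_K4 (d : Finset Cfsg.GolayPt) (p q r : Cfsg.GolayPt) (g : Cfsg.M24) :
    g ∈ MulAction.stabilizer Cfsg.M24 d ⊓ MulAction.stabilizer Cfsg.M24 p ⊓
      MulAction.stabilizer Cfsg.M24 q ⊓ MulAction.stabilizer Cfsg.M24 r ↔
    (g : Equiv.Perm Cfsg.GolayPt) • d = d ∧ (g : Equiv.Perm Cfsg.GolayPt) p = p ∧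
      (g : Equiv.Perm Cfsg.GolayPt) q = q ∧ (g : Equiv.Perm Cfsg.GolayPt) r = r := by
  simp only [Subgroup.mem_inf, MulAction.mem_stabilizer_iff, and_assoc]
  exact Iff.rfl

/-- the stabiliser of three points of a dodecad in its stabiliser has order 72 -/
theorem gc_dodecad_three_card (d : Finset Cfsg.GolayPt) (hd : d ∈ Cfsg.dodecads)
    (p q r : Cfsg.GolayPt) (hp : p ∈ d) (hq : q ∈ d) (hr : r ∈ d) (hpq : p ≠ q) (hpr : p ≠ r)
    (hqr : q ≠ r) :
    Nat.card ↥(MulAction.stabilizer Cfsg.M24 d ⊓ MulAction.stabilizer Cfsg.M24 p ⊓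
      MulAction.stabilizer Cfsg.M24 q ⊓ MulAction.stabilizer Cfsg.M24 r) = 72 := by
  classical
  have h12 := ((gc_dodecad_iff d).mp hd).2
  obtain ⟨x, hx0, hx1, hx2, hxd⟩ := gc_emb_three d h12 p q r hp hq hr hpq hpr hqr
  have hTc : (((d.erase p).erase q).erase r).card = 9 := by
    rw [Finset.card_erase_of_mem (Finset.mem_erase.mpr ⟨hqr.symm, Finset.mem_erase.mpr
      ⟨hpr.symm, hr⟩⟩), Finset.card_erase_of_mem (Finset.mem_erase.mpr ⟨hpq.symm, hq⟩),
      Finset.card_erase_of_mem hp, h12]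
  have hmemT : ∀ z, z ∈ ((d.erase p).erase q).erase r ↔ z ≠ r ∧ z ≠ q ∧ z ≠ p ∧ z ∈ d := by
    intro z
    simp only [Finset.mem_erase]
  have hx3 : x 3 ≠ r ∧ x 3 ≠ q ∧ x 3 ≠ p := by
    refine ⟨?_, ?_, ?_⟩
    · rw [← hx2]; exact x.injective.ne (by decide)
    · rw [← hx1]; exact x.injective.ne (by decide)
    · rw [← hx0]; exact x.injective.ne (by decide)
  have hx4 : x 4 ≠ r ∧ x 4 ≠ q ∧ x 4 ≠ p := by
    refine ⟨?_, ?_, ?_⟩
    · rw [← hx2]; exact x.injective.ne (by decide)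
    · rw [← hx1]; exact x.injective.ne (by decide)
    · rw [← hx0]; exact x.injective.ne (by decide)
  have hmem : ∀ g : ↥(MulAction.stabilizer Cfsg.M24 d ⊓ MulAction.stabilizer Cfsg.M24 p ⊓
      MulAction.stabilizer Cfsg.M24 q ⊓ MulAction.stabilizer Cfsg.M24 r),
      ((((g : Cfsg.M24) : Equiv.Perm Cfsg.GolayPt) (x 3)),
        (((g : Cfsg.M24) : Equiv.Perm Cfsg.GolayPt) (x 4))) ∈
        (((d.erase p).erase q).erase r).offDiag := by
    intro g
    obtain ⟨hgd, hgp, hgq, hgr⟩ := (gc_mem_K4 d p q r g).mp g.2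
    have hin : ∀ z ∈ d, z ≠ r → z ≠ q → z ≠ p →
        ((g : Cfsg.M24) : Equiv.Perm Cfsg.GolayPt) z ∈ ((d.erase p).erase q).erase r := by
      intro z hz h1 h2 h3
      rw [hmemT]
      refine ⟨?_, ?_, ?_, ?_⟩
      · intro h
        apply h1
        apply ((g : Cfsg.M24) : Equiv.Perm Cfsg.GolayPt).injective
        rw [h, hgr]
      · intro h
        apply h2
        apply ((g : Cfsg.M24) : Equiv.Perm Cfsg.GolayPt).injective
        rw [h, hgq]
      · intro h
        apply h3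
        apply ((g : Cfsg.M24) : Equiv.Perm Cfsg.GolayPt).injective
        rw [h, hgp]
      · have h4 : ((g : Cfsg.M24) : Equiv.Perm Cfsg.GolayPt) • z ∈
            ((g : Cfsg.M24) : Equiv.Perm Cfsg.GolayPt) • d := Finset.smul_mem_smul_finset hz
        rw [hgd] at h4
        exact h4
    rw [Finset.mem_offDiag]
    refine ⟨hin _ (hxd 3) hx3.1 hx3.2.1 hx3.2.2, hin _ (hxd 4) hx4.1 hx4.2.1 hx4.2.2, ?_⟩
    intro h
    exact absurd (x.injective (((g : Cfsg.M24) : Equiv.Perm Cfsg.GolayPt).injective h))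
      (by decide)
  have hbij : Function.Bijective (fun g : ↥(MulAction.stabilizer Cfsg.M24 d ⊓
      MulAction.stabilizer Cfsg.M24 p ⊓ MulAction.stabilizer Cfsg.M24 q ⊓
      MulAction.stabilizer Cfsg.M24 r) =>
      (⟨_, hmem g⟩ : {ab // ab ∈ (((d.erase p).erase q).erase r).offDiag})) := by
    constructor
    · intro g g' h
      have h0 := congrArg Subtype.val h
      have h3 : ((g : Cfsg.M24) : Equiv.Perm Cfsg.GolayPt) (x 3) =
          ((g' : Cfsg.M24) : Equiv.Perm Cfsg.GolayPt) (x 3) := congrArg Prod.fst h0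
      have h4 : ((g : Cfsg.M24) : Equiv.Perm Cfsg.GolayPt) (x 4) =
          ((g' : Cfsg.M24) : Equiv.Perm Cfsg.GolayPt) (x 4) := congrArg Prod.snd h0
      obtain ⟨hgd, hgp, hgq, hgr⟩ := (gc_mem_K4 d p q r g).mp g.2
      obtain ⟨hgd', hgp', hgq', hgr'⟩ := (gc_mem_K4 d p q r g').mp g'.2
      have h1 : ((g : Cfsg.M24) : Equiv.Perm Cfsg.GolayPt)⁻¹ *
          ((g' : Cfsg.M24) : Equiv.Perm Cfsg.GolayPt) = 1 := by
        apply gc_dodecad_sharp d hd x hxd (mul_mem (inv_mem (g : Cfsg.M24).2) (g' : Cfsg.M24).2)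
        · rw [mul_smul, hgd', inv_smul_eq_iff, hgd]
        · refine gc_forall5 ?_ ?_ ?_ ?_ ?_
          · rw [Equiv.Perm.mul_apply, hx0, hgp']
            exact (Equiv.symm_apply_eq _).mpr hgp.symm
          · rw [Equiv.Perm.mul_apply, hx1, hgq']
            exact (Equiv.symm_apply_eq _).mpr hgq.symm
          · rw [Equiv.Perm.mul_apply, hx2, hgr']
            exact (Equiv.symm_apply_eq _).mpr hgr.symm
          · rw [Equiv.Perm.mul_apply, ← h3]
            exact Equiv.symm_apply_apply _ _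
          · rw [Equiv.Perm.mul_apply, ← h4]
            exact Equiv.symm_apply_apply _ _
      exact Subtype.ext (Subtype.ext (inv_mul_eq_one.mp h1))
    · rintro ⟨⟨a, b⟩, hab⟩
      have hab' := Finset.mem_offDiag.mp hab
      obtain ⟨har, haq, hap, had⟩ := (hmemT a).mp hab'.1
      obtain ⟨hbr, hbq, hbp, hbd⟩ := (hmemT b).mp hab'.2.1
      have hne : a ≠ b := hab'.2.2
      obtain ⟨y, hy0, hy1, hy2, hy3, hy4⟩ := gc_emb5 p q r a b (by
        simp only [List.nodup_cons, List.mem_cons, List.not_mem_nil, or_false, not_or,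
          List.nodup_nil, and_true, not_false_eq_true]
        exact ⟨⟨hpq, hpr, Ne.symm hap, Ne.symm hbp⟩, ⟨hqr, Ne.symm haq, Ne.symm hbq⟩,
          ⟨Ne.symm har, Ne.symm hbr⟩, hne⟩)
      have hyd : ∀ i, y i ∈ d := by
        refine gc_forall5 ?_ ?_ ?_ ?_ ?_
        · rw [hy0]; exact hp
        · rw [hy1]; exact hq
        · rw [hy2]; exact hr
        · rw [hy3]; exact had
        · rw [hy4]; exact hbd
      obtain ⟨g, hg, hgd, hgx⟩ := gc_dodecad_five d hd x y hxd hyd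
      have hgK : (⟨g, hg⟩ : Cfsg.M24) ∈ MulAction.stabilizer Cfsg.M24 d ⊓
          MulAction.stabilizer Cfsg.M24 p ⊓ MulAction.stabilizer Cfsg.M24 q ⊓
          MulAction.stabilizer Cfsg.M24 r := by
        rw [gc_mem_K4]
        refine ⟨hgd, ?_, ?_, ?_⟩
        · have h := hgx 0
          rwa [hx0, hy0] at h
        · have h := hgx 1
          rwa [hx1, hy1] at h
        · have h := hgx 2
          rwa [hx2, hy2] at h
      refine ⟨⟨⟨g, hg⟩, hgK⟩, ?_⟩
      apply Subtype.ext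
      show (g (x 3), g (x 4)) = (a, b)
      rw [hgx 3, hgx 4, hy3, hy4]
  rw [Nat.card_eq_of_bijective _ hbij, Nat.card_eq_fintype_card, Fintype.card_coe,
    Finset.offDiag_card, hTc]

end Cfsg.Agent.Lib.Helper7
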