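import Mathlib
import Cfsg.Prelude
import Cfsg.Agent.Lib.Helper7.GolayC19

set_option autoImplicit false

namespace Cfsg.Agent.Lib.Helper7

open scoped Pointwise

/-- octads are the sets of the code masks of weight eight -/
theorem gc_octad_mask (o : Finset Cfsg.GolayPt) (ho : o ∈ Cfsg.octads) :
    ∃ b < 4096, o = gcSet (gcCw b) ∧ gcPop (gcCw b) = 8 := by
  have ho' := (gc_octad_iff o).mp ho
  obtain ⟨b, hb, rfl⟩ := gc_set_enum o ho'.1
  exact ⟨b, hb, rfl, by rw [← gc_set_card]; exact ho'.2⟩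

theorem gc_set_inter (m m' : ℕ) : gcSet m ∩ gcSet m' = gcSet (m &&& m') := by
  ext p
  obtain ⟨a, rfl⟩ := gcEquiv.surjective p
  show gcPt a ∈ gcSet m ∩ gcSet m' ↔ gcPt a ∈ gcSet (m &&& m')
  rw [Finset.mem_inter, gc_mem_set, gc_mem_set, gc_mem_set, Nat.testBit_and, Bool.and_eq_true]

/-- a bit of a number, by division -/
def gcBitF (m a : ℕ) : ℕ := m / 2 ^ a % 2

theorem gc_bitF (m a : ℕ) : m.testBit a = decide (gcBitF m a = 1) :=
  Nat.testBit_eq_decide_div_mod_eq

theorem gc_bitF_eq {m a m' a' : ℕ} (h : gcBitF m a = gcBitF m' a') :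
    m.testBit a = m'.testBit a' := by
  rw [gc_bitF, gc_bitF, h]

theorem gc_bitF_ite (m a : ℕ) : (if m.testBit a = true then 1 else 0) = gcBitF m a := by
  rw [gc_bitF]
  unfold gcBitF
  rcases Nat.mod_two_eq_zero_or_one (m / 2 ^ a) with h | h <;> simp [h]

/-- the weight of a mask, by division -/
def gcPopF (m : ℕ) : ℕ := gcBitF m 0 + gcBitF m 1 + gcBitF m 2 + gcBitF m 3 + gcBitF m 4 + gcBitF m 5 + gcBitF m 6 + gcBitF m 7 + gcBitF m 8 + gcBitF m 9 + gcBitF m 10 + gcBitF m 11 + gcBitF m 12 + gcBitF m 13 + gcBitF m 14 + gcBitF m 15 + gcBitF m 16 + gcBitF m 17 + gcBitF m 18 + gcBitF m 19 + gcBitF m 20 + gcBitF m 21 + gcBitF m 22 + gcBitF m 23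

theorem gc_set_cardF (m : ℕ) : (gcSet m).card = gcPopF m := by
  rw [gc_set_card]
  unfold gcPop
  rw [Finset.card_filter, Finset.sum_congr rfl (fun a _ => gc_bitF_ite m a.val),
    Fin.sum_univ_eq_sum_range (fun a => gcBitF m a) 24]
  simp only [Finset.sum_range_succ, Finset.sum_range_zero, zero_add]
  rfl

theorem gc_bit_mul (b j m : ℕ) : (if b.testBit j = true then m else 0) = gcBitF b j * m := by
  rw [gc_bitF]
  unfold gcBitF
  rcases Nat.mod_two_eq_zero_or_one (b / 2 ^ j) with h | h <;> simp [h]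

/-- the code word with information bits `b`, by arithmetic -/
def gcCwF (b : ℕ) : ℕ := gcBitF b 0 * 13062145 ^^^ (gcBitF b 1 * 4845570 ^^^ (gcBitF b 2 * 13938692 ^^^ (gcBitF b 3 * 7221256 ^^^ (gcBitF b 4 * 10170384 ^^^ (gcBitF b 5 * 11952160 ^^^ (gcBitF b 6 * 15515712 ^^^ (gcBitF b 7 * 2019456 ^^^ (gcBitF b 8 * 4038912 ^^^ (gcBitF b 9 * 8077824 ^^^ (gcBitF b 10 * 11654144 ^^^ (gcBitF b 11 * 14919680 ^^^ (0))))))))))))

theorem gc_cwF (b : ℕ) : gcCwF b = gcCw b := by
  unfold gcCw gcBM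
  simp only [gcCwAux, gc_bit_mul]
  rfl

/-- conjunction over the 24 indices -/
def gcAll24 (p : ℕ → Bool) : Bool := p 0 && p 1 && p 2 && p 3 && p 4 && p 5 && p 6 && p 7 && p 8 && p 9 && p 10 && p 11 && p 12 && p 13 && p 14 && p 15 && p 16 && p 17 && p 18 && p 19 && p 20 && p 21 && p 22 && p 23

theorem gc_all24 (p : ℕ → Bool) (h : gcAll24 p = true) : ∀ a < 24, p a = true := by
  unfold gcAll24 at h
  simp only [Bool.and_eq_true] at h
  intro a ha
  interval_cases a <;> simp only [h]

theorem gc_eval_append (u v : List ℕ) (a : Fin 24) :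
    gcEval (u ++ v) a = gcEval u (gcEval v a) := by
  induction u with
  | nil => rfl
  | cons g u ih =>
    show gcGenTab g (gcEval (u ++ v) a) = gcGenTab g (gcEval u (gcEval v a))
    rw [ih]

/-- a macro generator acting on indices: the tables are packed five bits per entry -/
def gcStepX (MP g a : ℕ) : ℕ := MP / 32 ^ (24 * g + a) % 32

/-- a word in the macro generators acting on indices -/
def gcEvalX (MP : ℕ) : List ℕ → ℕ → ℕ
  | [], a => a
  | g :: w, a => gcStepX MP g (gcEvalX MP w a)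

/-- expansion of a word in the macro generators -/
def gcExpand (MW : List (List ℕ)) : List ℕ → List ℕ
  | [] => []
  | g :: w => MW.getD g [] ++ gcExpand MW w

/-- index table of a generator, as natural numbers -/
def gcGenLN (g : ℕ) : List ℕ := if g = 0 then gcShiftL else if g = 1 then gcProjL else gcCubeL

/-- a word acting on indices, as natural numbers -/
def gcEvalN : List ℕ → ℕ → ℕ
  | [], a => a
  | g :: w, a => (gcGenLN g).getD (gcEvalN w a) 0

theorem gc_genLN_tab : ∀ a : Fin 24, gcShiftL.getD a.val 0 < 24 ∧ gcProjL.getD a.val 0 < 24 ∧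
    gcCubeL.getD a.val 0 < 24 := by
  decide +kernel

theorem gc_evalN (w : List ℕ) (a : Fin 24) : gcEvalN w a.val = (gcEval w a).val := by
  induction w with
  | nil => rfl
  | cons g w ih =>
    show (gcGenLN g).getD (gcEvalN w a.val) 0 = (gcGenTab g (gcEval w a)).val
    rw [ih]
    unfold gcGenTab gcGenLN gcGenL
    have h := gc_genLN_tab (gcEval w a)
    split_ifs
    · exact (Nat.mod_eq_of_lt h.1).symm
    · exact (Nat.mod_eq_of_lt h.2.1).symm
    · exact (Nat.mod_eq_of_lt h.2.2).symm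

/-- the packed tables agree with the macro words -/
def gcMacChk (K : ℕ) (MW : List (List ℕ)) (MP : ℕ) : Bool :=
  (List.range K).all (fun g => (List.range 24).all (fun a =>
    gcStepX MP g a == gcEvalN (MW.getD g []) a))

theorem gc_evalX (K : ℕ) (MW : List (List ℕ)) (MP : ℕ) (h : gcMacChk K MW MP = true)
    (w : List ℕ) (hw : ∀ g ∈ w, g < K) (a : Fin 24) :
    gcEvalX MP w a.val = (gcEval (gcExpand MW w) a).val := by
  induction w with
  | nil => rfl
  | cons g w ih =>
    show gcStepX MP g (gcEvalX MP w a.val) = (gcEval (MW.getD g [] ++ gcExpand MW w) a).val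
    rw [ih (fun g' hg' => hw g' (List.mem_cons_of_mem _ hg')), gc_eval_append]
    unfold gcMacChk at h
    rw [List.all_eq_true] at h
    have h1 := h g (List.mem_range.mpr (hw g List.mem_cons_self))
    rw [List.all_eq_true] at h1
    have h2 := beq_iff_eq.mp (h1 (gcEval (gcExpand MW w) a).val
      (List.mem_range.mpr (Fin.isLt _)))
    rw [gc_evalN] at h2
    exact h2

/-- decode a word from its base-`K` code with leading digit 1 -/
def gcDecK (K : ℕ) : ℕ → ℕ → List ℕ
  | 0, _ => []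
  | fuel + 1, c => if c ≤ 1 then [] else (c % K) :: gcDecK K fuel (c / K)

theorem gc_decK_lt (K : ℕ) (hK : 0 < K) (fuel c : ℕ) : ∀ g ∈ gcDecK K fuel c, g < K := by
  induction fuel generalizing c with
  | zero => intro g hg; exact absurd hg List.not_mem_nil
  | succ fuel ih =>
    intro g hg
    unfold gcDecK at hg
    split_ifs at hg with h
    · exact absurd hg List.not_mem_nil
    · rcases List.mem_cons.mp hg with rfl | hg'
      · exact Nat.mod_lt _ hK
      · exact ih _ g hg'

/-- the check at one point -/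
def gcChkPtF (z F m r a c : ℕ) : Bool :=
  (gcBitF z c == gcBitF z a) &&
    (((gcBitF F a == 0) || (c == a)) && (gcBitF r c == gcBitF m a))

/-- the check for one word in the macro generators -/
def gcChkX (MP z F : ℕ) (w : List ℕ) (m r : ℕ) : Bool :=
  gcAll24 (fun a => gcChkPtF z F m r a (gcEvalX MP w a))

/-- the check for one word: it stabilises the mask `z`, fixes the points of `F`, and carries
the mask `m` to the mask `r` -/
def gcPairChk (z F : ℕ) (w : List ℕ) (m r : ℕ) : Prop :=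
    (∀ a : Fin 24, z.testBit (gcEval w a).val = z.testBit a.val) ∧
    (∀ a : Fin 24, F.testBit a.val = true → gcEval w a = a) ∧
    (∀ a : Fin 24, r.testBit (gcEval w a).val = m.testBit a.val)

theorem gc_chk_sound (K : ℕ) (MW : List (List ℕ)) (MP : ℕ) (hmac : gcMacChk K MW MP = true)
    {z F : ℕ} {w : List ℕ} {m r : ℕ} (hw : ∀ g ∈ w, g < K)
    (h : gcChkX MP z F w m r = true) : gcPairChk z F (gcExpand MW w) m r := by
  have h' : ∀ a : Fin 24, gcChkPtF z F m r a.val (gcEval (gcExpand MW w) a).val = true := by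
    intro a
    have h1 := gc_all24 _ h a.val a.isLt
    rwa [gc_evalX K MW MP hmac w hw] at h1
  refine ⟨fun a => ?_, fun a ha => ?_, fun a => ?_⟩
  · have h1 := h' a
    unfold gcChkPtF at h1
    rw [Bool.and_eq_true, Bool.and_eq_true] at h1
    exact gc_bitF_eq (beq_iff_eq.mp h1.1)
  · have h1 := h' a
    unfold gcChkPtF at h1
    rw [Bool.and_eq_true, Bool.and_eq_true] at h1
    have h2 := h1.2.1
    rw [gc_bitF] at ha
    have h3 : gcBitF F a.val = 1 := of_decide_eq_true ha
    rw [h3] at h2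
    simp only [Bool.or_eq_true, beq_iff_eq] at h2
    rcases h2 with h2 | h2
    · exact absurd h2 (by norm_num)
    · exact Fin.ext h2
  · have h1 := h' a
    unfold gcChkPtF at h1
    rw [Bool.and_eq_true, Bool.and_eq_true] at h1
    exact gc_bitF_eq (beq_iff_eq.mp h1.2.2)

/-- the check of one row of the table -/
def gcRowChk (K MP T z n F : ℕ) (C : ℕ → Bool) (R : ℕ → ℕ) (b m : ℕ) : Bool :=
  !((gcPopF m == n) && C m) ||
    gcChkX MP z F (gcDecK K 16 (T / 4294967296 ^ b % 4294967296)) m (R (gcPopF (m &&& z)))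

/-- the check of the whole table -/
def gcTabChk (K MP T z n F : ℕ) (C : ℕ → Bool) (R : ℕ → ℕ) : Bool :=
  (List.range 4096).all (fun b => gcRowChk K MP T z n F C R b (gcCwF b))

/-- the word of a code set, from a table -/
theorem gc_pair_word (K : ℕ) (MW : List (List ℕ)) (MP T z n F : ℕ) (C : ℕ → Bool) (R : ℕ → ℕ)
    (hK : 0 < K) (hmac : gcMacChk K MW MP = true) (htab : gcTabChk K MP T z n F C R = true)
    (o' : Finset Cfsg.GolayPt) (hcode : g24Ind o' ∈ Cfsg.golayCode) (hcard : o'.card = n)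
    (hC' : ∀ m, o' = gcSet m → C m = true) :
    ∃ w : List ℕ, gcWord w • gcSet z = gcSet z ∧
      (∀ a : Fin 24, F.testBit a.val = true → gcWord w (gcPt a) = gcPt a) ∧
      gcWord w • o' = gcSet (R (gcSet z ∩ o').card) := by
  obtain ⟨b, hb, rfl⟩ := gc_set_enum o' hcode
  have hpop : gcPopF (gcCw b) = n := by rw [← gc_set_cardF]; exact hcard
  unfold gcTabChk at htab
  rw [List.all_eq_true] at htab
  have h := htab b (List.mem_range.mpr hb)
  unfold gcRowChk at h
  rw [gc_cwF, hpop, hC' _ rfl] at h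
  simp only [beq_self_eq_true, Bool.and_self, Bool.not_true, Bool.false_or] at h
  obtain ⟨h1, h2, h3⟩ := gc_chk_sound K MW MP hmac (gc_decK_lt K hK _ _) h
  refine ⟨_, gc_word_set _ _ _ h1, fun a ha => by rw [gc_word_rep, h2 a ha], ?_⟩
  rw [gc_set_inter, gc_set_cardF, Nat.land_comm]
  exact gc_word_set _ _ _ h3

/-- two code sets meeting the standard set equally are in one orbit of its stabiliser -/
theorem gc_pair_orbit (K : ℕ) (MW : List (List ℕ)) (MP T z n F : ℕ) (C : ℕ → Bool) (R : ℕ → ℕ)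
    (hK : 0 < K) (hmac : gcMacChk K MW MP = true) (htab : gcTabChk K MP T z n F C R = true)
    (o' o'' : Finset Cfsg.GolayPt) (hcode' : g24Ind o' ∈ Cfsg.golayCode) (hcard' : o'.card = n)
    (hcode'' : g24Ind o'' ∈ Cfsg.golayCode) (hcard'' : o''.card = n)
    (hC' : ∀ m, o' = gcSet m → C m = true) (hC'' : ∀ m, o'' = gcSet m → C m = true)
    (h : (gcSet z ∩ o').card = (gcSet z ∩ o'').card) :
    ∃ g ∈ Cfsg.M24, g • gcSet z = gcSet z ∧
      (∀ a : Fin 24, F.testBit a.val = true → g (gcPt a) = gcPt a) ∧ g • o' = o'' := by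
  obtain ⟨w', h1', h2', h3'⟩ := gc_pair_word K MW MP T z n F C R hK hmac htab o' hcode' hcard' hC'
  obtain ⟨w'', h1'', h2'', h3''⟩ :=
    gc_pair_word K MW MP T z n F C R hK hmac htab o'' hcode'' hcard'' hC''
  refine ⟨(gcWord w'')⁻¹ * gcWord w', mul_mem (inv_mem (gc_word_mem _)) (gc_word_mem _),
    ?_, ?_, ?_⟩
  · rw [mul_smul, h1', inv_smul_eq_iff, h1'']
  · intro a ha
    rw [Equiv.Perm.mul_apply, h2' a ha]
    exact (Equiv.symm_apply_eq _).mpr (h2'' a ha).symm
  · rw [mul_smul, h3', h, inv_smul_eq_iff, h3'']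

/-- transport of a pair statement along a normalising element -/
theorem gc_pair_conj {k g : Equiv.Perm Cfsg.GolayPt} {o o' o'' : Finset Cfsg.GolayPt} {z : ℕ}
    (hk : k • o = gcSet z) (hg : g • gcSet z = gcSet z) (hg' : g • (k • o') = k • o'') :
    (k⁻¹ * g * k) • o = o ∧ (k⁻¹ * g * k) • o' = o'' := by
  constructor
  · rw [mul_smul, mul_smul, hk, hg, inv_smul_eq_iff, hk]
  · rw [mul_smul, mul_smul, hg', inv_smul_smul]

theorem gc_pt_conj {k g : Equiv.Perm Cfsg.GolayPt} {x : Cfsg.GolayPt}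
    (hg : g (k x) = k x) : (k⁻¹ * g * k) x = x := by
  rw [Equiv.Perm.mul_apply, Equiv.Perm.mul_apply, hg]
  exact k.symm_apply_apply x

theorem gc_inter_smul (k : Equiv.Perm Cfsg.GolayPt) (o o' : Finset Cfsg.GolayPt) :
    (k • o ∩ k • o').card = (o ∩ o').card := by
  rw [← Finset.smul_finset_inter, Finset.card_smul_finset]

end Cfsg.Agent.Lib.Helper7
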