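import Mathlib
import Cfsg.Prelude
import Cfsg.Agent.Lib.Helper7.GolayC21

set_option autoImplicit false

namespace Cfsg.Agent.Lib.Helper7

open scoped Pointwise

theorem gc_bitF_of_mem {m : ℕ} {a : Fin 24} (h : gcPt a ∈ gcSet m) : gcBitF m a.val = 1 := by
  have h1 := (gc_mem_set m a).mp h
  rw [gc_bitF] at h1
  exact of_decide_eq_true h1

theorem gc_bitF_of_not_mem {m : ℕ} {a : Fin 24} (h : gcPt a ∉ gcSet m) : gcBitF m a.val = 0 := by
  have h1 : ¬ (m.testBit a.val = true) := fun h2 => h ((gc_mem_set m a).mpr h2)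
  rw [gc_bitF] at h1
  have h2 : ¬ (gcBitF m a.val = 1) := fun h3 => h1 (decide_eq_true h3)
  unfold gcBitF at h2 ⊢
  rcases Nat.mod_two_eq_zero_or_one (m / 2 ^ a.val) with h3 | h3
  · exact h3
  · exact absurd h3 h2

theorem gc_set_injOn : Set.InjOn (fun b => gcSet (gcCw b)) (Finset.range 4096 : Set ℕ) := by
  intro b hb b' hb' h
  have h1 : gcMaskWord (gcCw b) = gcMaskWord (gcCw b') := by
    rw [← gc_ind_set, ← gc_ind_set]
    exact congrArg g24Ind h
  exact gc_cw_inj b b' (Finset.mem_range.mp (Finset.mem_coe.mp hb))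
    (Finset.mem_range.mp (Finset.mem_coe.mp hb')) h1

/-- number of code masks satisfying a condition -/
def gcCountF (Q : ℕ → Bool) : ℕ := ((List.range 4096).filter (fun b => Q (gcCwF b))).length

theorem gc_filter_card (N : ℕ) (Q : ℕ → Bool) :
    ((Finset.range N).filter (fun b => Q b = true)).card = ((List.range N).filter Q).length := by
  rw [← List.toFinset_card_of_nodup (List.Nodup.filter _ List.nodup_range)]
  congr 1
  ext b
  simp

/-- counting code sets by enumeration -/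
theorem gc_count (P : Finset Cfsg.GolayPt → Prop) (Q : ℕ → Bool)
    (hcode : ∀ S, P S → g24Ind S ∈ Cfsg.golayCode)
    (hPQ : ∀ b < 4096, (P (gcSet (gcCw b)) ↔ Q (gcCw b) = true)) :
    {S | P S}.ncard = gcCountF Q := by
  classical
  have hset : {S | P S} = ((((Finset.range 4096).filter (fun b => Q (gcCw b) = true)).image
      (fun b => gcSet (gcCw b)) : Finset (Finset Cfsg.GolayPt)) : Set (Finset Cfsg.GolayPt)) := by
    ext S
    rw [Set.mem_setOf_eq, Finset.mem_coe, Finset.mem_image]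
    constructor
    · intro hS
      obtain ⟨b, hb, rfl⟩ := gc_set_enum S (hcode S hS)
      exact ⟨b, Finset.mem_filter.mpr ⟨Finset.mem_range.mpr hb, (hPQ b hb).mp hS⟩, rfl⟩
    · rintro ⟨b, hb, rfl⟩
      rw [Finset.mem_filter] at hb
      exact (hPQ b (Finset.mem_range.mp hb.1)).mpr hb.2
  rw [hset, Set.ncard_coe_finset, Finset.card_image_of_injOn]
  · unfold gcCountF
    have hfun : (fun b => Q (gcCwF b)) = (fun b => Q (gcCw b)) := by
      funext b
      rw [gc_cwF]
    rw [hfun]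
    exact gc_filter_card 4096 (fun b => Q (gcCw b))
  · intro b hb b' hb' h
    exact gc_set_injOn (Finset.mem_coe.mpr (Finset.mem_filter.mp (Finset.mem_coe.mp hb)).1)
      (Finset.mem_coe.mpr (Finset.mem_filter.mp (Finset.mem_coe.mp hb')).1) h

/-- transport of a count along a group element -/
theorem gc_ncard_smul (k : Equiv.Perm Cfsg.GolayPt) (P P' : Finset Cfsg.GolayPt → Prop)
    (h : ∀ S, P S ↔ P' (k • S)) : {S | P S}.ncard = {S | P' S}.ncard := by
  have hset : {S | P' S} = (fun S : Finset Cfsg.GolayPt => k • S) '' {S | P S} := by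
    ext T
    rw [Set.mem_image]
    constructor
    · intro hT
      refine ⟨k⁻¹ • T, ?_, smul_inv_smul k T⟩
      rw [Set.mem_setOf_eq, h, smul_inv_smul]
      exact hT
    · rintro ⟨S, hS, rfl⟩
      exact (h S).mp hS
  rw [hset, Set.ncard_image_of_injective _ (MulAction.injective k)]

/-- the standard counting condition -/
def gcQ (n A1 A2 B z s : ℕ) (m : ℕ) : Bool :=
  (gcPopF m == n) && ((gcPopF (A1 &&& m) == gcPopF A1) && ((gcPopF (A2 &&& m) == gcPopF A2) &&
    ((gcPopF (B &&& m) == 0) && (gcPopF (z &&& m) == s))))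

theorem gc_sub_iff (A m : ℕ) : gcSet A ⊆ gcSet m ↔ gcPopF (A &&& m) = gcPopF A := by
  rw [← gc_set_cardF, ← gc_set_cardF, ← gc_set_inter]
  constructor
  · intro h
    rw [Finset.inter_eq_left.mpr h]
  · intro h
    have h1 := Finset.eq_of_subset_of_card_le (Finset.inter_subset_left (s₁ := gcSet A)
      (s₂ := gcSet m)) (le_of_eq h.symm)
    exact Finset.inter_eq_left.mp h1

theorem gc_disj_iff (B m : ℕ) : Disjoint (gcSet B) (gcSet m) ↔ gcPopF (B &&& m) = 0 := by
  rw [← gc_set_cardF, ← gc_set_inter, Finset.card_eq_zero, Finset.disjoint_iff_inter_eq_empty]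

theorem gc_count_std (n A1 A2 B z s : ℕ) :
    {S : Finset Cfsg.GolayPt | (g24Ind S ∈ Cfsg.golayCode ∧ S.card = n) ∧ gcSet A1 ⊆ S ∧
      gcSet A2 ⊆ S ∧ Disjoint (gcSet B) S ∧ (gcSet z ∩ S).card = s}.ncard =
    gcCountF (gcQ n A1 A2 B z s) := by
  apply gc_count
  · intro S hS
    exact hS.1.1
  · intro b hb
    unfold gcQ
    rw [Bool.and_eq_true, Bool.and_eq_true, Bool.and_eq_true, Bool.and_eq_true, beq_iff_eq,
      beq_iff_eq, beq_iff_eq, beq_iff_eq, beq_iff_eq, gc_sub_iff, gc_sub_iff, gc_disj_iff,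
      gc_set_inter, gc_set_cardF, gc_set_cardF]
    constructor
    · rintro ⟨⟨_, h1⟩, h2, h3, h4, h5⟩
      exact ⟨h1, h2, h3, h4, h5⟩
    · rintro ⟨h1, h2, h3, h4, h5⟩
      exact ⟨⟨gc_set_cw_mem b, h1⟩, h2, h3, h4, h5⟩

theorem gc_set_zero : gcSet 0 = ∅ := by
  ext p
  obtain ⟨a, rfl⟩ := gcEquiv.surjective p
  show gcPt a ∈ gcSet 0 ↔ gcPt a ∈ (∅ : Finset Cfsg.GolayPt)
  rw [gc_mem_set]
  simp

theorem gc_set_single (a : Fin 24) : gcSet (2 ^ a.val) = {gcPt a} := by
  ext p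
  obtain ⟨c, rfl⟩ := gcEquiv.surjective p
  show gcPt c ∈ gcSet (2 ^ a.val) ↔ gcPt c ∈ ({gcPt a} : Finset Cfsg.GolayPt)
  rw [gc_mem_set, Finset.mem_singleton, Nat.testBit_two_pow]
  constructor
  · intro h
    have h1 : a.val = c.val := by simpa using h
    rw [Fin.ext h1]
  · intro h
    have h1 : c = a := gcEquiv.injective h
    rw [h1]
    simp

theorem gc_octad_smul_iff {k : Equiv.Perm Cfsg.GolayPt} (hk : k ∈ Cfsg.M24)
    (S : Finset Cfsg.GolayPt) : k • S ∈ Cfsg.octads ↔ S ∈ Cfsg.octads := by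
  constructor
  · intro h
    have h1 := gc_M24_octad (inv_mem hk) h
    rwa [inv_smul_smul] at h1
  · exact gc_M24_octad hk

theorem gc_orbit_octad (o : Finset Cfsg.GolayPt) (ho : o ∈ Cfsg.octads) :
    MulAction.orbit Cfsg.M24 o = Cfsg.octads := by
  ext o'
  rw [MulAction.mem_orbit_iff]
  constructor
  · rintro ⟨g, rfl⟩
    exact gc_M24_octad g.2 ho
  · intro ho'
    exact gc_trans_octads o o' ho ho'

theorem gc_card_stab_octad (o : Finset Cfsg.GolayPt) (ho : o ∈ Cfsg.octads) :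
    Nat.card (MulAction.stabilizer Cfsg.M24 o) = 322560 := by
  have h1 := Subgroup.card_mul_index (MulAction.stabilizer Cfsg.M24 o)
  rw [MulAction.index_stabilizer, gc_card_M24, gc_orbit_octad o ho, gc_octads_card] at h1
  omega

/-- the octads meeting the standard octad in `s` points -/
theorem gc_cnt_inter (o : Finset Cfsg.GolayPt) (ho : o ∈ Cfsg.octads) (s : ℕ) :
    {o'' : Finset Cfsg.GolayPt | o'' ∈ Cfsg.octads ∧ (o ∩ o'').card = s}.ncard =
      gcCountF (gcQ 8 0 0 0 gcO0 s) := by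
  obtain ⟨k, hk⟩ := gc_trans_octads o (gcSet gcO0) ho gc_o0_mem
  have hkp : (k : Equiv.Perm Cfsg.GolayPt) • o = gcSet gcO0 := hk
  rw [← gc_count_std]
  apply gc_ncard_smul (k : Equiv.Perm Cfsg.GolayPt)
  intro S
  rw [← gc_octad_iff, gc_octad_smul_iff k.2, gc_set_zero, ← hkp, gc_inter_smul]
  simp

theorem gc_cnt_inter_tab : gcCountF (gcQ 8 0 0 0 gcO0 0) = 30 ∧
    gcCountF (gcQ 8 0 0 0 gcO0 4) = 280 ∧ gcCountF (gcQ 8 0 0 0 gcO0 2) = 448 := by
  decide +kernel

/-- order of the joint stabiliser of two octads from the orbit size -/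
theorem gc_joint_stab_card (o o' : Finset Cfsg.GolayPt) (ho : o ∈ Cfsg.octads)
    (ho' : o' ∈ Cfsg.octads) :
    Nat.card ↥(MulAction.stabilizer Cfsg.M24 o ⊓ MulAction.stabilizer Cfsg.M24 o') *
      gcCountF (gcQ 8 0 0 0 gcO0 (o ∩ o').card) = 322560 := by
  have hHc := gc_card_stab_octad o ho
  have e1 : Nat.card ↥(MulAction.stabilizer Cfsg.M24 o ⊓ MulAction.stabilizer Cfsg.M24 o') =
      Nat.card ((MulAction.stabilizer Cfsg.M24 o').subgroupOf
        (MulAction.stabilizer Cfsg.M24 o)) := by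
    rw [← Subgroup.inf_subgroupOf_left]
    exact (Nat.card_congr (Subgroup.subgroupOfEquivOfLe inf_le_left).toEquiv).symm
  have e2 : (MulAction.stabilizer Cfsg.M24 o').subgroupOf (MulAction.stabilizer Cfsg.M24 o) =
      MulAction.stabilizer (MulAction.stabilizer Cfsg.M24 o) o' := by
    ext g
    rw [Subgroup.mem_subgroupOf, MulAction.mem_stabilizer_iff, MulAction.mem_stabilizer_iff]
    rfl
  have horb : MulAction.orbit (MulAction.stabilizer Cfsg.M24 o) o' =
      {o'' : Finset Cfsg.GolayPt | o'' ∈ Cfsg.octads ∧ (o ∩ o'').card = (o ∩ o').card} := by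
    ext q
    rw [MulAction.mem_orbit_iff]
    constructor
    · rintro ⟨g, rfl⟩
      have h2 : ((g : Cfsg.M24) : Equiv.Perm Cfsg.GolayPt) • o = o := g.2
      refine ⟨gc_M24_octad (g : Cfsg.M24).2 ho', ?_⟩
      show (o ∩ ((g : Cfsg.M24) : Equiv.Perm Cfsg.GolayPt) • o').card = (o ∩ o').card
      have h3 : (o ∩ ((g : Cfsg.M24) : Equiv.Perm Cfsg.GolayPt) • o').card =
          (((g : Cfsg.M24) : Equiv.Perm Cfsg.GolayPt) • o ∩
            ((g : Cfsg.M24) : Equiv.Perm Cfsg.GolayPt) • o').card := by rw [h2]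
      rw [h3]
      exact gc_inter_smul _ _ _
    · rintro ⟨hq, hcard⟩
      obtain ⟨g, hg, hgo, hgq⟩ := gc_octad_pair_orbit o o' q ho ho' hq hcard.symm
      exact ⟨⟨⟨g, hg⟩, hgo⟩, hgq⟩
  have h1 := Subgroup.card_mul_index
    (MulAction.stabilizer (MulAction.stabilizer Cfsg.M24 o) o')
  rw [MulAction.index_stabilizer, horb, gc_cnt_inter o ho, hHc] at h1
  rw [e1, e2]
  exact h1

theorem gc_joint_stab (o o' : Finset Cfsg.GolayPt) (ho : o ∈ Cfsg.octads)
    (ho' : o' ∈ Cfsg.octads) :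
    ((o ∩ o').card = 0 → Nat.card ↥(MulAction.stabilizer Cfsg.M24 o ⊓
      MulAction.stabilizer Cfsg.M24 o') = 10752) ∧
    ((o ∩ o').card = 4 → Nat.card ↥(MulAction.stabilizer Cfsg.M24 o ⊓
      MulAction.stabilizer Cfsg.M24 o') = 1152) ∧
    ((o ∩ o').card = 2 → Nat.card ↥(MulAction.stabilizer Cfsg.M24 o ⊓
      MulAction.stabilizer Cfsg.M24 o') = 720) := by
  have h := gc_joint_stab_card o o' ho ho'
  refine ⟨fun h0 => ?_, fun h4 => ?_, fun h2 => ?_⟩
  · rw [h0, gc_cnt_inter_tab.1] at h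
    omega
  · rw [h4, gc_cnt_inter_tab.2.1] at h
    omega
  · rw [h2, gc_cnt_inter_tab.2.2] at h
    omega

end Cfsg.Agent.Lib.Helper7
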