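import Mathlib
import Cfsg.Prelude
import Cfsg.Agent.Lib.Helper7.GolayC22

set_option autoImplicit false

namespace Cfsg.Agent.Lib.Helper7

open scoped Pointwise

/-- normal form: an octad with five marked points is carried to the standard one -/
theorem gc_octad_norm (o : Finset Cfsg.GolayPt) (ho : o ∈ Cfsg.octads)
    (x : Fin 5 ↪ Cfsg.GolayPt) (hx : ∀ i, x i ∈ o) :
    ∃ k ∈ Cfsg.M24, (∀ i : Fin 5, k (x i) = gcPt (gcBase i.val)) ∧ k • o = gcSet gcO0 := by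
  obtain ⟨k, hk, hkx⟩ := gc_five_aux x 5 le_rfl
  refine ⟨k, hk, fun i => hkx i i.isLt, ?_⟩
  apply gc_octad_eq5 gc_o0_mem (gc_M24_octad hk ho)
  have hsub : (Finset.univ : Finset (Fin 5)).map gcX0 ⊆ gcSet gcO0 ∩ k • o := by
    intro p hp
    rw [Finset.mem_map] at hp
    obtain ⟨i, _, rfl⟩ := hp
    rw [Finset.mem_inter]
    constructor
    · exact (gc_mem_set _ _).mpr (gc_o0_base i.val i.isLt)
    · have h1 : gcX0 i = k (x i) := (hkx i i.isLt).symm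
      rw [h1, ← Equiv.Perm.smul_def]
      exact Finset.smul_mem_smul_finset (hx i)
  have hc := Finset.card_le_card hsub
  rw [Finset.card_map, Finset.card_univ, Fintype.card_fin] at hc
  exact hc

/-- normal form with a marked point outside the octad -/
theorem gc_octad_norm_out (o : Finset Cfsg.GolayPt) (ho : o ∈ Cfsg.octads)
    (x : Fin 5 ↪ Cfsg.GolayPt) (hx : ∀ i, x i ∈ o) (q : Cfsg.GolayPt) (hq : q ∉ o) :
    ∃ k ∈ Cfsg.M24, (∀ i : Fin 5, k (x i) = gcPt (gcBase i.val)) ∧ k • o = gcSet gcO0 ∧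
      k q = gcPt 4 := by
  obtain ⟨k1, hk1, hk1x, hk1o⟩ := gc_octad_norm o ho x hx
  obtain ⟨v, hv⟩ := gcEquiv.surjective (k1 q)
  have hv' : gcPt v = k1 q := hv
  have hvo : gcO0.testBit v.val = false := by
    by_contra hcon
    have h1 : gcPt v ∈ gcSet gcO0 := (gc_mem_set _ _).mpr (by simpa using hcon)
    rw [hv', ← hk1o, ← Equiv.Perm.smul_def, Finset.smul_mem_smul_finset_iff] at h1
    exact hq h1
  obtain ⟨h1, _, h3⟩ := gc_w48_tab 5 v gc_o0_five.1 gc_o0_five.2.1 hvo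
  have h4 := (gc_o0_fix_tab v hvo).2 4
  have h3' : gcEval (gcW48 5 v.val) 4 = v := h3
  rw [h3'] at h4
  have hfix : ∀ j < 5, gcWord (gcW48 5 v.val) (gcPt (gcBase j)) = gcPt (gcBase j) := by
    intro j hj
    rw [gc_word_rep]
    exact congrArg gcPt (h1 j hj)
  refine ⟨gcWord (gcW48 5 v.val) * k1, mul_mem (gc_word_mem _) hk1, fun i => ?_, ?_, ?_⟩
  · rw [Equiv.Perm.mul_apply, hk1x i]
    exact hfix i.val i.isLt
  · rw [mul_smul, hk1o]
    exact gc_inv_o0 (gc_word_mem _) hfix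
  · rw [Equiv.Perm.mul_apply, ← hv', gc_word_rep, h4]

theorem gc_exists_emb_pt2 (d : Finset Cfsg.GolayPt) (h : 5 ≤ d.card) (p q : Cfsg.GolayPt)
    (hp : p ∈ d) (hq : q ∈ d) (hpq : p ≠ q) :
    ∃ x : Fin 5 ↪ Cfsg.GolayPt, x 0 = p ∧ x 1 = q ∧ ∀ i, x i ∈ d := by
  classical
  have h3 : 3 ≤ ((d.erase p).erase q).card := by
    rw [Finset.card_erase_of_mem (Finset.mem_erase.mpr ⟨hpq.symm, hq⟩),
      Finset.card_erase_of_mem hp]
    omega
  obtain ⟨s, hs, hs3⟩ := Finset.exists_subset_card_eq h3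
  obtain ⟨a, b, c, hab, hac, hbc, rfl⟩ := Finset.card_eq_three.mp hs3
  have ha := hs (by simp : a ∈ ({a, b, c} : Finset Cfsg.GolayPt))
  have hb := hs (by simp : b ∈ ({a, b, c} : Finset Cfsg.GolayPt))
  have hc := hs (by simp : c ∈ ({a, b, c} : Finset Cfsg.GolayPt))
  simp only [Finset.mem_erase] at ha hb hc
  obtain ⟨x, hx0, hx1, hx2, hx3, hx4⟩ := gc_emb5 p q a b c (by
    simp only [List.nodup_cons, List.mem_cons, List.not_mem_nil, or_false, not_or,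
      List.nodup_nil, and_true, not_false_eq_true]
    exact ⟨⟨hpq, Ne.symm ha.2.1, Ne.symm hb.2.1, Ne.symm hc.2.1⟩,
      ⟨Ne.symm ha.1, Ne.symm hb.1, Ne.symm hc.1⟩, ⟨hab, hac⟩, hbc⟩)
  refine ⟨x, hx0, hx1, gc_forall5 ?_ ?_ ?_ ?_ ?_⟩
  · rw [hx0]; exact hp
  · rw [hx1]; exact hq
  · rw [hx2]; exact ha.2.2
  · rw [hx3]; exact hb.2.2
  · rw [hx4]; exact hc.2.2

theorem gc_base0 : gcBase 0 = 23 := by decide

theorem gc_base1 : gcBase 1 = 0 := by decide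

/-- an octad with a marked point on it -/
theorem gc_octad_norm1 (o : Finset Cfsg.GolayPt) (ho : o ∈ Cfsg.octads) (p : Cfsg.GolayPt)
    (hp : p ∈ o) : ∃ k ∈ Cfsg.M24, k • o = gcSet gcO0 ∧ k p = gcPt 23 := by
  obtain ⟨x, hx0, hx⟩ := gc_exists_emb_pt o (by rw [gc_octad_card ho]; norm_num) p hp
  obtain ⟨k, hk, hkx, hko⟩ := gc_octad_norm o ho x hx
  refine ⟨k, hk, hko, ?_⟩
  have h := hkx 0
  rwa [hx0] at h

/-- an octad with two marked points on it -/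
theorem gc_octad_norm2 (o : Finset Cfsg.GolayPt) (ho : o ∈ Cfsg.octads) (p q : Cfsg.GolayPt)
    (hp : p ∈ o) (hq : q ∈ o) (hpq : p ≠ q) :
    ∃ k ∈ Cfsg.M24, k • o = gcSet gcO0 ∧ k p = gcPt 23 ∧ k q = gcPt 0 := by
  obtain ⟨x, hx0, hx1, hx⟩ := gc_exists_emb_pt2 o (by rw [gc_octad_card ho]; norm_num) p q hp hq
    hpq
  obtain ⟨k, hk, hkx, hko⟩ := gc_octad_norm o ho x hx
  refine ⟨k, hk, hko, ?_, ?_⟩
  · have h := hkx 0
    rwa [hx0] at h
  · have h := hkx 1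
    rwa [hx1] at h

/-- an octad with a marked point off it -/
theorem gc_octad_norm3 (o : Finset Cfsg.GolayPt) (ho : o ∈ Cfsg.octads) (q : Cfsg.GolayPt)
    (hq : q ∉ o) : ∃ k ∈ Cfsg.M24, k • o = gcSet gcO0 ∧ k q = gcPt 4 := by
  obtain ⟨x, hx⟩ := gc_exists_emb o (by rw [gc_octad_card ho]; norm_num)
  obtain ⟨k, hk, _, hko, hkq⟩ := gc_octad_norm_out o ho x hx q hq
  exact ⟨k, hk, hko, hkq⟩

/-- an octad with a marked point on it and a marked point off it -/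
theorem gc_octad_norm4 (o : Finset Cfsg.GolayPt) (ho : o ∈ Cfsg.octads) (p q : Cfsg.GolayPt)
    (hp : p ∈ o) (hq : q ∉ o) :
    ∃ k ∈ Cfsg.M24, k • o = gcSet gcO0 ∧ k p = gcPt 23 ∧ k q = gcPt 4 := by
  obtain ⟨x, hx0, hx⟩ := gc_exists_emb_pt o (by rw [gc_octad_card ho]; norm_num) p hp
  obtain ⟨k, hk, hkx, hko, hkq⟩ := gc_octad_norm_out o ho x hx q hq
  refine ⟨k, hk, hko, ?_, hkq⟩
  have h := hkx 0
  rwa [hx0] at h

theorem gc_single_sub (k : Equiv.Perm Cfsg.GolayPt) (x : Cfsg.GolayPt) (a : Fin 24)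
    (hkx : k x = gcPt a) (S : Finset Cfsg.GolayPt) : gcSet (2 ^ a.val) ⊆ k • S ↔ x ∈ S := by
  rw [gc_set_single, Finset.singleton_subset_iff, ← hkx, ← Equiv.Perm.smul_def,
    Finset.smul_mem_smul_finset_iff]

theorem gc_single_disj (k : Equiv.Perm Cfsg.GolayPt) (x : Cfsg.GolayPt) (a : Fin 24)
    (hkx : k x = gcPt a) (S : Finset Cfsg.GolayPt) :
    Disjoint (gcSet (2 ^ a.val)) (k • S) ↔ x ∉ S := by
  rw [gc_set_single, Finset.disjoint_singleton_left, ← hkx, ← Equiv.Perm.smul_def,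
    Finset.smul_mem_smul_finset_iff]

theorem gc_zero_sub (T : Finset Cfsg.GolayPt) : gcSet 0 ⊆ T := by
  rw [gc_set_zero]
  exact Finset.empty_subset _

theorem gc_zero_disj (T : Finset Cfsg.GolayPt) : Disjoint (gcSet 0) T := by
  rw [gc_set_zero]
  exact Finset.disjoint_empty_left _

/-- a transported count of octads -/
theorem gc_cnt_gen (k : Equiv.Perm Cfsg.GolayPt) (hk : k ∈ Cfsg.M24) (o : Finset Cfsg.GolayPt)
    (z : ℕ) (hko : k • o = gcSet z) (A1 A2 B s : ℕ) (P : Finset Cfsg.GolayPt → Prop)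
    (hP : ∀ S, P S ↔ (S ∈ Cfsg.octads ∧ gcSet A1 ⊆ k • S ∧ gcSet A2 ⊆ k • S ∧
      Disjoint (gcSet B) (k • S) ∧ (o ∩ S).card = s)) :
    {S | P S}.ncard = gcCountF (gcQ 8 A1 A2 B z s) := by
  rw [← gc_count_std]
  apply gc_ncard_smul k
  intro S
  rw [hP S, ← gc_octad_iff, gc_octad_smul_iff hk, ← hko, gc_inter_smul]

end Cfsg.Agent.Lib.Helper7
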