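import Mathlib
import Cfsg.Prelude
import Cfsg.Agent.Lib.Helper7.GolayC23

set_option autoImplicit false

namespace Cfsg.Agent.Lib.Helper7

open scoped Pointwise

theorem gc_stab_mem {g : Equiv.Perm Cfsg.GolayPt} {S : Finset Cfsg.GolayPt} (h : g • S = S) :
    ∀ x, g x ∈ S ↔ x ∈ S := by
  intro x
  have h1 : g x ∈ g • S ↔ x ∈ S := by
    rw [← Equiv.Perm.smul_def, Finset.smul_mem_smul_finset_iff]
  rwa [h] at h1

theorem gc_mem_stab {g : Equiv.Perm Cfsg.GolayPt} {S : Finset Cfsg.GolayPt}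
    (h : ∀ x, g x ∈ S ↔ x ∈ S) : g • S = S := by
  ext y
  rw [← Finset.inv_smul_mem_iff]
  have h1 := h (g⁻¹ y)
  have e : g (g⁻¹ y) = y := g.apply_symm_apply y
  rw [e] at h1
  exact h1.symm

/-- the restriction homomorphism of a set stabiliser -/
noncomputable def gcRes (S : Finset Cfsg.GolayPt) :
    ↥(MulAction.stabilizer Cfsg.M24 S) →* Equiv.Perm ↥S where
  toFun g := ((g : Cfsg.M24) : Equiv.Perm Cfsg.GolayPt).subtypePerm (gc_stab_mem g.2)
  map_one' := Equiv.ext (fun _ => Subtype.ext rfl)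
  map_mul' _ _ := Equiv.ext (fun _ => Subtype.ext rfl)

theorem gc_res_range (S : Finset Cfsg.GolayPt) :
    {e : Equiv.Perm ↥S | ∃ g : Equiv.Perm Cfsg.GolayPt, g ∈ Cfsg.M24 ∧
      ∃ h : (∀ x, g x ∈ S ↔ x ∈ S), g.subtypePerm h = e} =
    ((gcRes S).range : Set (Equiv.Perm ↥S)) := by
  ext e
  constructor
  · rintro ⟨g, hg, h, rfl⟩
    exact ⟨⟨⟨g, hg⟩, gc_mem_stab h⟩, rfl⟩
  · rintro ⟨g, rfl⟩
    exact ⟨(g : Cfsg.M24), (g : Cfsg.M24).2, gc_stab_mem g.2, rfl⟩

theorem gc_fix_stab {g : Equiv.Perm Cfsg.GolayPt} {S : Finset Cfsg.GolayPt}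
    (h : ∀ y ∈ S, g y = y) : g • S = S := by
  apply gc_mem_stab
  intro x
  constructor
  · intro hx
    have h1 := h (g x) hx
    rw [g.injective h1] at hx
    exact hx
  · intro hx
    rw [h x hx]
    exact hx

theorem gc_res_ker_card (S : Finset Cfsg.GolayPt) :
    Nat.card (gcRes S).ker =
      Nat.card ↥(Cfsg.M24 ⊓ fixingSubgroup (Equiv.Perm Cfsg.GolayPt) (S : Set Cfsg.GolayPt)) := by
  have hfix : ∀ g : ↥(Cfsg.M24 ⊓ fixingSubgroup (Equiv.Perm Cfsg.GolayPt)
      (S : Set Cfsg.GolayPt)), ∀ y ∈ S, (g : Equiv.Perm Cfsg.GolayPt) y = y := by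
    intro g y hy
    exact (mem_fixingSubgroup_iff _).mp (Subgroup.mem_inf.mp g.2).2 y (Finset.mem_coe.mpr hy)
  refine Nat.card_congr
    { toFun := fun g => ⟨(((g : ↥(MulAction.stabilizer Cfsg.M24 S)) : Cfsg.M24) :
          Equiv.Perm Cfsg.GolayPt), Subgroup.mem_inf.mpr
          ⟨((g : ↥(MulAction.stabilizer Cfsg.M24 S)) : Cfsg.M24).2,
            (mem_fixingSubgroup_iff _).mpr (fun y hy => by
              have h1 : gcRes S (g : ↥(MulAction.stabilizer Cfsg.M24 S)) = 1 := g.2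
              have h2 := congrArg (fun e : Equiv.Perm ↥S => (e ⟨y, Finset.mem_coe.mp hy⟩ :
                Cfsg.GolayPt)) h1
              exact h2)⟩⟩
      invFun := fun g => ⟨⟨⟨(g : Equiv.Perm Cfsg.GolayPt), (Subgroup.mem_inf.mp g.2).1⟩,
          gc_fix_stab (hfix g)⟩, by
            rw [MonoidHom.mem_ker]
            exact Equiv.ext (fun x => Subtype.ext (hfix g x.1 x.2))⟩
      left_inv := fun g => Subtype.ext (Subtype.ext (Subtype.ext rfl))
      right_inv := fun g => Subtype.ext rfl }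

theorem gc_res_card (S : Finset Cfsg.GolayPt) :
    Nat.card ↥(MulAction.stabilizer Cfsg.M24 S) =
      Nat.card ↥(Cfsg.M24 ⊓ fixingSubgroup (Equiv.Perm Cfsg.GolayPt) (S : Set Cfsg.GolayPt)) *
        Nat.card (gcRes S).range := by
  rw [← gc_res_ker_card, ← Subgroup.index_ker, Subgroup.card_mul_index]

/-- the octad stabiliser induces the alternating group on the octad -/
theorem gc_octad_alt (o : Finset Cfsg.GolayPt) (ho : o ∈ Cfsg.octads) :
    {e : Equiv.Perm ↥o | ∃ g : Equiv.Perm Cfsg.GolayPt, g ∈ Cfsg.M24 ∧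
      ∃ h : (∀ x, g x ∈ o ↔ x ∈ o), g.subtypePerm h = e} =
    (alternatingGroup ↥o : Set (Equiv.Perm ↥o)) := by
  rw [gc_res_range]
  have h1 := gc_res_card o
  rw [gc_card_stab_octad o ho, (gc_octad_fix o ho).1] at h1
  have h2 := Subgroup.card_mul_index (gcRes o).range
  have hc : Nat.card ↥o = 8 := by
    rw [Nat.card_eq_fintype_card, Fintype.card_coe, gc_octad_card ho]
  rw [Nat.card_perm, hc] at h2
  have h8 : Nat.factorial 8 = 40320 := by decide
  rw [h8] at h2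
  have h3 : (gcRes o).range.index = 2 := by
    have h4 : Nat.card (gcRes o).range = 20160 := by omega
    rw [h4] at h2
    omega
  rw [Equiv.Perm.eq_alternatingGroup_of_index_eq_two h3]

end Cfsg.Agent.Lib.Helper7
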