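import Mathlib
import Cfsg.Prelude
import Cfsg.Agent.Lib.Helper7.GolayC23
import Cfsg.Agent.Lib.Helper7.Overgroup

set_option autoImplicit false

namespace Cfsg.Agent.Lib.Helper7

open scoped Pointwise

theorem gc_cnt8 : gcCountF (gcQ 8 0 0 0 gcO0 8) = 1 := by
  decide +kernel

/-- the stabiliser of an octad is a maximal subgroup -/
theorem gc_octad_stab_coatom (o : Finset Cfsg.GolayPt) (ho : o ∈ Cfsg.octads) :
    IsCoatom (MulAction.stabilizer Cfsg.M24 o) := by
  have hH := gc_card_stab_octad o ho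
  constructor
  · intro htop
    rw [htop, Subgroup.card_top, gc_card_M24] at hH
    norm_num at hH
  · intro K hK
    have hclass : ∀ y ∈ MulAction.orbit Cfsg.M24 o,
        (fun o' : Finset Cfsg.GolayPt => (o ∩ o').card) y ∈ ({8, 0, 4, 2} : Finset ℕ) := by
      intro y hy
      rw [gc_orbit_octad o ho] at hy
      rcases gc_octad_octad ho hy with h | h | h | h <;> simp [h]
    have htrans : ∀ y ∈ MulAction.orbit Cfsg.M24 o, ∀ y' ∈ MulAction.orbit Cfsg.M24 o,
        (fun o' : Finset Cfsg.GolayPt => (o ∩ o').card) y =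
          (fun o' : Finset Cfsg.GolayPt => (o ∩ o').card) y' →
        ∃ g ∈ MulAction.stabilizer Cfsg.M24 o, g • y = y' := by
      intro y hy y' hy' h
      rw [gc_orbit_octad o ho] at hy hy'
      obtain ⟨g, hg, hgo, hgy⟩ := gc_octad_pair_orbit o y y' ho hy hy' h
      exact ⟨⟨g, hg⟩, hgo, hgy⟩
    have hsize : ∀ s ∈ ({8, 0, 4, 2} : Finset ℕ), {y | y ∈ MulAction.orbit Cfsg.M24 o ∧
        (fun o' : Finset Cfsg.GolayPt => (o ∩ o').card) y = s}.ncard =
        (fun s => gcCountF (gcQ 8 0 0 0 gcO0 s)) s := by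
      intro s _
      rw [gc_orbit_octad o ho]
      exact gc_cnt_inter o ho s
    obtain ⟨I, hIt, hxI, hcard⟩ := og_card (G := Cfsg.M24) o
      (fun o' : Finset Cfsg.GolayPt => (o ∩ o').card) {8, 0, 4, 2}
      (fun s => gcCountF (gcQ 8 0 0 0 gcO0 s)) hclass htrans hsize K hK.le
    have h8 : 8 ∈ I := by
      have h1 : (o ∩ o).card = 8 := by rw [Finset.inter_self, gc_octad_card ho]
      have h2 : (o ∩ o).card ∈ I := hxI
      rwa [h1] at h2
    rw [← Finset.inter_eq_right.mpr hIt, ← Finset.sum_ite_mem, hH] at hcard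
    simp only [Finset.mem_insert, Finset.mem_singleton, OfNat.ofNat_ne_zero, OfNat.zero_ne_ofNat,
      Nat.reduceEqDiff, or_self, or_false, false_or, not_false_eq_true, Finset.sum_insert,
      Finset.sum_singleton, h8, if_true, gc_cnt8, gc_cnt_inter_tab.1, gc_cnt_inter_tab.2.1,
      gc_cnt_inter_tab.2.2] at hcard
    have hdvd := Subgroup.card_subgroup_dvd_card K
    rw [gc_card_M24] at hdvd
    by_cases h0 : 0 ∈ I <;> by_cases h4 : 4 ∈ I <;> by_cases h2 : 2 ∈ I <;>
      simp only [h0, h4, h2, if_true, if_false] at hcard <;> norm_num at hcard <;>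
      first
      | exact absurd (Subgroup.eq_of_le_of_card_ge hK.le (le_of_eq (hcard.trans hH.symm))) hK.ne
      | exact (Subgroup.card_eq_iff_eq_top K).mp (hcard.trans gc_card_M24.symm)
      | (exfalso; rw [hcard] at hdvd; norm_num at hdvd)

end Cfsg.Agent.Lib.Helper7
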