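import Mathlib
import Cfsg.Prelude
import Cfsg.Agent.Lib.Helper7.GolayC23

set_option autoImplicit false

namespace Cfsg.Agent.Lib.Helper7

open scoped Pointwise

theorem gc_list_ext (l : List Cfsg.GolayPt) (hl : l.Nodup) (h5 : l.length ≤ 5) :
    ∃ m : List Cfsg.GolayPt, (l ++ m).Nodup ∧ (l ++ m).length = 5 := by
  classical
  obtain ⟨n, hn⟩ : ∃ n, n = 5 - l.length := ⟨_, rfl⟩
  induction n generalizing l with
  | zero => exact ⟨[], by rwa [List.append_nil], by rw [List.append_nil]; omega⟩
  | succ n ih =>
    have hlt : l.toFinset.card < (Finset.univ : Finset Cfsg.GolayPt).card := by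
      rw [Finset.card_univ, gc_card_pt]
      have := List.toFinset_card_le l
      omega
    obtain ⟨e, _, he⟩ := Finset.exists_mem_notMem_of_card_lt_card hlt
    have he' : e ∉ l := fun h => he (List.mem_toFinset.mpr h)
    have hnd : (l ++ [e]).Nodup := by
      have h1 := List.Nodup.concat he' hl
      rwa [List.concat_eq_append] at h1
    obtain ⟨m, hm1, hm2⟩ := ih (l ++ [e]) hnd
      (by rw [List.length_append, List.length_singleton]; omega)
      (by rw [List.length_append, List.length_singleton]; omega)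
    refine ⟨e :: m, ?_, ?_⟩
    · rwa [List.append_assoc, List.singleton_append] at hm1
    · rwa [List.append_assoc, List.singleton_append] at hm2

/-- transitivity on lists of at most five distinct points -/
theorem gc_list_trans (l l' : List Cfsg.GolayPt) (hl : l.Nodup) (hl' : l'.Nodup)
    (hlen : l.length = l'.length) (h5 : l.length ≤ 5) : ∃ g ∈ Cfsg.M24, l.map g = l' := by
  obtain ⟨m, hm1, hm2⟩ := gc_list_ext l hl h5
  obtain ⟨m', hm1', hm2'⟩ := gc_list_ext l' hl' (hlen ▸ h5)
  have hx : Function.Injective (fun i : Fin 5 => (l ++ m).get (i.cast hm2.symm)) := by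
    intro i j h
    exact Fin.cast_injective _ ((List.nodup_iff_injective_get.mp hm1) h)
  have hy : Function.Injective (fun i : Fin 5 => (l' ++ m').get (i.cast hm2'.symm)) := by
    intro i j h
    exact Fin.cast_injective _ ((List.nodup_iff_injective_get.mp hm1') h)
  obtain ⟨k, hk, hkx⟩ := gc_five_aux ⟨_, hx⟩ 5 le_rfl
  obtain ⟨k', hk', hky⟩ := gc_five_aux ⟨_, hy⟩ 5 le_rfl
  refine ⟨k'⁻¹ * k, mul_mem (inv_mem hk') hk, ?_⟩
  apply List.ext_getElem
  · rw [List.length_map, hlen]
  · intro i h1 h2
    rw [List.getElem_map]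
    have hil : i < l.length := by rwa [List.length_map] at h1
    have hi5 : i < 5 := by omega
    have e1 : l[i] = (l ++ m).get ((⟨i, hi5⟩ : Fin 5).cast hm2.symm) := by
      rw [List.get_eq_getElem]
      exact (List.getElem_append_left hil).symm
    have e2 : l'[i] = (l' ++ m').get ((⟨i, hi5⟩ : Fin 5).cast hm2'.symm) := by
      rw [List.get_eq_getElem]
      exact (List.getElem_append_left h2).symm
    have h3 := hkx ⟨i, hi5⟩ hi5
    have h4 := hky ⟨i, hi5⟩ hi5
    rw [e1, e2, Equiv.Perm.mul_apply]
    have h3' : k ((l ++ m).get ((⟨i, hi5⟩ : Fin 5).cast hm2.symm)) = gcPt (gcBase i) := h3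
    have h4' : k' ((l' ++ m').get ((⟨i, hi5⟩ : Fin 5).cast hm2'.symm)) = gcPt (gcBase i) := h4
    rw [h3', ← h4']
    exact k'.symm_apply_apply _

theorem gc_smul_of_map (g : Equiv.Perm Cfsg.GolayPt) (P P' : Finset Cfsg.GolayPt)
    (h : P.toList.map g = P'.toList) : g • P = P' := by
  ext p
  rw [Finset.mem_smul_finset, ← Finset.mem_toList (s := P'), ← h, List.mem_map]
  constructor
  · rintro ⟨q, hq, rfl⟩
    exact ⟨q, Finset.mem_toList.mpr hq, rfl⟩
  · rintro ⟨q, hq, rfl⟩
    exact ⟨q, Finset.mem_toList.mp hq, rfl⟩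

theorem gc_pieces_nodup (P1 P2 P3 : Finset Cfsg.GolayPt) (h12 : Disjoint P1 P2)
    (h13 : Disjoint P1 P3) (h23 : Disjoint P2 P3) :
    (P1.toList ++ (P2.toList ++ P3.toList)).Nodup := by
  refine List.Nodup.append (Finset.nodup_toList _)
    (List.Nodup.append (Finset.nodup_toList _) (Finset.nodup_toList _) ?_) ?_
  · intro a ha hb
    exact Finset.disjoint_left.mp h23 (Finset.mem_toList.mp ha) (Finset.mem_toList.mp hb)
  · intro a ha hb
    rw [List.mem_append] at hb
    rcases hb with hb | hb
    · exact Finset.disjoint_left.mp h12 (Finset.mem_toList.mp ha) (Finset.mem_toList.mp hb)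
    · exact Finset.disjoint_left.mp h13 (Finset.mem_toList.mp ha) (Finset.mem_toList.mp hb)

/-- three disjoint pieces with at most five points in all are carried to three others -/
theorem gc_three_pieces (P1 P2 P3 P1' P2' P3' : Finset Cfsg.GolayPt) (h12 : Disjoint P1 P2)
    (h13 : Disjoint P1 P3) (h23 : Disjoint P2 P3) (h12' : Disjoint P1' P2')
    (h13' : Disjoint P1' P3') (h23' : Disjoint P2' P3') (c1 : P1.card = P1'.card)
    (c2 : P2.card = P2'.card) (c3 : P3.card = P3'.card)
    (h5 : P1.card + P2.card + P3.card ≤ 5) :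
    ∃ g ∈ Cfsg.M24, g • P1 = P1' ∧ g • P2 = P2' ∧ g • P3 = P3' := by
  obtain ⟨g, hg, hmap⟩ := gc_list_trans _ _ (gc_pieces_nodup P1 P2 P3 h12 h13 h23)
    (gc_pieces_nodup P1' P2' P3' h12' h13' h23')
    (by simp only [List.length_append, Finset.length_toList, c1, c2, c3])
    (by simp only [List.length_append, Finset.length_toList]; omega)
  rw [List.map_append, List.map_append] at hmap
  obtain ⟨e1, e23⟩ := List.append_inj hmap
    (by rw [List.length_map, Finset.length_toList, Finset.length_toList, c1])
  obtain ⟨e2, e3⟩ := List.append_inj e23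
    (by rw [List.length_map, Finset.length_toList, Finset.length_toList, c2])
  exact ⟨g, hg, gc_smul_of_map g _ _ e1, gc_smul_of_map g _ _ e2, gc_smul_of_map g _ _ e3⟩

/-- the stabiliser of a set is transitive on the sets of a given size meeting it in a given
number of points, as long as at most five points are involved -/
theorem gc_set_pair_trans (s y y' : Finset Cfsg.GolayPt) (hy : y.card = y'.card)
    (hi : (s ∩ y).card = (s ∩ y').card) (h5 : (s ∪ y).card ≤ 5) :
    ∃ g ∈ Cfsg.M24, g • s = s ∧ g • y = y' := by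
  classical
  have a1 := Finset.card_sdiff_add_card_inter s y
  have a1' := Finset.card_sdiff_add_card_inter s y'
  have a2 := Finset.card_sdiff_add_card_inter y s
  have a2' := Finset.card_sdiff_add_card_inter y' s
  rw [Finset.inter_comm] at a2 a2'
  have a3 := Finset.card_union_add_card_inter s y
  obtain ⟨g, hg, h1, h2, h3⟩ := gc_three_pieces (s ∩ y) (s \ y) (y \ s) (s ∩ y') (s \ y')
    (y' \ s)
    (Finset.disjoint_left.mpr (by intro a ha hb; simp at ha hb; tauto))
    (Finset.disjoint_left.mpr (by intro a ha hb; simp at ha hb; tauto))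
    (Finset.disjoint_left.mpr (by intro a ha hb; simp at ha hb; tauto))
    (Finset.disjoint_left.mpr (by intro a ha hb; simp at ha hb; tauto))
    (Finset.disjoint_left.mpr (by intro a ha hb; simp at ha hb; tauto))
    (Finset.disjoint_left.mpr (by intro a ha hb; simp at ha hb; tauto))
    hi (by omega) (by omega) (by omega)
  have es : ∀ t : Finset Cfsg.GolayPt, s = (s ∩ t) ∪ (s \ t) := by
    intro t
    ext a
    simp
    tauto
  have ey : ∀ t : Finset Cfsg.GolayPt, t = (s ∩ t) ∪ (t \ s) := by
    intro t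
    ext a
    simp
    tauto
  refine ⟨g, hg, ?_, ?_⟩
  · conv_lhs => rw [es y]
    rw [Finset.smul_finset_union, h1, h2, ← es y']
  · conv_lhs => rw [ey y]
    rw [Finset.smul_finset_union, h1, h3, ← ey y']

end Cfsg.Agent.Lib.Helper7
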