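import Mathlib
import Cfsg.Prelude
import Cfsg.Agent.Lib.Helper7.GolayC31
import Cfsg.Agent.Lib.Helper7.Overgroup

set_option autoImplicit false

namespace Cfsg.Agent.Lib.Helper7

open scoped Pointwise

/-- transitivity on sets of at most five points -/
theorem gc_set_trans (s y : Finset Cfsg.GolayPt) (h : s.card = y.card) (h5 : s.card ≤ 5) :
    ∃ g ∈ Cfsg.M24, g • s = y := by
  obtain ⟨g, hg, h1, _, _⟩ := gc_three_pieces s ∅ ∅ y ∅ ∅ (Finset.disjoint_empty_right _)
    (Finset.disjoint_empty_right _) (Finset.disjoint_empty_right _)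
    (Finset.disjoint_empty_right _) (Finset.disjoint_empty_right _)
    (Finset.disjoint_empty_right _) h rfl rfl (by simpa using h5)
  exact ⟨g, hg, h1⟩

theorem gc_orbit_card (s : Finset Cfsg.GolayPt) (h5 : s.card ≤ 5) :
    MulAction.orbit Cfsg.M24 s = {y : Finset Cfsg.GolayPt | y.card = s.card} := by
  ext y
  rw [MulAction.mem_orbit_iff]
  constructor
  · rintro ⟨g, rfl⟩
    exact Finset.card_smul_finset _ _
  · intro hy
    obtain ⟨g, hg, h⟩ := gc_set_trans s y (Eq.symm hy) h5
    exact ⟨⟨g, hg⟩, h⟩

/-- the 2-subsets meeting a given 2-set in `j` points -/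
theorem gc_pairs_count (s : Finset Cfsg.GolayPt) (hs : s.card = 2) :
    {y : Finset Cfsg.GolayPt | y.card = 2 ∧ (s ∩ y).card = 2}.ncard = 1 ∧
    {y : Finset Cfsg.GolayPt | y.card = 2 ∧ (s ∩ y).card = 1}.ncard = 44 ∧
    {y : Finset Cfsg.GolayPt | y.card = 2 ∧ (s ∩ y).card = 0}.ncard = 231 := by
  classical
  have hF : ∀ j, {y : Finset Cfsg.GolayPt | y.card = 2 ∧ (s ∩ y).card = j} =
      ((((Finset.univ : Finset Cfsg.GolayPt).powersetCard 2).filter
        (fun y => (s ∩ y).card = j) : Finset (Finset Cfsg.GolayPt)) :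
          Set (Finset Cfsg.GolayPt)) := by
    intro j
    ext y
    simp [Finset.mem_powersetCard]
  have h2 : (((Finset.univ : Finset Cfsg.GolayPt).powersetCard 2).filter
      (fun y => (s ∩ y).card = 2)) = {s} := by
    ext y
    rw [Finset.mem_filter, Finset.mem_powersetCard, Finset.mem_singleton]
    constructor
    · rintro ⟨⟨_, hy⟩, hi⟩
      have e1 : s ∩ y = s := Finset.eq_of_subset_of_card_le Finset.inter_subset_left
        (by rw [hi, hs])
      have e2 : s ⊆ y := Finset.inter_eq_left.mp e1
      exact (Finset.eq_of_subset_of_card_le e2 (by rw [hy, hs])).symm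
    · rintro rfl
      exact ⟨⟨Finset.subset_univ _, hs⟩, by rw [Finset.inter_self, hs]⟩
  have h0 : (((Finset.univ : Finset Cfsg.GolayPt).powersetCard 2).filter
      (fun y => (s ∩ y).card = 0)) = sᶜ.powersetCard 2 := by
    ext y
    rw [Finset.mem_filter, Finset.mem_powersetCard, Finset.mem_powersetCard, Finset.card_eq_zero,
      ← Finset.disjoint_iff_inter_eq_empty, Finset.subset_compl_iff_disjoint_left]
    constructor
    · rintro ⟨⟨_, hy⟩, hi⟩
      exact ⟨hi, hy⟩
    · rintro ⟨hi, hy⟩
      exact ⟨⟨Finset.subset_univ _, hy⟩, hi⟩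
  have hc0 : (sᶜ.powersetCard 2).card = 231 := by
    rw [Finset.card_powersetCard, Finset.card_compl, gc_card_pt, hs]
    decide
  have htot : ((Finset.univ : Finset Cfsg.GolayPt).powersetCard 2).card = 276 := by
    rw [Finset.card_powersetCard, Finset.card_univ, gc_card_pt]
    decide
  have hmaps : ((((Finset.univ : Finset Cfsg.GolayPt).powersetCard 2) :
      Finset (Finset Cfsg.GolayPt)) : Set (Finset Cfsg.GolayPt)).MapsTo
      (fun y => (s ∩ y).card) (({2, 1, 0} : Finset ℕ) : Set ℕ) := by
    intro y _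
    have h1 := Finset.card_le_card (Finset.inter_subset_left : s ∩ y ⊆ s)
    rw [hs] at h1
    show (s ∩ y).card ∈ (({2, 1, 0} : Finset ℕ) : Set ℕ)
    rw [Finset.mem_coe]
    interval_cases (s ∩ y).card <;> simp
  have hsum := Finset.card_eq_sum_card_fiberwise hmaps
  rw [htot, Finset.sum_insert (by decide), Finset.sum_insert (by decide), Finset.sum_singleton,
    h2, h0, hc0, Finset.card_singleton] at hsum
  refine ⟨?_, ?_, ?_⟩
  · rw [hF 2, Set.ncard_coe_finset, h2, Finset.card_singleton]
  · rw [hF 1, Set.ncard_coe_finset]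
    omega
  · rw [hF 0, Set.ncard_coe_finset, h0, hc0]

/-- the stabiliser of a 2-set is a maximal subgroup -/
theorem gc_pair_stab_coatom (s : Finset Cfsg.GolayPt) (hs : s.card = 2) :
    IsCoatom (MulAction.stabilizer Cfsg.M24 s) := by
  have horb := gc_orbit_card s (by rw [hs]; norm_num)
  rw [hs] at horb
  obtain ⟨hc2, hc1, hc0⟩ := gc_pairs_count s hs
  have hH : Nat.card (MulAction.stabilizer Cfsg.M24 s) = 887040 := by
    have h1 := Subgroup.card_mul_index (MulAction.stabilizer Cfsg.M24 s)
    have h276 : {y : Finset Cfsg.GolayPt | y.card = 2}.ncard = 276 := by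
      have e : {y : Finset Cfsg.GolayPt | y.card = 2} =
          ((((Finset.univ : Finset Cfsg.GolayPt).powersetCard 2) :
            Finset (Finset Cfsg.GolayPt)) : Set (Finset Cfsg.GolayPt)) := by
        ext y
        simp [Finset.mem_powersetCard]
      rw [e, Set.ncard_coe_finset, Finset.card_powersetCard, Finset.card_univ, gc_card_pt]
      decide
    rw [MulAction.index_stabilizer, gc_card_M24, horb, h276] at h1
    omega
  constructor
  · intro htop
    rw [htop, Subgroup.card_top, gc_card_M24] at hH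
    norm_num at hH
  · intro K hK
    have hclass : ∀ y ∈ MulAction.orbit Cfsg.M24 s,
        (fun y : Finset Cfsg.GolayPt => (s ∩ y).card) y ∈ ({2, 1, 0} : Finset ℕ) := by
      intro y _
      have h1 := Finset.card_le_card (Finset.inter_subset_left : s ∩ y ⊆ s)
      rw [hs] at h1
      show (s ∩ y).card ∈ ({2, 1, 0} : Finset ℕ)
      interval_cases (s ∩ y).card <;> simp
    have htrans : ∀ y ∈ MulAction.orbit Cfsg.M24 s, ∀ y' ∈ MulAction.orbit Cfsg.M24 s,
        (fun y : Finset Cfsg.GolayPt => (s ∩ y).card) y =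
          (fun y : Finset Cfsg.GolayPt => (s ∩ y).card) y' →
        ∃ g ∈ MulAction.stabilizer Cfsg.M24 s, g • y = y' := by
      intro y hy y' hy' h
      rw [horb] at hy hy'
      have hy2 : y.card = 2 := hy
      have hy2' : y'.card = 2 := hy'
      have h5 : (s ∪ y).card ≤ 5 := by
        have := Finset.card_union_le s y
        omega
      obtain ⟨g, hg, hgs, hgy⟩ := gc_set_pair_trans s y y' (by rw [hy2, hy2']) h h5
      exact ⟨⟨g, hg⟩, hgs, hgy⟩
    have hsize : ∀ j ∈ ({2, 1, 0} : Finset ℕ), {y | y ∈ MulAction.orbit Cfsg.M24 s ∧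
        (fun y : Finset Cfsg.GolayPt => (s ∩ y).card) y = j}.ncard =
        (fun j => if j = 2 then 1 else if j = 1 then 44 else 231) j := by
      intro j hj
      rw [horb]
      simp only [Finset.mem_insert, Finset.mem_singleton] at hj
      rcases hj with rfl | rfl | rfl
      · exact hc2
      · exact hc1
      · exact hc0
    obtain ⟨I, hIt, hxI, hcard⟩ := og_card (G := Cfsg.M24) s
      (fun y : Finset Cfsg.GolayPt => (s ∩ y).card) {2, 1, 0}
      (fun j => if j = 2 then 1 else if j = 1 then 44 else 231) hclass htrans hsize K hK.le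
    have h2I : 2 ∈ I := by
      have h1 : (s ∩ s).card = 2 := by rw [Finset.inter_self, hs]
      have h2 : (s ∩ s).card ∈ I := hxI
      rwa [h1] at h2
    rw [← Finset.inter_eq_right.mpr hIt, ← Finset.sum_ite_mem, hH,
      Finset.sum_insert (by decide), Finset.sum_insert (by decide), Finset.sum_singleton] at hcard
    simp only [h2I, if_true] at hcard
    have hdvd := Subgroup.card_subgroup_dvd_card K
    rw [gc_card_M24] at hdvd
    by_cases h1 : 1 ∈ I <;> by_cases h0 : 0 ∈ I <;>
      simp only [h1, h0, if_true, if_false] at hcard <;> norm_num at hcard <;>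
      first
      | exact absurd (Subgroup.eq_of_le_of_card_ge hK.le (le_of_eq (hcard.trans hH.symm))) hK.ne
      | exact (Subgroup.card_eq_iff_eq_top K).mp (hcard.trans gc_card_M24.symm)
      | (exfalso; rw [hcard] at hdvd; norm_num at hdvd)

end Cfsg.Agent.Lib.Helper7
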