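import Mathlib
import Cfsg.Prelude
import Cfsg.Agent.Lib.Helper7.GolayC31

set_option autoImplicit false

namespace Cfsg.Agent.Lib.Helper7

open scoped Pointwise

/-- an element carrying five points of an octad to the base points carries the octad to the
standard one -/
theorem gc_octad_of_base {k : Equiv.Perm Cfsg.GolayPt} (hk : k ∈ Cfsg.M24)
    {o : Finset Cfsg.GolayPt} (ho : o ∈ Cfsg.octads) (x : Fin 5 ↪ Cfsg.GolayPt)
    (hx : ∀ i, x i ∈ o) (hkx : ∀ i : Fin 5, k (x i) = gcPt (gcBase i.val)) :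
    k • o = gcSet gcO0 := by
  apply gc_octad_eq5 gc_o0_mem (gc_M24_octad hk ho)
  have hsub : (Finset.univ : Finset (Fin 5)).map gcX0 ⊆ gcSet gcO0 ∩ k • o := by
    intro p hp
    rw [Finset.mem_map] at hp
    obtain ⟨i, _, rfl⟩ := hp
    rw [Finset.mem_inter]
    constructor
    · exact (gc_mem_set _ _).mpr (gc_o0_base i.val i.isLt)
    · have h1 : gcX0 i = k (x i) := (hkx i).symm
      rw [h1, ← Equiv.Perm.smul_def]
      exact Finset.smul_mem_smul_finset (hx i)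
  have hc := Finset.card_le_card hsub
  rw [Finset.card_map, Finset.card_univ, Fintype.card_fin] at hc
  exact hc

/-- normal form of six points -/
theorem gc_six_norm (x : Fin 5 ↪ Cfsg.GolayPt) (y : Cfsg.GolayPt) (hy : ∀ i, y ≠ x i) :
    ∃ k ∈ Cfsg.M24, (∀ i : Fin 5, k (x i) = gcPt (gcBase i.val)) ∧
      (k y = gcPt 5 ∨ k y = gcPt 4) := by
  obtain ⟨k1, hk1, hk1x⟩ := gc_five_aux x 5 le_rfl
  obtain ⟨a, ha⟩ := gcEquiv.surjective (k1 y)
  have ha' : gcPt a = k1 y := ha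
  have hab : gcF5.testBit a.val = false := by
    by_contra hcon
    have ht : gcF5.testBit a.val = true := by simpa using hcon
    obtain ⟨j, hj, rfl⟩ := gc_f5_base a ht
    have h1 := hk1x ⟨j, hj⟩ hj
    have h2 : k1 (x ⟨j, hj⟩) = k1 y := h1.trans ha'
    exact hy ⟨j, hj⟩ (k1.injective h2).symm
  by_cases hao : gcO0.testBit a.val = true
  · obtain ⟨h1, h2, _⟩ := gc_w48_tab a 4 hao hab gc_o0_five.2.2
    refine ⟨(gcWord (gcW48 a.val (4 : Fin 24).val))⁻¹ * k1,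
      mul_mem (inv_mem (gc_word_mem _)) hk1, ?_, Or.inl ?_⟩
    · intro i
      rw [Equiv.Perm.mul_apply, hk1x i i.isLt]
      have h3 : gcWord (gcW48 a.val (4 : Fin 24).val) (gcPt (gcBase i.val)) =
          gcPt (gcBase i.val) := by rw [gc_word_rep, h1 i.val i.isLt]
      exact (Equiv.symm_apply_eq _).mpr h3.symm
    · rw [Equiv.Perm.mul_apply, ← ha']
      have h3 : gcWord (gcW48 a.val (4 : Fin 24).val) (gcPt 5) = gcPt a := by
        rw [gc_word_rep, h2]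
      exact (Equiv.symm_apply_eq _).mpr h3.symm
  · have hao' : gcO0.testBit a.val = false := by simpa using hao
    obtain ⟨h1, _, h3⟩ := gc_w48_tab 5 a gc_o0_five.1 gc_o0_five.2.1 hao'
    have h4 := (gc_o0_fix_tab a hao').2 4
    have h3' : gcEval (gcW48 5 a.val) 4 = a := h3
    rw [h3'] at h4
    refine ⟨gcWord (gcW48 5 a.val) * k1, mul_mem (gc_word_mem _) hk1, ?_, Or.inr ?_⟩
    · intro i
      rw [Equiv.Perm.mul_apply, hk1x i i.isLt, gc_word_rep]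
      exact congrArg gcPt (h1 i.val i.isLt)
    · rw [Equiv.Perm.mul_apply, ← ha', gc_word_rep, h4]

theorem gc_five_in : gcPt 5 ∈ gcSet gcO0 := (gc_mem_set _ _).mpr gc_o0_five.1

theorem gc_four_out : gcPt 4 ∉ gcSet gcO0 := by
  intro h
  have h1 := (gc_mem_set _ _).mp h
  have h2 := gc_o0_five.2.2
  rw [h1] at h2
  exact Bool.noConfusion h2

/-- the sixth point goes into the standard octad exactly if the six points lie in an octad -/
theorem gc_six_octad (x : Fin 5 ↪ Cfsg.GolayPt) (y : Cfsg.GolayPt) {k : Equiv.Perm Cfsg.GolayPt}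
    (hk : k ∈ Cfsg.M24) (hkx : ∀ i : Fin 5, k (x i) = gcPt (gcBase i.val)) :
    k y ∈ gcSet gcO0 ↔ ∃ o ∈ Cfsg.octads, (∀ i, x i ∈ o) ∧ y ∈ o := by
  constructor
  · intro h
    refine ⟨k⁻¹ • gcSet gcO0, gc_M24_octad (inv_mem hk) gc_o0_mem, fun i => ?_, ?_⟩
    · rw [Finset.mem_inv_smul_finset_iff, Equiv.Perm.smul_def, hkx i]
      exact (gc_mem_set _ _).mpr (gc_o0_base i.val i.isLt)
    · rw [Finset.mem_inv_smul_finset_iff]
      exact h
  · rintro ⟨o, ho, hx, hyo⟩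
    rw [← gc_octad_of_base hk ho x hx hkx, ← Equiv.Perm.smul_def]
    exact Finset.smul_mem_smul_finset hyo

/-- two 6-tuples of the same kind are conjugate -/
theorem gc_six_trans (x x' : Fin 5 ↪ Cfsg.GolayPt) (y y' : Cfsg.GolayPt) (hy : ∀ i, y ≠ x i)
    (hy' : ∀ i, y' ≠ x' i)
    (hiff : (∃ o ∈ Cfsg.octads, (∀ i, x i ∈ o) ∧ y ∈ o) ↔
      (∃ o ∈ Cfsg.octads, (∀ i, x' i ∈ o) ∧ y' ∈ o)) :
    ∃ g ∈ Cfsg.M24, (∀ i, g (x i) = x' i) ∧ g y = y' := by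
  obtain ⟨k, hk, hkx, hky⟩ := gc_six_norm x y hy
  obtain ⟨k', hk', hkx', hky'⟩ := gc_six_norm x' y' hy'
  have h1 := gc_six_octad x y hk hkx
  have h1' := gc_six_octad x' y' hk' hkx'
  have h2 : k y ∈ gcSet gcO0 ↔ k' y' ∈ gcSet gcO0 := h1.trans (hiff.trans h1'.symm)
  have h3 : k y = k' y' := by
    rcases hky with h | h <;> rcases hky' with h' | h'
    · rw [h, h']
    · rw [h, h'] at h2
      exact absurd (h2.mp gc_five_in) gc_four_out
    · rw [h, h'] at h2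
      exact absurd (h2.mpr gc_five_in) gc_four_out
    · rw [h, h']
  refine ⟨k'⁻¹ * k, mul_mem (inv_mem hk') hk, fun i => ?_, ?_⟩
  · rw [Equiv.Perm.mul_apply, hkx i, ← hkx' i]
    exact k'.symm_apply_apply _
  · rw [Equiv.Perm.mul_apply, h3]
    exact k'.symm_apply_apply _

theorem gc_triad_data (T U : Finset Cfsg.GolayPt) (hT : T.card = 3) (hU : U.card = 3)
    (hd : Disjoint T U) : ∃ t1 t2 t3 u1 u2 u3 : Cfsg.GolayPt, T = {t1, t2, t3} ∧
      U = {u1, u2, u3} ∧ ([t1, t2, t3, u1, u2] ++ [u3]).Nodup := by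
  obtain ⟨t1, t2, t3, h12, h13, h23, rfl⟩ := Finset.card_eq_three.mp hT
  obtain ⟨u1, u2, u3, k12, k13, k23, rfl⟩ := Finset.card_eq_three.mp hU
  refine ⟨t1, t2, t3, u1, u2, u3, rfl, rfl, ?_⟩
  have d1 := Finset.disjoint_left.mp hd (by simp : t1 ∈ ({t1, t2, t3} : Finset Cfsg.GolayPt))
  have d2 := Finset.disjoint_left.mp hd (by simp : t2 ∈ ({t1, t2, t3} : Finset Cfsg.GolayPt))
  have d3 := Finset.disjoint_left.mp hd (by simp : t3 ∈ ({t1, t2, t3} : Finset Cfsg.GolayPt))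
  simp only [Finset.mem_insert, Finset.mem_singleton, not_or] at d1 d2 d3
  simp only [List.cons_append, List.nil_append, List.nodup_cons, List.mem_cons,
    List.not_mem_nil, or_false, not_or, List.nodup_nil, and_true, not_false_eq_true]
  exact ⟨⟨h12, h13, d1.1, d1.2.1, d1.2.2⟩, ⟨h23, d2.1, d2.2.1, d2.2.2⟩, ⟨d3.1, d3.2.1, d3.2.2⟩,
    ⟨k12, k13⟩, k23⟩

theorem gc_six_sub (t1 t2 t3 u1 u2 u3 : Cfsg.GolayPt) (x : Fin 5 ↪ Cfsg.GolayPt)
    (hx0 : x 0 = t1) (hx1 : x 1 = t2) (hx2 : x 2 = t3) (hx3 : x 3 = u1) (hx4 : x 4 = u2)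
    (o : Finset Cfsg.GolayPt) :
    ({t1, t2, t3} ∪ {u1, u2, u3} : Finset Cfsg.GolayPt) ⊆ o ↔ (∀ i, x i ∈ o) ∧ u3 ∈ o := by
  constructor
  · intro h
    have hm : ∀ p, p ∈ ({t1, t2, t3} ∪ {u1, u2, u3} : Finset Cfsg.GolayPt) → p ∈ o :=
      fun p hp => h hp
    refine ⟨gc_forall5 ?_ ?_ ?_ ?_ ?_, hm _ (by simp)⟩
    · rw [hx0]; exact hm _ (by simp)
    · rw [hx1]; exact hm _ (by simp)
    · rw [hx2]; exact hm _ (by simp)
    · rw [hx3]; exact hm _ (by simp)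
    · rw [hx4]; exact hm _ (by simp)
  · rintro ⟨hx, h3⟩ p hp
    simp only [Finset.mem_union, Finset.mem_insert, Finset.mem_singleton] at hp
    rcases hp with (rfl | rfl | rfl) | (rfl | rfl | rfl)
    · rw [← hx0]; exact hx 0
    · rw [← hx1]; exact hx 1
    · rw [← hx2]; exact hx 2
    · rw [← hx3]; exact hx 3
    · rw [← hx4]; exact hx 4
    · exact h3

/-- the stabiliser of a triad on the triads disjoint from it -/
theorem gc_triad_trans (T U U' : Finset Cfsg.GolayPt) (hT : T.card = 3) (hU : U.card = 3)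
    (hU' : U'.card = 3) (hd : Disjoint T U) (hd' : Disjoint T U')
    (hiff : (∃ o ∈ Cfsg.octads, T ∪ U ⊆ o) ↔ (∃ o ∈ Cfsg.octads, T ∪ U' ⊆ o)) :
    ∃ g : Equiv.Perm Cfsg.GolayPt, g ∈ Cfsg.M24 ∧ g • T = T ∧ g • U = U' := by
  obtain ⟨t1, t2, t3, u1, u2, u3, rfl, rfl, hnd⟩ := gc_triad_data T U hT hU hd
  obtain ⟨s1, s2, s3, v1, v2, v3, hTe, rfl, hnd'⟩ := gc_triad_data _ U' hT hU' hd'
  obtain ⟨hn1, _, hn2⟩ := List.nodup_append.mp hnd
  obtain ⟨hn1', _, hn2'⟩ := List.nodup_append.mp hnd'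
  obtain ⟨x, hx0, hx1, hx2, hx3, hx4⟩ := gc_emb5 t1 t2 t3 u1 u2 hn1
  obtain ⟨x', hx0', hx1', hx2', hx3', hx4'⟩ := gc_emb5 s1 s2 s3 v1 v2 hn1'
  have hy : ∀ i, u3 ≠ x i := by
    refine gc_forall5 ?_ ?_ ?_ ?_ ?_
    · rw [hx0]; exact (hn2 t1 (by simp) u3 (by simp)).symm
    · rw [hx1]; exact (hn2 t2 (by simp) u3 (by simp)).symm
    · rw [hx2]; exact (hn2 t3 (by simp) u3 (by simp)).symm
    · rw [hx3]; exact (hn2 u1 (by simp) u3 (by simp)).symm
    · rw [hx4]; exact (hn2 u2 (by simp) u3 (by simp)).symm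
  have hy' : ∀ i, v3 ≠ x' i := by
    refine gc_forall5 ?_ ?_ ?_ ?_ ?_
    · rw [hx0']; exact (hn2' s1 (by simp) v3 (by simp)).symm
    · rw [hx1']; exact (hn2' s2 (by simp) v3 (by simp)).symm
    · rw [hx2']; exact (hn2' s3 (by simp) v3 (by simp)).symm
    · rw [hx3']; exact (hn2' v1 (by simp) v3 (by simp)).symm
    · rw [hx4']; exact (hn2' v2 (by simp) v3 (by simp)).symm
  have hiff' : (∃ o ∈ Cfsg.octads, (∀ i, x i ∈ o) ∧ u3 ∈ o) ↔
      (∃ o ∈ Cfsg.octads, (∀ i, x' i ∈ o) ∧ v3 ∈ o) := by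
    constructor
    · rintro ⟨o, ho, h⟩
      obtain ⟨o', ho', h'⟩ := hiff.mp
        ⟨o, ho, (gc_six_sub t1 t2 t3 u1 u2 u3 x hx0 hx1 hx2 hx3 hx4 o).mpr h⟩
      rw [hTe] at h'
      exact ⟨o', ho', (gc_six_sub s1 s2 s3 v1 v2 v3 x' hx0' hx1' hx2' hx3' hx4' o').mp h'⟩
    · rintro ⟨o, ho, h⟩
      have h0 := (gc_six_sub s1 s2 s3 v1 v2 v3 x' hx0' hx1' hx2' hx3' hx4' o).mpr h
      rw [← hTe] at h0
      obtain ⟨o', ho', h'⟩ := hiff.mpr ⟨o, ho, h0⟩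
      exact ⟨o', ho', (gc_six_sub t1 t2 t3 u1 u2 u3 x hx0 hx1 hx2 hx3 hx4 o').mp h'⟩
  obtain ⟨g, hg, hgx, hgy⟩ := gc_six_trans x x' u3 v3 hy hy' hiff'
  have g0 := hgx 0
  have g1 := hgx 1
  have g2 := hgx 2
  have g3 := hgx 3
  have g4 := hgx 4
  rw [hx0, hx0'] at g0
  rw [hx1, hx1'] at g1
  rw [hx2, hx2'] at g2
  rw [hx3, hx3'] at g3
  rw [hx4, hx4'] at g4
  refine ⟨g, hg, ?_, ?_⟩
  · rw [Finset.smul_finset_insert, Finset.smul_finset_insert, Finset.smul_finset_singleton,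
      Equiv.Perm.smul_def, Equiv.Perm.smul_def, Equiv.Perm.smul_def, g0, g1, g2]
    exact hTe.symm
  · rw [Finset.smul_finset_insert, Finset.smul_finset_insert, Finset.smul_finset_singleton,
      Equiv.Perm.smul_def, Equiv.Perm.smul_def, Equiv.Perm.smul_def, g3, g4, hgy]

end Cfsg.Agent.Lib.Helper7
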