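import Mathlib
import Cfsg.Prelude
import Cfsg.Agent.Lib.Helper7.GolayC33

set_option autoImplicit false

namespace Cfsg.Agent.Lib.Helper7

open scoped Pointwise

/-- the triads disjoint from a triad and in a common octad with it -/
theorem gc_triad_cnt_in (T : Finset Cfsg.GolayPt) (hT : T.card = 3) :
    {U : Finset Cfsg.GolayPt | U.card = 3 ∧ Disjoint T U ∧
      (∃ o ∈ Cfsg.octads, T ∪ U ⊆ o)}.ncard = 210 := by
  classical
  have hset : {U : Finset Cfsg.GolayPt | U.card = 3 ∧ Disjoint T U ∧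
      (∃ o ∈ Cfsg.octads, T ∪ U ⊆ o)} =
      ↑((gcOct.filter (fun c => T ⊆ c)).biUnion (fun o => (o \ T).powersetCard 3)) := by
    ext U
    simp only [Set.mem_setOf_eq, Finset.coe_biUnion, Finset.mem_coe, Finset.mem_filter,
      Set.mem_iUnion, Finset.mem_powersetCard, gc_mem_oct, exists_prop]
    constructor
    · rintro ⟨hU, hd, o, ho, hs⟩
      refine ⟨o, ⟨ho, Finset.union_subset_left hs⟩, ?_, hU⟩
      intro p hp
      exact Finset.mem_sdiff.mpr ⟨Finset.union_subset_right hs hp,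
        fun hpT => Finset.disjoint_left.mp hd hpT hp⟩
    · rintro ⟨o, ⟨ho, hTo⟩, hUo, hU⟩
      refine ⟨hU, ?_, o, ho, ?_⟩
      · exact Finset.disjoint_left.mpr fun p hpT hpU => (Finset.mem_sdiff.mp (hUo hpU)).2 hpT
      · exact Finset.union_subset hTo (fun p hp => (Finset.mem_sdiff.mp (hUo hp)).1)
  rw [hset, Set.ncard_coe_finset, Finset.card_biUnion]
  · have h21 : (gcOct.filter (fun c => T ⊆ c)).card = 21 := by
      have h := gc_lambda T (by omega)
      rw [hT] at h
      have e1 : Nat.choose (8 - 3) (5 - 3) = 10 := by decide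
      have e2 : Nat.choose (24 - 3) (5 - 3) = 210 := by decide
      rw [e1, e2] at h
      omega
    have hc : ∀ o ∈ gcOct.filter (fun c => T ⊆ c), ((o \ T).powersetCard 3).card = 10 := by
      intro o ho
      obtain ⟨ho1, ho2⟩ := Finset.mem_filter.mp ho
      have h8 := gc_octad_card ((gc_mem_oct o).mp ho1)
      have h5 : (o \ T).card = 5 := by
        rw [Finset.card_sdiff_of_subset ho2, h8, hT]
      rw [Finset.card_powersetCard, h5]
      decide
    rw [Finset.sum_congr rfl hc, Finset.sum_const, h21]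
    rfl
  · intro o ho o' ho' hne
    have ho1 := Finset.mem_filter.mp (Finset.mem_coe.mp ho)
    have ho1' := Finset.mem_filter.mp (Finset.mem_coe.mp ho')
    refine Finset.disjoint_left.mpr fun U hU hU' => hne ?_
    obtain ⟨hU1, hU2⟩ := Finset.mem_powersetCard.mp hU
    obtain ⟨hU1', _⟩ := Finset.mem_powersetCard.mp hU'
    have hd : Disjoint T U :=
      Finset.disjoint_left.mpr fun p hpT hpU => (Finset.mem_sdiff.mp (hU1 hpU)).2 hpT
    have hsub : T ∪ U ⊆ o' ∩ o := by
      intro p hp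
      rcases Finset.mem_union.mp hp with hp | hp
      · exact Finset.mem_inter.mpr ⟨ho1'.2 hp, ho1.2 hp⟩
      · exact Finset.mem_inter.mpr ⟨(Finset.mem_sdiff.mp (hU1' hp)).1,
          (Finset.mem_sdiff.mp (hU1 hp)).1⟩
    have hcard : (T ∪ U).card = 6 := by rw [Finset.card_union_of_disjoint hd, hT, hU2]
    have := Finset.card_le_card hsub
    exact gc_octad_eq5 ((gc_mem_oct o').mp ho1'.1) ((gc_mem_oct o).mp ho1.1) (by omega)

/-- the triads disjoint from a triad and in no common octad with it -/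
theorem gc_triad_cnt_out (T : Finset Cfsg.GolayPt) (hT : T.card = 3) :
    {U : Finset Cfsg.GolayPt | U.card = 3 ∧ Disjoint T U ∧
      ¬ (∃ o ∈ Cfsg.octads, T ∪ U ⊆ o)}.ncard = 1120 := by
  classical
  have hall : {U : Finset Cfsg.GolayPt | U.card = 3 ∧ Disjoint T U}.ncard = 1330 := by
    have hset : {U : Finset Cfsg.GolayPt | U.card = 3 ∧ Disjoint T U} =
        ↑((Finset.univ \ T).powersetCard 3) := by
      ext U
      simp only [Set.mem_setOf_eq, Finset.mem_coe, Finset.mem_powersetCard]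
      constructor
      · rintro ⟨hU, hd⟩
        exact ⟨fun p hp => Finset.mem_sdiff.mpr ⟨Finset.mem_univ _,
          fun hpT => Finset.disjoint_left.mp hd hpT hp⟩, hU⟩
      · rintro ⟨hs, hU⟩
        exact ⟨hU, Finset.disjoint_left.mpr fun p hpT hpU => (Finset.mem_sdiff.mp (hs hpU)).2 hpT⟩
    rw [hset, Set.ncard_coe_finset, Finset.card_powersetCard,
      Finset.card_sdiff_of_subset (Finset.subset_univ T), Finset.card_univ, gc_card_pt, hT]
    decide
  have hsub : {U : Finset Cfsg.GolayPt | U.card = 3 ∧ Disjoint T U ∧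
      (∃ o ∈ Cfsg.octads, T ∪ U ⊆ o)} ⊆ {U : Finset Cfsg.GolayPt | U.card = 3 ∧ Disjoint T U} :=
    fun U hU => ⟨hU.1, hU.2.1⟩
  have hdiff : {U : Finset Cfsg.GolayPt | U.card = 3 ∧ Disjoint T U ∧
      ¬ (∃ o ∈ Cfsg.octads, T ∪ U ⊆ o)} =
      {U : Finset Cfsg.GolayPt | U.card = 3 ∧ Disjoint T U} \
      {U : Finset Cfsg.GolayPt | U.card = 3 ∧ Disjoint T U ∧
        (∃ o ∈ Cfsg.octads, T ∪ U ⊆ o)} := by
    ext U
    simp only [Set.mem_setOf_eq, Set.mem_diff]
    constructor
    · rintro ⟨h1, h2, h3⟩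
      exact ⟨⟨h1, h2⟩, fun h => h3 h.2.2⟩
    · rintro ⟨⟨h1, h2⟩, h3⟩
      exact ⟨h1, h2, fun h => h3 ⟨h1, h2, h⟩⟩
  rw [hdiff, Set.ncard_diff hsub (Set.toFinite _), hall, gc_triad_cnt_in T hT]

end Cfsg.Agent.Lib.Helper7
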