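import Mathlib
import Cfsg.Prelude
import Cfsg.Agent.Lib.Helper7.GolayC32
import Cfsg.Agent.Lib.Helper7.GolayC34

set_option autoImplicit false

namespace Cfsg.Agent.Lib.Helper7

open scoped Pointwise

/-- the number of `k`-subsets meeting a given set in `j` points -/
theorem gc_inter_count {α : Type*} [Fintype α] [DecidableEq α] (s : Finset α) (k j : ℕ)
    (hj : j ≤ k) :
    (((Finset.univ : Finset α).powersetCard k).filter (fun y => (s ∩ y).card = j)).card =
      s.card.choose j * (Fintype.card α - s.card).choose (k - j) := by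
  rw [← Finset.card_compl, ← Finset.card_powersetCard, ← Finset.card_powersetCard,
    ← Finset.card_product]
  refine Finset.card_nbij' (fun y => (s ∩ y, y \ s)) (fun p => p.1 ∪ p.2) ?_ ?_ ?_ ?_
  · intro y hy
    rw [Finset.mem_coe, Finset.mem_filter, Finset.mem_powersetCard] at hy
    obtain ⟨⟨_, hy1⟩, hy2⟩ := hy
    rw [Finset.mem_coe, Finset.mem_product, Finset.mem_powersetCard, Finset.mem_powersetCard]
    refine ⟨⟨Finset.inter_subset_left, hy2⟩, ?_, ?_⟩
    · intro p hp
      exact Finset.mem_compl.mpr (Finset.mem_sdiff.mp hp).2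
    · have h1 := Finset.card_sdiff_add_card_inter y s
      rw [Finset.inter_comm] at h1
      show (y \ s).card = k - j
      omega
  · intro p hp
    rw [Finset.mem_coe, Finset.mem_product, Finset.mem_powersetCard, Finset.mem_powersetCard] at hp
    obtain ⟨⟨hp1, hp2⟩, hp3, hp4⟩ := hp
    have hd : Disjoint p.1 p.2 := Finset.disjoint_left.mpr fun a ha1 ha2 =>
      Finset.mem_compl.mp (hp3 ha2) (hp1 ha1)
    have hi : s ∩ (p.1 ∪ p.2) = p.1 := by
      ext a
      rw [Finset.mem_inter, Finset.mem_union]
      constructor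
      · rintro ⟨has, ha | ha⟩
        · exact ha
        · exact absurd has (Finset.mem_compl.mp (hp3 ha))
      · intro ha
        exact ⟨hp1 ha, Or.inl ha⟩
    rw [Finset.mem_coe, Finset.mem_filter, Finset.mem_powersetCard]
    refine ⟨⟨Finset.subset_univ _, ?_⟩, ?_⟩
    · show (p.1 ∪ p.2).card = k
      rw [Finset.card_union_of_disjoint hd, hp2, hp4]
      omega
    · show (s ∩ (p.1 ∪ p.2)).card = j
      rw [hi, hp2]
  · intro y _
    show s ∩ y ∪ y \ s = y
    ext a
    rw [Finset.mem_union, Finset.mem_inter, Finset.mem_sdiff]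
    tauto
  · intro p hp
    rw [Finset.mem_coe, Finset.mem_product, Finset.mem_powersetCard, Finset.mem_powersetCard] at hp
    obtain ⟨⟨hp1, hp2⟩, hp3, hp4⟩ := hp
    show (s ∩ (p.1 ∪ p.2), (p.1 ∪ p.2) \ s) = p
    refine Prod.ext ?_ ?_
    · show s ∩ (p.1 ∪ p.2) = p.1
      ext a
      rw [Finset.mem_inter, Finset.mem_union]
      constructor
      · rintro ⟨has, ha | ha⟩
        · exact ha
        · exact absurd has (Finset.mem_compl.mp (hp3 ha))
      · intro ha
        exact ⟨hp1 ha, Or.inl ha⟩
    · show (p.1 ∪ p.2) \ s = p.2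
      ext a
      rw [Finset.mem_sdiff, Finset.mem_union]
      constructor
      · rintro ⟨ha | ha, has⟩
        · exact absurd (hp1 ha) has
        · exact ha
      · intro ha
        exact ⟨Or.inr ha, Finset.mem_compl.mp (hp3 ha)⟩

/-- the number of `k`-subsets of the 24 points meeting a given set in `j` points -/
theorem gc_inter_ncard (s : Finset Cfsg.GolayPt) (k j : ℕ) (hj : j ≤ k) :
    {y : Finset Cfsg.GolayPt | y.card = k ∧ (s ∩ y).card = j}.ncard =
      s.card.choose j * (24 - s.card).choose (k - j) := by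
  classical
  have hF : {y : Finset Cfsg.GolayPt | y.card = k ∧ (s ∩ y).card = j} =
      ((((Finset.univ : Finset Cfsg.GolayPt).powersetCard k).filter
        (fun y => (s ∩ y).card = j) : Finset (Finset Cfsg.GolayPt)) :
          Set (Finset Cfsg.GolayPt)) := by
    ext y
    simp [Finset.mem_powersetCard]
  rw [hF, Set.ncard_coe_finset, gc_inter_count s k j hj, gc_card_pt]

open Classical in
/-- class function for triads relative to a triad -/
noncomputable def gcTriF (s y : Finset Cfsg.GolayPt) : ℕ :=
  if (s ∩ y).card = 0 then (if ∃ o ∈ Cfsg.octads, s ∪ y ⊆ o then 0 else 4) else (s ∩ y).card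

theorem gc_triF_pos (s y : Finset Cfsg.GolayPt) (j : ℕ) (hj : j = 1 ∨ j = 2 ∨ j = 3) :
    gcTriF s y = j ↔ (s ∩ y).card = j := by
  unfold gcTriF
  split_ifs with h1 h2
  · rw [h1]
  · rw [h1]; omega
  · rfl

theorem gc_triF_zero (s y : Finset Cfsg.GolayPt) :
    gcTriF s y = 0 ↔ (Disjoint s y ∧ ∃ o ∈ Cfsg.octads, s ∪ y ⊆ o) := by
  unfold gcTriF
  rw [Finset.disjoint_iff_inter_eq_empty, ← Finset.card_eq_zero]
  split_ifs with h1 h2
  · exact ⟨fun _ => ⟨h1, h2⟩, fun _ => rfl⟩
  · exact ⟨fun h => absurd h (by decide), fun h => absurd h.2 h2⟩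
  · exact ⟨fun h => absurd h h1, fun h => absurd h.1 h1⟩

theorem gc_triF_four (s y : Finset Cfsg.GolayPt) (hs : s.card = 3) :
    gcTriF s y = 4 ↔ (Disjoint s y ∧ ¬ ∃ o ∈ Cfsg.octads, s ∪ y ⊆ o) := by
  unfold gcTriF
  rw [Finset.disjoint_iff_inter_eq_empty, ← Finset.card_eq_zero]
  have h3 := Finset.card_le_card (Finset.inter_subset_left : s ∩ y ⊆ s)
  rw [hs] at h3
  split_ifs with h1 h2
  · exact ⟨fun h => absurd h (by decide), fun h => absurd h2 h.2⟩
  · exact ⟨fun _ => ⟨h1, h2⟩, fun _ => rfl⟩
  · exact ⟨fun h => by omega, fun h => absurd h.1 h1⟩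

/-- the stabiliser of a 3-set is a maximal subgroup -/
theorem gc_triad_stab_coatom (s : Finset Cfsg.GolayPt) (hs : s.card = 3) :
    IsCoatom (MulAction.stabilizer Cfsg.M24 s) := by
  have horb := gc_orbit_card s (by rw [hs]; norm_num)
  rw [hs] at horb
  have hH : Nat.card (MulAction.stabilizer Cfsg.M24 s) = 120960 := by
    have h1 := Subgroup.card_mul_index (MulAction.stabilizer Cfsg.M24 s)
    have h2024 : {y : Finset Cfsg.GolayPt | y.card = 3}.ncard = 2024 := by
      classical
      have e : {y : Finset Cfsg.GolayPt | y.card = 3} =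
          ((((Finset.univ : Finset Cfsg.GolayPt).powersetCard 3) :
            Finset (Finset Cfsg.GolayPt)) : Set (Finset Cfsg.GolayPt)) := by
        ext y
        simp [Finset.mem_powersetCard]
      rw [e, Set.ncard_coe_finset, Finset.card_powersetCard, Finset.card_univ, gc_card_pt]
      decide
    rw [MulAction.index_stabilizer, gc_card_M24, horb, h2024] at h1
    omega
  constructor
  · intro htop
    rw [htop, Subgroup.card_top, gc_card_M24] at hH
    norm_num at hH
  · intro K hK
    have hclass : ∀ y ∈ MulAction.orbit Cfsg.M24 s, gcTriF s y ∈ ({3, 2, 1, 0, 4} : Finset ℕ) := by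
      intro y _
      have h1 := Finset.card_le_card (Finset.inter_subset_left : s ∩ y ⊆ s)
      rw [hs] at h1
      unfold gcTriF
      split_ifs
      · simp
      · simp
      · interval_cases (s ∩ y).card <;> simp_all
    have htrans : ∀ y ∈ MulAction.orbit Cfsg.M24 s, ∀ y' ∈ MulAction.orbit Cfsg.M24 s,
        gcTriF s y = gcTriF s y' → ∃ g ∈ MulAction.stabilizer Cfsg.M24 s, g • y = y' := by
      intro y hy y' hy' h
      rw [horb] at hy hy'
      have hy2 : y.card = 3 := hy
      have hy2' : y'.card = 3 := hy'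
      by_cases hd : Disjoint s y
      · have hd' : Disjoint s y' := by
          by_cases ho : ∃ o ∈ Cfsg.octads, s ∪ y ⊆ o
          · have h0 := (gc_triF_zero s y).mpr ⟨hd, ho⟩
            rw [h0] at h
            exact ((gc_triF_zero s y').mp h.symm).1
          · have h0 := (gc_triF_four s y hs).mpr ⟨hd, ho⟩
            rw [h0] at h
            exact ((gc_triF_four s y' hs).mp h.symm).1
        have hiff : (∃ o ∈ Cfsg.octads, s ∪ y ⊆ o) ↔ (∃ o ∈ Cfsg.octads, s ∪ y' ⊆ o) := by
          constructor
          · intro ho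
            have h0 := (gc_triF_zero s y).mpr ⟨hd, ho⟩
            rw [h0] at h
            exact ((gc_triF_zero s y').mp h.symm).2
          · intro ho
            have h0 := (gc_triF_zero s y').mpr ⟨hd', ho⟩
            rw [h0] at h
            exact ((gc_triF_zero s y).mp h).2
        obtain ⟨g, hg, hgs, hgy⟩ := gc_triad_trans s y y' hs hy2 hy2' hd hd' hiff
        exact ⟨⟨g, hg⟩, hgs, hgy⟩
      · have hc : (s ∩ y).card ≠ 0 := by
          rwa [Finset.disjoint_iff_inter_eq_empty, ← Finset.card_eq_zero] at hd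
        have h3 := Finset.card_le_card (Finset.inter_subset_left : s ∩ y ⊆ s)
        rw [hs] at h3
        have hj : (s ∩ y).card = 1 ∨ (s ∩ y).card = 2 ∨ (s ∩ y).card = 3 := by omega
        have h1 := (gc_triF_pos s y _ hj).mpr rfl
        rw [h1] at h
        have h2 := (gc_triF_pos s y' _ hj).mp h.symm
        have h5 : (s ∪ y).card ≤ 5 := by
          have := Finset.card_union_add_card_inter s y
          omega
        obtain ⟨g, hg, hgs, hgy⟩ := gc_set_pair_trans s y y' (by rw [hy2, hy2']) h2.symm h5
        exact ⟨⟨g, hg⟩, hgs, hgy⟩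
    have hsize : ∀ j ∈ ({3, 2, 1, 0, 4} : Finset ℕ), {y | y ∈ MulAction.orbit Cfsg.M24 s ∧
        gcTriF s y = j}.ncard =
        (fun j => if j = 3 then 1 else if j = 2 then 63 else if j = 1 then 630 else
          if j = 0 then 210 else 1120) j := by
      intro j hj
      rw [horb]
      simp only [Finset.mem_insert, Finset.mem_singleton] at hj
      rcases hj with rfl | rfl | rfl | rfl | rfl
      · have e : {y | y ∈ {y : Finset Cfsg.GolayPt | y.card = 3} ∧ gcTriF s y = 3} =
            {y : Finset Cfsg.GolayPt | y.card = 3 ∧ (s ∩ y).card = 3} := by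
          ext y
          simp only [Set.mem_setOf_eq]
          rw [gc_triF_pos s y 3 (by omega)]
        rw [e, gc_inter_ncard s 3 3 le_rfl, hs]
        decide
      · have e : {y | y ∈ {y : Finset Cfsg.GolayPt | y.card = 3} ∧ gcTriF s y = 2} =
            {y : Finset Cfsg.GolayPt | y.card = 3 ∧ (s ∩ y).card = 2} := by
          ext y
          simp only [Set.mem_setOf_eq]
          rw [gc_triF_pos s y 2 (by omega)]
        rw [e, gc_inter_ncard s 3 2 (by norm_num), hs]
        decide
      · have e : {y | y ∈ {y : Finset Cfsg.GolayPt | y.card = 3} ∧ gcTriF s y = 1} =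
            {y : Finset Cfsg.GolayPt | y.card = 3 ∧ (s ∩ y).card = 1} := by
          ext y
          simp only [Set.mem_setOf_eq]
          rw [gc_triF_pos s y 1 (by omega)]
        rw [e, gc_inter_ncard s 3 1 (by norm_num), hs]
        decide
      · have e : {y | y ∈ {y : Finset Cfsg.GolayPt | y.card = 3} ∧ gcTriF s y = 0} =
            {U : Finset Cfsg.GolayPt | U.card = 3 ∧ Disjoint s U ∧
              (∃ o ∈ Cfsg.octads, s ∪ U ⊆ o)} := by
          ext y
          simp only [Set.mem_setOf_eq]
          rw [gc_triF_zero s y]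
        rw [e, gc_triad_cnt_in s hs]
        rfl
      · have e : {y | y ∈ {y : Finset Cfsg.GolayPt | y.card = 3} ∧ gcTriF s y = 4} =
            {U : Finset Cfsg.GolayPt | U.card = 3 ∧ Disjoint s U ∧
              ¬ (∃ o ∈ Cfsg.octads, s ∪ U ⊆ o)} := by
          ext y
          simp only [Set.mem_setOf_eq]
          rw [gc_triF_four s y hs]
        rw [e, gc_triad_cnt_out s hs]
        rfl
    obtain ⟨I, hIt, hxI, hcard⟩ := og_card (G := Cfsg.M24) s (gcTriF s) {3, 2, 1, 0, 4}
      (fun j => if j = 3 then 1 else if j = 2 then 63 else if j = 1 then 630 else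
          if j = 0 then 210 else 1120) hclass htrans hsize K hK.le
    have h3I : 3 ∈ I := by
      have h1 : gcTriF s s = 3 := by
        rw [gc_triF_pos s s 3 (by omega), Finset.inter_self, hs]
      rwa [h1] at hxI
    rw [← Finset.inter_eq_right.mpr hIt, ← Finset.sum_ite_mem, hH,
      Finset.sum_insert (by decide), Finset.sum_insert (by decide), Finset.sum_insert (by decide),
      Finset.sum_insert (by decide), Finset.sum_singleton] at hcard
    simp only [h3I, if_true] at hcard
    have hdvd := Subgroup.card_subgroup_dvd_card K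
    rw [gc_card_M24] at hdvd
    by_cases h2 : 2 ∈ I <;> by_cases h1 : 1 ∈ I <;> by_cases h0 : 0 ∈ I <;> by_cases h4 : 4 ∈ I <;>
      simp only [h2, h1, h0, h4, if_true, if_false] at hcard <;> norm_num at hcard <;>
      first
      | exact absurd (Subgroup.eq_of_le_of_card_ge hK.le (le_of_eq (hcard.trans hH.symm))) hK.ne
      | exact (Subgroup.card_eq_iff_eq_top K).mp (hcard.trans gc_card_M24.symm)
      | (exfalso; rw [hcard] at hdvd; norm_num at hdvd)

end Cfsg.Agent.Lib.Helper7
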