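import Mathlib
import Cfsg.Prelude
import Cfsg.Agent.Lib.Helper7.GolayC29
import Cfsg.Agent.Lib.Helper7.GolayC33

set_option autoImplicit false

namespace Cfsg.Agent.Lib.Helper7

open scoped Pointwise

/-- pointwise stabilisers of conjugate sets have the same order -/
theorem gc_fix_card_conj {k : Equiv.Perm Cfsg.GolayPt} (hk : k ∈ Cfsg.M24)
    (S T : Finset Cfsg.GolayPt) (hST : k • S = T) :
    Nat.card ↥(Cfsg.M24 ⊓ fixingSubgroup (Equiv.Perm Cfsg.GolayPt) (S : Set Cfsg.GolayPt)) =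
    Nat.card ↥(Cfsg.M24 ⊓ fixingSubgroup (Equiv.Perm Cfsg.GolayPt) (T : Set Cfsg.GolayPt)) := by
  have hST' : k⁻¹ • T = S := by rw [← hST, inv_smul_smul]
  refine Nat.card_congr
    { toFun := fun g => ⟨k * g * k⁻¹, by
          have h1 := gc_fix_conj (inv_mem hk) T S hST' g.2
          rwa [inv_inv] at h1⟩
      invFun := fun h => ⟨k⁻¹ * h * k, gc_fix_conj hk S T hST h.2⟩
      left_inv := fun g => Subtype.ext (by
        show k⁻¹ * (k * g * k⁻¹) * k = g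
        group)
      right_inv := fun h => Subtype.ext (by
        show k * (k⁻¹ * h * k) * k⁻¹ = h
        group) }

theorem gc_fix_sub_card (E : Finset Cfsg.GolayPt) :
    Nat.card {g : Equiv.Perm Cfsg.GolayPt // g ∈ Cfsg.M24 ∧ ∀ p ∈ E, g p = p} =
    Nat.card ↥(Cfsg.M24 ⊓ fixingSubgroup (Equiv.Perm Cfsg.GolayPt) (E : Set Cfsg.GolayPt)) := by
  refine Nat.card_congr (Equiv.subtypeEquivRight fun g => ?_)
  rw [Subgroup.mem_inf, mem_fixingSubgroup_iff]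
  exact Iff.rfl

/-- the base points and the point 5 -/
def gcF6a : ℕ := 8388655

/-- the base points and the point 4 -/
def gcF6b : ℕ := 8388639

theorem gc_f6a_tab : ∀ a : Fin 24, gcF6a.testBit a.val = true ↔ ((∃ j < 5, a = gcBase j) ∨ a = 5) := by
  decide

theorem gc_f6b_tab : ∀ a : Fin 24, gcF6b.testBit a.val = true ↔ ((∃ j < 5, a = gcBase j) ∨ a = 4) := by
  decide

theorem gc_f6a_sub : ∀ a : Fin 24, gcF6a.testBit a.val = true → gcO0.testBit a.val = true := by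
  decide

theorem gc_six_image (x : Fin 5 ↪ Cfsg.GolayPt) (y : Cfsg.GolayPt) (k : Equiv.Perm Cfsg.GolayPt)
    (hkx : ∀ i : Fin 5, k (x i) = gcPt (gcBase i.val)) (c : Fin 24) (hky : k y = gcPt c)
    (E : Finset Cfsg.GolayPt) (hE : ∀ p, p ∈ E ↔ (∃ i, x i = p) ∨ p = y) (m : ℕ)
    (hm : ∀ a : Fin 24, m.testBit a.val = true ↔ ((∃ j < 5, a = gcBase j) ∨ a = c)) :
    k • E = gcSet m := by
  ext q
  obtain ⟨a, rfl⟩ := gcEquiv.surjective q
  show gcPt a ∈ k • E ↔ gcPt a ∈ gcSet m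
  rw [gc_mem_set, hm]
  constructor
  · intro hq
    obtain ⟨p, hp, hpq⟩ := Finset.mem_smul_finset.mp hq
    have hpq' : k p = gcPt a := hpq
    rcases (hE p).mp hp with ⟨i, rfl⟩ | rfl
    · left
      rw [hkx i] at hpq'
      exact ⟨i.val, i.isLt, (gcEquiv.injective hpq').symm⟩
    · right
      rw [hky] at hpq'
      exact (gcEquiv.injective hpq').symm
  · rintro (⟨j, hj, rfl⟩ | rfl)
    · have h1 := hkx ⟨j, hj⟩
      have h2 : gcPt (gcBase j) = k • x ⟨j, hj⟩ := h1.symm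
      rw [h2]
      exact Finset.smul_mem_smul_finset ((hE _).mpr (Or.inl ⟨_, rfl⟩))
    · have h2 : gcPt a = k • y := hky.symm
      rw [h2]
      exact Finset.smul_mem_smul_finset ((hE _).mpr (Or.inr rfl))

theorem gc_f6a_fix : Cfsg.M24 ⊓ fixingSubgroup (Equiv.Perm Cfsg.GolayPt)
      ((gcSet gcF6a : Finset Cfsg.GolayPt) : Set Cfsg.GolayPt) =
    Cfsg.M24 ⊓ fixingSubgroup (Equiv.Perm Cfsg.GolayPt)
      ((gcSet gcO0 : Finset Cfsg.GolayPt) : Set Cfsg.GolayPt) := by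
  apply le_antisymm
  · intro g hg
    obtain ⟨hg1, hg2⟩ := Subgroup.mem_inf.mp hg
    have hfixO : ∀ a : Fin 24, gcF6a.testBit a.val = true → g (gcPt a) = gcPt a := fun a ha =>
      (mem_fixingSubgroup_iff _).mp hg2 (gcPt a) (Finset.mem_coe.mpr ((gc_mem_set _ _).mpr ha))
    have hfix : ∀ j < 5, g (gcPt (gcBase j)) = gcPt (gcBase j) :=
      fun j hj => hfixO _ ((gc_f6a_tab _).mpr (Or.inl ⟨j, hj, rfl⟩))
    obtain ⟨u, v, huv, he⟩ := gc_g5_word hg1 hfix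
    obtain ⟨h1, h2, h3⟩ := gc_w48_tab u v huv.1 huv.2.1 huv.2.2
    have h5 := hfixO 5 ((gc_f6a_tab _).mpr (Or.inr rfl))
    rw [he, gc_word_rep, h2] at h5
    have hu : u = 5 := gcEquiv.injective h5
    subst hu
    rw [he]
    exact gc_o0_word_fix v huv.2.2
  · intro g hg
    obtain ⟨hg1, hg2⟩ := Subgroup.mem_inf.mp hg
    refine Subgroup.mem_inf.mpr ⟨hg1, (mem_fixingSubgroup_iff _).mpr (fun y hy => ?_)⟩
    obtain ⟨a, rfl⟩ := gcEquiv.surjective y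
    have ha : gcF6a.testBit a.val = true := (gc_mem_set _ _).mp (Finset.mem_coe.mp hy)
    exact (mem_fixingSubgroup_iff _).mp hg2 _
      (Finset.mem_coe.mpr ((gc_mem_set _ _).mpr (gc_f6a_sub a ha)))

theorem gc_f6b_cnt : (Finset.univ.filter (fun u : Fin 24 => gcO0.testBit u.val = true ∧
    gcF5.testBit u.val = false)).card = 3 := by
  decide +kernel

theorem gc_f6b_word (u : Fin 24) (hu : gcO0.testBit u.val = true ∧ gcF5.testBit u.val = false) :
    gcWord (gcW48 u.val 4) ∈ Cfsg.M24 ⊓ fixingSubgroup (Equiv.Perm Cfsg.GolayPt)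
      ((gcSet gcF6b : Finset Cfsg.GolayPt) : Set Cfsg.GolayPt) := by
  refine Subgroup.mem_inf.mpr ⟨gc_word_mem _, (mem_fixingSubgroup_iff _).mpr (fun y hy => ?_)⟩
  obtain ⟨a, rfl⟩ := gcEquiv.surjective y
  have ha : gcF6b.testBit a.val = true := (gc_mem_set _ _).mp (Finset.mem_coe.mp hy)
  obtain ⟨h1, h2, h3⟩ := gc_w48_tab u 4 hu.1 hu.2 gc_o0_five.2.2
  show gcWord (gcW48 u.val 4) (gcPt a) = gcPt a
  rw [gc_word_rep]
  rcases (gc_f6b_tab a).mp ha with ⟨j, hj, rfl⟩ | rfl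
  · exact congrArg gcPt (h1 j hj)
  · exact congrArg gcPt h3

theorem gc_f6b_fix_card : Nat.card ↥(Cfsg.M24 ⊓ fixingSubgroup (Equiv.Perm Cfsg.GolayPt)
    ((gcSet gcF6b : Finset Cfsg.GolayPt) : Set Cfsg.GolayPt)) = 3 := by
  have key : ∀ g : ↥(Cfsg.M24 ⊓ fixingSubgroup (Equiv.Perm Cfsg.GolayPt)
      ((gcSet gcF6b : Finset Cfsg.GolayPt) : Set Cfsg.GolayPt)),
      ∃ u : Fin 24, (gcO0.testBit u.val = true ∧ gcF5.testBit u.val = false) ∧
        (g : Equiv.Perm Cfsg.GolayPt) = gcWord (gcW48 u.val 4) ∧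
        gcIdx ((g : Equiv.Perm Cfsg.GolayPt) (gcPt 5)) = u := by
    intro g
    obtain ⟨hg1, hg2⟩ := Subgroup.mem_inf.mp g.2
    have hfixO : ∀ a : Fin 24, gcF6b.testBit a.val = true →
        (g : Equiv.Perm Cfsg.GolayPt) (gcPt a) = gcPt a := fun a ha =>
      (mem_fixingSubgroup_iff _).mp hg2 (gcPt a) (Finset.mem_coe.mpr ((gc_mem_set _ _).mpr ha))
    have hfix : ∀ j < 5, (g : Equiv.Perm Cfsg.GolayPt) (gcPt (gcBase j)) = gcPt (gcBase j) :=
      fun j hj => hfixO _ ((gc_f6b_tab _).mpr (Or.inl ⟨j, hj, rfl⟩))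
    obtain ⟨u, v, huv, he⟩ := gc_g5_word hg1 hfix
    obtain ⟨h1, h2, h3⟩ := gc_w48_tab u v huv.1 huv.2.1 huv.2.2
    have h4 := hfixO 4 ((gc_f6b_tab _).mpr (Or.inr rfl))
    rw [he, gc_word_rep, h3] at h4
    have hv : v = 4 := gcEquiv.injective h4
    subst hv
    refine ⟨u, ⟨huv.1, huv.2.1⟩, he, ?_⟩
    rw [he, gc_word_rep, gc_idx_pt]
    exact h2
  have hmem : ∀ g : ↥(Cfsg.M24 ⊓ fixingSubgroup (Equiv.Perm Cfsg.GolayPt)
      ((gcSet gcF6b : Finset Cfsg.GolayPt) : Set Cfsg.GolayPt)),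
      gcO0.testBit (gcIdx ((g : Equiv.Perm Cfsg.GolayPt) (gcPt 5))).val = true ∧
      gcF5.testBit (gcIdx ((g : Equiv.Perm Cfsg.GolayPt) (gcPt 5))).val = false := by
    intro g
    obtain ⟨u, hu, _, h3⟩ := key g
    rw [h3]
    exact hu
  have hbij : Function.Bijective (fun g : ↥(Cfsg.M24 ⊓ fixingSubgroup (Equiv.Perm Cfsg.GolayPt)
      ((gcSet gcF6b : Finset Cfsg.GolayPt) : Set Cfsg.GolayPt)) =>
      (⟨gcIdx ((g : Equiv.Perm Cfsg.GolayPt) (gcPt 5)), hmem g⟩ :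
        {u : Fin 24 // gcO0.testBit u.val = true ∧ gcF5.testBit u.val = false})) := by
    constructor
    · intro g g' h
      have h1 : gcIdx ((g : Equiv.Perm Cfsg.GolayPt) (gcPt 5)) =
          gcIdx ((g' : Equiv.Perm Cfsg.GolayPt) (gcPt 5)) := congrArg Subtype.val h
      obtain ⟨u, _, he, h3⟩ := key g
      obtain ⟨u', _, he', h3'⟩ := key g'
      apply Subtype.ext
      rw [he, he', ← h3, ← h3', h1]
    · rintro ⟨u, hu⟩
      refine ⟨⟨gcWord (gcW48 u.val 4), gc_f6b_word u hu⟩, ?_⟩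
      apply Subtype.ext
      obtain ⟨_, h2, _⟩ := gc_w48_tab u 4 hu.1 hu.2 gc_o0_five.2.2
      show gcIdx (gcWord (gcW48 u.val 4) (gcPt 5)) = u
      rw [gc_word_rep, gc_idx_pt]
      exact h2
  rw [Nat.card_eq_of_bijective _ hbij, Nat.card_eq_fintype_card, Fintype.card_subtype,
    gc_f6b_cnt]

theorem gc_six_enum (E : Finset Cfsg.GolayPt) (τ : Fin 6 ≃ ↥E) :
    ∃ (x : Fin 5 ↪ Cfsg.GolayPt) (y : Cfsg.GolayPt), (∀ i, x i = (τ i.castSucc).val) ∧
      y = (τ (Fin.last 5)).val ∧ (∀ i, y ≠ x i) ∧ (∀ p, p ∈ E ↔ (∃ i, x i = p) ∨ p = y) := by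
  refine ⟨⟨fun i => (τ i.castSucc).val, ?_⟩, (τ (Fin.last 5)).val, fun i => rfl, rfl, ?_, ?_⟩
  · intro i j h
    exact Fin.castSucc_injective _ (τ.injective (Subtype.ext h))
  · intro i h
    have h1 : Fin.last 5 = i.castSucc := τ.injective (Subtype.ext h)
    exact (Fin.castSucc_lt_last i).ne h1.symm
  · intro p
    constructor
    · intro hp
      obtain ⟨j, hj⟩ := τ.surjective ⟨p, hp⟩
      induction j using Fin.lastCases with
      | last => exact Or.inr (congrArg Subtype.val hj).symm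
      | cast i => exact Or.inl ⟨i, congrArg Subtype.val hj⟩
    · rintro (⟨i, rfl⟩ | rfl)
      · exact (τ _).2
      · exact (τ _).2

theorem gc_six_iff (E : Finset Cfsg.GolayPt) (x : Fin 5 ↪ Cfsg.GolayPt) (y : Cfsg.GolayPt)
    (hE : ∀ p, p ∈ E ↔ (∃ i, x i = p) ∨ p = y) :
    (∃ o ∈ Cfsg.octads, (∀ i, x i ∈ o) ∧ y ∈ o) ↔ (∃ o ∈ Cfsg.octads, E ⊆ o) := by
  constructor
  · rintro ⟨o, ho, h1, h2⟩
    refine ⟨o, ho, fun p hp => ?_⟩
    rcases (hE p).mp hp with ⟨i, rfl⟩ | rfl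
    · exact h1 i
    · exact h2
  · rintro ⟨o, ho, h⟩
    exact ⟨o, ho, fun i => h ((hE _).mpr (Or.inl ⟨i, rfl⟩)), h ((hE _).mpr (Or.inr rfl))⟩

/-- every permutation of a 6-set is induced -/
theorem gc_six_perm (E : Finset Cfsg.GolayPt) (hE : E.card = 6) (σ : Equiv.Perm ↥E) :
    ∃ g ∈ Cfsg.M24, ∀ p : ↥E, g p = σ p := by
  have e : Fin 6 ≃ ↥E := (Finset.equivFinOfCardEq hE).symm
  obtain ⟨x, y, hx, hy, hne, hmem⟩ := gc_six_enum E e
  obtain ⟨x', y', hx', hy', hne', hmem'⟩ := gc_six_enum E (e.trans σ)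
  obtain ⟨g, hg, hgx, hgy⟩ := gc_six_trans x x' y y' hne hne'
    ((gc_six_iff E x y hmem).trans (gc_six_iff E x' y' hmem').symm)
  refine ⟨g, hg, fun p => ?_⟩
  obtain ⟨j, rfl⟩ := e.surjective p
  induction j using Fin.lastCases with
  | last =>
    rw [← hy, hgy, hy']
    rfl
  | cast i =>
    rw [← hx i, hgx i, hx' i]
    rfl

theorem gc_s5600 (E : Finset Cfsg.GolayPt) (hE : E.card = 6) :
    (∀ σ : Equiv.Perm ↥E, ∃ g ∈ Cfsg.M24, ∀ p : ↥E, g p = σ p) ∧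
    ((∃ o ∈ Cfsg.octads, E ⊆ o) →
      Nat.card {g : Equiv.Perm Cfsg.GolayPt // g ∈ Cfsg.M24 ∧ ∀ p ∈ E, g p = p} = 16) ∧
    ((¬ ∃ o ∈ Cfsg.octads, E ⊆ o) →
      Nat.card {g : Equiv.Perm Cfsg.GolayPt // g ∈ Cfsg.M24 ∧ ∀ p ∈ E, g p = p} = 3 ∧
      Nat.card ↥(MulAction.stabilizer Cfsg.M24 E) = 2160) := by
  have e : Fin 6 ≃ ↥E := (Finset.equivFinOfCardEq hE).symm
  obtain ⟨x, y, hx, hy, hne, hmem⟩ := gc_six_enum E e
  obtain ⟨k, hk, hkx, hky⟩ := gc_six_norm x y hne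
  have h1 := (gc_six_octad x y hk hkx).trans (gc_six_iff E x y hmem)
  refine ⟨gc_six_perm E hE, ?_, ?_⟩
  · intro ho
    have h2 := h1.mpr ho
    have h5 : k y = gcPt 5 := by
      rcases hky with h | h
      · exact h
      · rw [h] at h2
        exact absurd h2 gc_four_out
    have h3 := gc_six_image x y k hkx 5 h5 E hmem gcF6a gc_f6a_tab
    rw [gc_fix_sub_card, gc_fix_card_conj hk E _ h3, gc_f6a_fix, gc_o0_fix_card]
  · intro ho
    have h4 : k y = gcPt 4 := by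
      rcases hky with h | h
      · rw [h] at h1
        exact absurd (h1.mp gc_five_in) ho
      · exact h
    have h3 := gc_six_image x y k hkx 4 h4 E hmem gcF6b gc_f6b_tab
    have hc : Nat.card ↥(Cfsg.M24 ⊓ fixingSubgroup (Equiv.Perm Cfsg.GolayPt)
        (E : Set Cfsg.GolayPt)) = 3 := by
      rw [gc_fix_card_conj hk E _ h3, gc_f6b_fix_card]
    refine ⟨by rw [gc_fix_sub_card, hc], ?_⟩
    have htop : (gcRes E).range = ⊤ := by
      rw [eq_top_iff]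
      intro σ _
      obtain ⟨g, hg, hgσ⟩ := gc_six_perm E hE σ
      have hsub : g • E ⊆ E := by
        intro q hq
        obtain ⟨p, hp, rfl⟩ := Finset.mem_smul_finset.mp hq
        have h2 : g p = σ ⟨p, hp⟩ := hgσ ⟨p, hp⟩
        show g p ∈ E
        rw [h2]
        exact (σ ⟨p, hp⟩).2
      have hstab : g • E = E :=
        Finset.eq_of_subset_of_card_le hsub (by rw [Finset.card_smul_finset])
      refine ⟨⟨⟨g, hg⟩, hstab⟩, ?_⟩
      exact Equiv.ext fun p => Subtype.ext (hgσ p)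
    rw [gc_res_card, hc, htop, Subgroup.card_top, Nat.card_perm, Nat.card_eq_fintype_card,
      Fintype.card_coe, hE]
    rfl

end Cfsg.Agent.Lib.Helper7
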