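import Mathlib
import Cfsg.Prelude
import Cfsg.Agent.Lib.Helper7.GolayC29

set_option autoImplicit false

namespace Cfsg.Agent.Lib.Helper7

open scoped Pointwise

theorem gc_w54 : ∀ a : Fin 24, gcEval (gcW48 5 4) a = a := by decide +kernel

/-- the pointwise stabiliser of an octad acts freely off the octad -/
theorem gc_octad_fix_free (o : Finset Cfsg.GolayPt) (ho : o ∈ Cfsg.octads) (p : Cfsg.GolayPt)
    (hp : p ∉ o) {f : Equiv.Perm Cfsg.GolayPt}
    (hf : f ∈ Cfsg.M24 ⊓ fixingSubgroup (Equiv.Perm Cfsg.GolayPt) (o : Set Cfsg.GolayPt))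
    (hfp : f p = p) : f = 1 := by
  obtain ⟨k, hk, hko, hkp⟩ := gc_octad_norm3 o ho p hp
  have hko' : k⁻¹ • gcSet gcO0 = o := by rw [← hko, inv_smul_smul]
  have h1 := gc_fix_conj (inv_mem hk) (gcSet gcO0) o hko' hf
  rw [inv_inv] at h1
  obtain ⟨v, hv, he⟩ := gc_o0_fix_word h1
  obtain ⟨_, _, h3⟩ := gc_w48_tab 5 v gc_o0_five.1 gc_o0_five.2.1 hv
  have h4 : (k * f * k⁻¹) (gcPt 4) = gcPt 4 := by
    rw [← hkp]
    show k (f (k⁻¹ (k p))) = k p
    have e1 : k⁻¹ (k p) = p := k.symm_apply_apply p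
    rw [e1, hfp]
  rw [he, gc_word_rep] at h4
  have h5 : gcEval (gcW48 5 v.val) 4 = 4 := gcEquiv.injective h4
  have hv4 : v = 4 := by rw [← h3]; exact h5
  subst hv4
  have h6 : k * f * k⁻¹ = 1 := by
    rw [he]
    apply Equiv.ext
    intro q
    obtain ⟨a, rfl⟩ := gcEquiv.surjective q
    show gcWord (gcW48 5 (4 : Fin 24).val) (gcPt a) = gcPt a
    rw [gc_word_rep]
    exact congrArg gcPt (gc_w54 a)
  have h7 : f = k⁻¹ * (k * f * k⁻¹) * k := by group
  rw [h7, h6]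
  group

/-- the pointwise stabiliser of an octad is transitive off the octad -/
theorem gc_octad_fix_trans (o : Finset Cfsg.GolayPt) (ho : o ∈ Cfsg.octads) (p q : Cfsg.GolayPt)
    (hp : p ∉ o) (hq : q ∉ o) :
    ∃ f ∈ Cfsg.M24 ⊓ fixingSubgroup (Equiv.Perm Cfsg.GolayPt) (o : Set Cfsg.GolayPt),
      f p = q := by
  obtain ⟨k, hk, hko, hkp⟩ := gc_octad_norm3 o ho p hp
  obtain ⟨v, hv⟩ := gcEquiv.surjective (k q)
  have hv' : gcPt v = k q := hv
  have hvo : gcO0.testBit v.val = false := by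
    by_contra hcon
    have h1 : gcPt v ∈ gcSet gcO0 := (gc_mem_set _ _).mpr (by simpa using hcon)
    rw [hv', ← hko, ← Equiv.Perm.smul_def, Finset.smul_mem_smul_finset_iff] at h1
    exact hq h1
  obtain ⟨_, _, h3⟩ := gc_w48_tab 5 v gc_o0_five.1 gc_o0_five.2.1 hvo
  refine ⟨k⁻¹ * gcWord (gcW48 5 v.val) * k, gc_fix_conj hk o (gcSet gcO0) hko
    (gc_o0_word_fix v hvo), ?_⟩
  show k⁻¹ (gcWord (gcW48 5 v.val) (k p)) = q
  rw [hkp, gc_word_rep]
  have h4 : gcEval (gcW48 5 v.val) 4 = v := h3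
  rw [h4, hv']
  exact k.symm_apply_apply q

theorem gc_fix_mem_stab {o : Finset Cfsg.GolayPt} {f : Equiv.Perm Cfsg.GolayPt}
    (hf : f ∈ Cfsg.M24 ⊓ fixingSubgroup (Equiv.Perm Cfsg.GolayPt) (o : Set Cfsg.GolayPt)) :
    f • o = o :=
  gc_fix_stab (fun y hy => (mem_fixingSubgroup_iff _).mp (Subgroup.mem_inf.mp hf).2 y
    (Finset.mem_coe.mpr hy))

/-- the restriction of the joint stabiliser of an octad and a point to the octad -/
noncomputable def gcResP (o : Finset Cfsg.GolayPt) (p : Cfsg.GolayPt) :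
    ↥(Cfsg.M24 ⊓ MulAction.stabilizer (Equiv.Perm Cfsg.GolayPt) o ⊓
      MulAction.stabilizer (Equiv.Perm Cfsg.GolayPt) p) →* Equiv.Perm ↥o where
  toFun g := (g : Equiv.Perm Cfsg.GolayPt).subtypePerm
    (gc_stab_mem (MulAction.mem_stabilizer_iff.mp
      (Subgroup.mem_inf.mp (Subgroup.mem_inf.mp g.2).1).2))
  map_one' := Equiv.ext (fun _ => Subtype.ext rfl)
  map_mul' _ _ := Equiv.ext (fun _ => Subtype.ext rfl)

theorem gc_s1554 (o : Finset Cfsg.GolayPt) (ho : o ∈ Cfsg.octads) (p : Cfsg.GolayPt)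
    (hp : p ∉ o) :
    (Cfsg.M24 ⊓ fixingSubgroup (Equiv.Perm Cfsg.GolayPt) (o : Set Cfsg.GolayPt)) ⊓
      (Cfsg.M24 ⊓ MulAction.stabilizer (Equiv.Perm Cfsg.GolayPt) o ⊓
        MulAction.stabilizer (Equiv.Perm Cfsg.GolayPt) p) = ⊥ ∧
    (Cfsg.M24 ⊓ fixingSubgroup (Equiv.Perm Cfsg.GolayPt) (o : Set Cfsg.GolayPt)) ⊔
      (Cfsg.M24 ⊓ MulAction.stabilizer (Equiv.Perm Cfsg.GolayPt) o ⊓
        MulAction.stabilizer (Equiv.Perm Cfsg.GolayPt) p) =
      (Cfsg.M24 ⊓ MulAction.stabilizer (Equiv.Perm Cfsg.GolayPt) o) ∧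
    Nonempty (↥(Cfsg.M24 ⊓ MulAction.stabilizer (Equiv.Perm Cfsg.GolayPt) o ⊓
      MulAction.stabilizer (Equiv.Perm Cfsg.GolayPt) p) ≃* alternatingGroup (Fin 8)) := by
  have hbot : (Cfsg.M24 ⊓ fixingSubgroup (Equiv.Perm Cfsg.GolayPt) (o : Set Cfsg.GolayPt)) ⊓
      (Cfsg.M24 ⊓ MulAction.stabilizer (Equiv.Perm Cfsg.GolayPt) o ⊓
        MulAction.stabilizer (Equiv.Perm Cfsg.GolayPt) p) = ⊥ := by
    rw [eq_bot_iff]
    intro g hg
    obtain ⟨hg1, hg2⟩ := Subgroup.mem_inf.mp hg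
    have hgp : g p = p := MulAction.mem_stabilizer_iff.mp (Subgroup.mem_inf.mp hg2).2
    exact Subgroup.mem_bot.mpr (gc_octad_fix_free o ho p hp hg1 hgp)
  -- every element of the octad stabiliser is a product
  have hprod : ∀ g ∈ Cfsg.M24, g • o = o →
      ∃ f ∈ Cfsg.M24 ⊓ fixingSubgroup (Equiv.Perm Cfsg.GolayPt) (o : Set Cfsg.GolayPt),
        f⁻¹ * g ∈ Cfsg.M24 ⊓ MulAction.stabilizer (Equiv.Perm Cfsg.GolayPt) o ⊓
          MulAction.stabilizer (Equiv.Perm Cfsg.GolayPt) p := by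
    intro g hg hgo
    have hgp : g p ∉ o := fun h => hp ((gc_stab_mem hgo p).mp h)
    obtain ⟨f, hf, hfp⟩ := gc_octad_fix_trans o ho p (g p) hp hgp
    refine ⟨f, hf, Subgroup.mem_inf.mpr ⟨Subgroup.mem_inf.mpr
      ⟨mul_mem (inv_mem (Subgroup.mem_inf.mp hf).1) hg, ?_⟩, ?_⟩⟩
    · rw [MulAction.mem_stabilizer_iff, mul_smul, hgo, inv_smul_eq_iff, gc_fix_mem_stab hf]
    · rw [MulAction.mem_stabilizer_iff]
      show f⁻¹ (g p) = p
      rw [← hfp]
      exact f.symm_apply_apply p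
  refine ⟨hbot, ?_, ?_⟩
  · apply le_antisymm
    · refine sup_le ?_ inf_le_left
      intro f hf
      exact Subgroup.mem_inf.mpr ⟨(Subgroup.mem_inf.mp hf).1,
        MulAction.mem_stabilizer_iff.mpr (gc_fix_mem_stab hf)⟩
    · intro g hg
      obtain ⟨hg1, hg2⟩ := Subgroup.mem_inf.mp hg
      obtain ⟨f, hf, hfg⟩ := hprod g hg1 (MulAction.mem_stabilizer_iff.mp hg2)
      have e : g = f * (f⁻¹ * g) := by group
      rw [e]
      exact Subgroup.mul_mem_sup hf hfg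
  · have hinj : Function.Injective (gcResP o p) := by
      rw [injective_iff_map_eq_one]
      intro g hg
      have h1 : (g : Equiv.Perm Cfsg.GolayPt) ∈ Cfsg.M24 ⊓
          fixingSubgroup (Equiv.Perm Cfsg.GolayPt) (o : Set Cfsg.GolayPt) := by
        refine Subgroup.mem_inf.mpr ⟨(Subgroup.mem_inf.mp (Subgroup.mem_inf.mp g.2).1).1,
          (mem_fixingSubgroup_iff _).mpr (fun y hy => ?_)⟩
        have h2 := congrArg (fun e : Equiv.Perm ↥o => (e ⟨y, Finset.mem_coe.mp hy⟩ :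
          Cfsg.GolayPt)) hg
        exact h2
      have h3 : (g : Equiv.Perm Cfsg.GolayPt) ∈ (⊥ : Subgroup (Equiv.Perm Cfsg.GolayPt)) := by
        rw [← hbot]
        exact Subgroup.mem_inf.mpr ⟨h1, g.2⟩
      exact Subtype.ext (Subgroup.mem_bot.mp h3)
    have hrange : (gcResP o p).range = alternatingGroup ↥o := by
      have halt := gc_octad_alt o ho
      ext e
      rw [← SetLike.mem_coe, ← SetLike.mem_coe, ← halt]
      constructor
      · rintro ⟨g, rfl⟩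
        exact ⟨(g : Equiv.Perm Cfsg.GolayPt),
          (Subgroup.mem_inf.mp (Subgroup.mem_inf.mp g.2).1).1,
          gc_stab_mem (MulAction.mem_stabilizer_iff.mp
            (Subgroup.mem_inf.mp (Subgroup.mem_inf.mp g.2).1).2), rfl⟩
      · rintro ⟨g, hg, h, rfl⟩
        obtain ⟨f, hf, hfg⟩ := hprod g hg (gc_mem_stab h)
        refine ⟨⟨f⁻¹ * g, hfg⟩, ?_⟩
        apply Equiv.ext
        intro x
        apply Subtype.ext
        show f⁻¹ (g x) = g x
        have h1 : f (g x) = g x := (mem_fixingSubgroup_iff _).mp (Subgroup.mem_inf.mp hf).2 (g x)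
          (Finset.mem_coe.mpr ((h x).mpr x.2))
        exact (Equiv.symm_apply_eq f).mpr h1.symm
    have h8 : o.card = 8 := gc_octad_card ho
    exact ⟨(MonoidHom.ofInjective hinj).trans ((MulEquiv.subgroupCongr hrange).trans
      (Equiv.altCongrHom (Finset.equivFinOfCardEq h8)))⟩

end Cfsg.Agent.Lib.Helper7
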