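import Mathlib

set_option autoImplicit false

namespace Cfsg.Agent.Lib.Helper7

/-- the order of an overgroup of a point stabiliser, in terms of the suborbits it contains,
with the set of suborbits identified -/
theorem og_card_iff {G X : Type*} [Group G] [Finite G] [MulAction G X] (x : X) (f : X → ℕ)
    (t : Finset ℕ) (N : ℕ → ℕ)
    (hclass : ∀ y ∈ MulAction.orbit G x, f y ∈ t)
    (htrans : ∀ y ∈ MulAction.orbit G x, ∀ y' ∈ MulAction.orbit G x, f y = f y' →
      ∃ g ∈ MulAction.stabilizer G x, g • y = y')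
    (hsize : ∀ s ∈ t, {y | y ∈ MulAction.orbit G x ∧ f y = s}.ncard = N s)
    (K : Subgroup G) (hK : MulAction.stabilizer G x ≤ K) :
    ∃ I ⊆ t, (∀ s, s ∈ I ↔ ∃ k ∈ K, f (k • x) = s) ∧
      Nat.card K = Nat.card (MulAction.stabilizer G x) * ∑ s ∈ I, N s := by
  classical
  have hGfin : (MulAction.orbit G x).Finite := Set.finite_range _
  have hAsub : MulAction.orbit K x ⊆ MulAction.orbit G x := by
    rintro y ⟨k, rfl⟩
    exact ⟨(k : G), rfl⟩
  have hAfin : (MulAction.orbit K x).Finite := hGfin.subset hAsub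
  have hclosed : ∀ y ∈ MulAction.orbit K x, ∀ g ∈ MulAction.stabilizer G x,
      g • y ∈ MulAction.orbit K x := by
    rintro y ⟨k, rfl⟩ g hg
    refine ⟨⟨g, hK hg⟩ * k, ?_⟩
    show (⟨g, hK hg⟩ * k : K) • x = g • (k • x)
    rw [mul_smul]
    rfl
  have hI : ∀ y, y ∈ MulAction.orbit K x ↔ (y ∈ MulAction.orbit G x ∧
      f y ∈ t.filter (fun s => ∃ y ∈ MulAction.orbit K x, f y = s)) := by
    intro y
    constructor
    · intro hy
      exact ⟨hAsub hy, Finset.mem_filter.mpr ⟨hclass y (hAsub hy), y, hy, rfl⟩⟩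
    · rintro ⟨hy, hfy⟩
      obtain ⟨_, y0, hy0, hf0⟩ := Finset.mem_filter.mp hfy
      obtain ⟨g, hg, hgy⟩ := htrans y0 (hAsub hy0) y hy hf0
      rw [← hgy]
      exact hclosed y0 hy0 g hg
  refine ⟨t.filter (fun s => ∃ y ∈ MulAction.orbit K x, f y = s), Finset.filter_subset _ _,
    ?_, ?_⟩
  · intro s
    rw [Finset.mem_filter]
    constructor
    · rintro ⟨_, y, ⟨k, rfl⟩, hy⟩
      exact ⟨(k : G), k.2, hy⟩
    · rintro ⟨k, hk, hks⟩
      have hmem : k • x ∈ MulAction.orbit K x := ⟨⟨k, hk⟩, rfl⟩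
      refine ⟨?_, k • x, hmem, hks⟩
      rw [← hks]
      exact hclass _ (hAsub hmem)
  have h1 := Subgroup.card_mul_index (MulAction.stabilizer K x)
  rw [MulAction.index_stabilizer] at h1
  have e2 : MulAction.stabilizer K x = (MulAction.stabilizer G x).subgroupOf K := by
    ext g
    rw [Subgroup.mem_subgroupOf, MulAction.mem_stabilizer_iff, MulAction.mem_stabilizer_iff]
    rfl
  have e3 : Nat.card (MulAction.stabilizer K x) = Nat.card (MulAction.stabilizer G x) := by
    rw [e2]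
    exact Nat.card_congr (Subgroup.subgroupOfEquivOfLe hK).toEquiv
  rw [e3] at h1
  rw [← h1]
  congr 1
  rw [Set.ncard_eq_toFinset_card _ hAfin]
  have hmaps : ((hAfin.toFinset : Finset X) : Set X).MapsTo f
      (t.filter (fun s => ∃ y ∈ MulAction.orbit K x, f y = s) : Finset ℕ) := by
    intro y hy
    rw [Finset.mem_coe, Set.Finite.mem_toFinset] at hy
    exact Finset.mem_coe.mpr ((hI y).mp hy).2
  rw [Finset.card_eq_sum_card_fiberwise hmaps]
  apply Finset.sum_congr rfl
  intro b hb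
  rw [← hsize b (Finset.mem_filter.mp hb).1, ← Set.ncard_coe_finset]
  congr 1
  ext y
  rw [Finset.mem_coe, Finset.mem_filter, Set.Finite.mem_toFinset, Set.mem_setOf_eq, hI y]
  constructor
  · rintro ⟨⟨hy, _⟩, hfy⟩
    exact ⟨hy, hfy⟩
  · rintro ⟨hy, hfy⟩
    exact ⟨⟨hy, by rw [hfy]; exact hb⟩, hfy⟩

end Cfsg.Agent.Lib.Helper7
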