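import Mathlib
import Cfsg.Prelude
import Cfsg.Agent.Lib.Helper7.GolayC28
import Cfsg.Agent.Lib.Helper7.Overgroup2

set_option autoImplicit false

namespace Cfsg.Agent.Lib.Helper7

open scoped Pointwise

theorem gc_dodecad_smul_iff {k : Equiv.Perm Cfsg.GolayPt} (hk : k ∈ Cfsg.M24)
    (S : Finset Cfsg.GolayPt) : k • S ∈ Cfsg.dodecads ↔ S ∈ Cfsg.dodecads := by
  constructor
  · intro h
    have h1 := gc_M24_dodecad (inv_mem hk) h
    rwa [inv_smul_smul] at h1
  · exact gc_M24_dodecad hk

/-- the dodecads meeting a dodecad in `s` points -/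
theorem gc_cnt_dod (d : Finset Cfsg.GolayPt) (hd : d ∈ Cfsg.dodecads) (s : ℕ) :
    {d'' : Finset Cfsg.GolayPt | d'' ∈ Cfsg.dodecads ∧ (d ∩ d'').card = s}.ncard =
      gcCountF (gcQ 12 0 0 0 gcD0 s) := by
  obtain ⟨k, hk, hkp⟩ := gc_trans_dodecads d (gcSet gcD0) hd gc_d0_mem
  rw [← gc_count_std]
  apply gc_ncard_smul k
  intro S
  rw [← gc_dodecad_iff, gc_dodecad_smul_iff hk, gc_set_zero, ← hkp, gc_inter_smul]
  simp

theorem gc_cnt_dod_tab : gcCountF (gcQ 12 0 0 0 gcD0 12) = 1 ∧
    gcCountF (gcQ 12 0 0 0 gcD0 0) = 1 ∧ gcCountF (gcQ 12 0 0 0 gcD0 4) = 495 ∧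
    gcCountF (gcQ 12 0 0 0 gcD0 6) = 1584 ∧ gcCountF (gcQ 12 0 0 0 gcD0 8) = 495 := by
  decide +kernel

theorem gc_smul_compl_eq (g : Cfsg.M24) (S : Finset Cfsg.GolayPt) : g • Sᶜ = (g • S)ᶜ := by
  ext z
  rw [← Finset.inv_smul_mem_iff, Finset.mem_compl, Finset.mem_compl, Finset.inv_smul_mem_iff]

/-- the stabiliser of a pair of complementary dodecads is a maximal subgroup -/
theorem gc_dodecad_pair_stab_coatom (d : Finset Cfsg.GolayPt) (hd : d ∈ Cfsg.dodecads) :
    IsCoatom (MulAction.stabilizer Cfsg.M24 ({d, dᶜ} : Finset (Finset Cfsg.GolayPt))) := by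
  have hdc : dᶜ ∈ Cfsg.dodecads := gc_compl_dodecad hd
  have horb := gc_orbit_dodecad d hd
  have hH := gc_card_stab_dodecad d hd
  obtain ⟨c12, c0, c4, c6, c8⟩ := gc_cnt_dod_tab
  have hd12 : (d ∩ d).card = 12 := by rw [Finset.inter_self, ((gc_dodecad_iff d).mp hd).2]
  have hd0 : (d ∩ dᶜ).card = 0 := by
    rw [Finset.card_eq_zero, ← Finset.disjoint_iff_inter_eq_empty]
    exact disjoint_compl_right
  -- the point stabiliser is contained in the pair stabiliser
  have hle : MulAction.stabilizer Cfsg.M24 d ≤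
      MulAction.stabilizer Cfsg.M24 ({d, dᶜ} : Finset (Finset Cfsg.GolayPt)) := by
    intro g hg
    have h1 : g • d = d := MulAction.mem_stabilizer_iff.mp hg
    rw [MulAction.mem_stabilizer_iff, Finset.smul_finset_insert, Finset.smul_finset_singleton,
      gc_smul_compl_eq, h1]
  -- elements of the pair stabiliser
  have hpair : ∀ k ∈ MulAction.stabilizer Cfsg.M24 ({d, dᶜ} : Finset (Finset Cfsg.GolayPt)),
      k • d = d ∨ k • d = dᶜ := by
    intro k hk
    have h1 : k • ({d, dᶜ} : Finset (Finset Cfsg.GolayPt)) = {d, dᶜ} :=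
      MulAction.mem_stabilizer_iff.mp hk
    have h2 : k • d ∈ k • ({d, dᶜ} : Finset (Finset Cfsg.GolayPt)) :=
      Finset.smul_mem_smul_finset (by simp)
    rw [h1] at h2
    simpa using h2
  -- the swapping element
  obtain ⟨w0, hw0, hw0d⟩ := gc_trans_dodecads d dᶜ hd hdc
  have hwd : (⟨w0, hw0⟩ : Cfsg.M24) • d = dᶜ := hw0d
  have hw : (⟨w0, hw0⟩ : Cfsg.M24) ∈
      MulAction.stabilizer Cfsg.M24 ({d, dᶜ} : Finset (Finset Cfsg.GolayPt)) := by
    rw [MulAction.mem_stabilizer_iff, Finset.smul_finset_insert, Finset.smul_finset_singleton,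
      gc_smul_compl_eq, hwd, compl_compl, Finset.pair_comm]
  have hclass : ∀ y ∈ MulAction.orbit Cfsg.M24 d,
      (fun y : Finset Cfsg.GolayPt => (d ∩ y).card) y ∈ ({12, 0, 4, 6, 8} : Finset ℕ) := by
    intro y hy
    rw [horb] at hy
    show (d ∩ y).card ∈ ({12, 0, 4, 6, 8} : Finset ℕ)
    rcases gc_dodecad_dodecad hd hy with h | h | h | h | h <;> rw [h] <;> simp
  have htrans : ∀ y ∈ MulAction.orbit Cfsg.M24 d, ∀ y' ∈ MulAction.orbit Cfsg.M24 d,
      (fun y : Finset Cfsg.GolayPt => (d ∩ y).card) y =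
        (fun y : Finset Cfsg.GolayPt => (d ∩ y).card) y' →
      ∃ g ∈ MulAction.stabilizer Cfsg.M24 d, g • y = y' := by
    intro y hy y' hy' h
    rw [horb] at hy hy'
    obtain ⟨g, hg, hgd, hgy⟩ := gc_dodecad_pair_orbit d y y' hd hy hy' h
    exact ⟨⟨g, hg⟩, hgd, hgy⟩
  have hsize : ∀ j ∈ ({12, 0, 4, 6, 8} : Finset ℕ), {y | y ∈ MulAction.orbit Cfsg.M24 d ∧
      (fun y : Finset Cfsg.GolayPt => (d ∩ y).card) y = j}.ncard =
      (fun j => if j = 12 then 1 else if j = 0 then 1 else if j = 4 then 495 else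
        if j = 6 then 1584 else 495) j := by
    intro j hj
    rw [horb]
    simp only [Finset.mem_insert, Finset.mem_singleton] at hj
    rcases hj with rfl | rfl | rfl | rfl | rfl
    · exact (gc_cnt_dod d hd 12).trans c12
    · exact (gc_cnt_dod d hd 0).trans c0
    · exact (gc_cnt_dod d hd 4).trans c4
    · exact (gc_cnt_dod d hd 6).trans c6
    · exact (gc_cnt_dod d hd 8).trans c8
  -- the order of the pair stabiliser
  have hH2 : Nat.card (MulAction.stabilizer Cfsg.M24
      ({d, dᶜ} : Finset (Finset Cfsg.GolayPt))) = 190080 := by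
    obtain ⟨I, hIt, hI, hcard⟩ := og_card_iff (G := Cfsg.M24) d
      (fun y : Finset Cfsg.GolayPt => (d ∩ y).card) {12, 0, 4, 6, 8}
      (fun j => if j = 12 then 1 else if j = 0 then 1 else if j = 4 then 495 else
        if j = 6 then 1584 else 495) hclass htrans hsize _ hle
    have hIe : I = {12, 0} := by
      ext s
      rw [hI s]
      simp only [Finset.mem_insert, Finset.mem_singleton]
      constructor
      · rintro ⟨k, hk, rfl⟩
        rcases hpair k hk with h | h
        · left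
          show (d ∩ k • d).card = 12
          rw [h, hd12]
        · right
          show (d ∩ k • d).card = 0
          rw [h, hd0]
      · rintro (rfl | rfl)
        · refine ⟨1, one_mem _, ?_⟩
          show (d ∩ (1 : Cfsg.M24) • d).card = 12
          rw [one_smul, hd12]
        · refine ⟨_, hw, ?_⟩
          show (d ∩ (⟨w0, hw0⟩ : Cfsg.M24) • d).card = 0
          rw [hwd, hd0]
    rw [hcard, hH, hIe, Finset.sum_insert (by decide), Finset.sum_singleton]
    rfl
  constructor
  · intro htop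
    rw [htop, Subgroup.card_top, gc_card_M24] at hH2
    norm_num at hH2
  · intro K hK
    obtain ⟨I, hIt, hI, hcard⟩ := og_card_iff (G := Cfsg.M24) d
      (fun y : Finset Cfsg.GolayPt => (d ∩ y).card) {12, 0, 4, 6, 8}
      (fun j => if j = 12 then 1 else if j = 0 then 1 else if j = 4 then 495 else
        if j = 6 then 1584 else 495) hclass htrans hsize K (hle.trans hK.le)
    have h12I : 12 ∈ I := by
      rw [hI]
      refine ⟨1, one_mem _, ?_⟩
      show (d ∩ (1 : Cfsg.M24) • d).card = 12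
      rw [one_smul, hd12]
    have h0I : 0 ∈ I := by
      rw [hI]
      refine ⟨_, hK.le hw, ?_⟩
      show (d ∩ (⟨w0, hw0⟩ : Cfsg.M24) • d).card = 0
      rw [hwd, hd0]
    rw [← Finset.inter_eq_right.mpr hIt, ← Finset.sum_ite_mem, hH,
      Finset.sum_insert (by decide), Finset.sum_insert (by decide), Finset.sum_insert (by decide),
      Finset.sum_insert (by decide), Finset.sum_singleton] at hcard
    simp only [h12I, h0I, if_true] at hcard
    have hdvd := Subgroup.card_subgroup_dvd_card K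
    rw [gc_card_M24] at hdvd
    by_cases h4 : 4 ∈ I <;> by_cases h6 : 6 ∈ I <;> by_cases h8 : 8 ∈ I <;>
      simp only [h4, h6, h8, if_true, if_false] at hcard <;> norm_num at hcard <;>
      first
      | exact absurd (Subgroup.eq_of_le_of_card_ge hK.le (le_of_eq (hcard.trans hH2.symm))) hK.ne
      | exact (Subgroup.card_eq_iff_eq_top K).mp (hcard.trans gc_card_M24.symm)
      | (exfalso; rw [hcard] at hdvd; norm_num at hdvd)

end Cfsg.Agent.Lib.Helper7
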