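import Mathlib
import Cfsg.Prelude
import Cfsg.Agent.Lib.Helper7.GolayC36

set_option autoImplicit false

namespace Cfsg.Agent.Lib.Helper7

open scoped Pointwise

/-- an element of the dodecad stabiliser fixing five of its points is trivial -/
theorem gc_dodecad_faithful (d : Finset Cfsg.GolayPt) (hd : d ∈ Cfsg.dodecads)
    (C : Finset Cfsg.GolayPt) (hCd : C ⊆ d) (hC5 : 5 ≤ C.card) (g : Cfsg.M24)
    (hgd : g ∈ MulAction.stabilizer Cfsg.M24 d)
    (hfix : ∀ p ∈ C, (g : Equiv.Perm Cfsg.GolayPt) p = p) : g = 1 := by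
  obtain ⟨x, hx⟩ := gc_exists_emb C hC5
  have h1 : (g : Equiv.Perm Cfsg.GolayPt) • d = d := MulAction.mem_stabilizer_iff.mp hgd
  have h2 := gc_dodecad_sharp d hd x (fun i => hCd (hx i)) g.2 h1 (fun i => hfix _ (hx i))
  exact Subtype.ext h2

/-- the restriction of the joint stabiliser of two sets to the second -/
noncomputable def gcRes2 (d C : Finset Cfsg.GolayPt) :
    ↥(MulAction.stabilizer Cfsg.M24 d ⊓ MulAction.stabilizer Cfsg.M24 C) →* Equiv.Perm ↥C where
  toFun g := ((g : Cfsg.M24) : Equiv.Perm Cfsg.GolayPt).subtypePerm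
    (gc_stab_mem (MulAction.mem_stabilizer_iff.mp (Subgroup.mem_inf.mp g.2).2))
  map_one' := Equiv.ext (fun _ => Subtype.ext rfl)
  map_mul' _ _ := Equiv.ext (fun _ => Subtype.ext rfl)

theorem gc_s5618 (d : Finset Cfsg.GolayPt) (hd : d ∈ Cfsg.dodecads) (C : Finset Cfsg.GolayPt)
    (hC : C ∈ Cfsg.hexadsOn d) :
    Nonempty (↥(MulAction.stabilizer Cfsg.M24 d ⊓ MulAction.stabilizer Cfsg.M24 C) ≃*
      Equiv.Perm (Fin 6)) ∧
    (∀ g ∈ MulAction.stabilizer Cfsg.M24 d ⊓ MulAction.stabilizer Cfsg.M24 C,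
      (∀ p ∈ C, ((g : ↥Cfsg.M24) : Equiv.Perm Cfsg.GolayPt) p = p) → g = 1) ∧
    ∀ g ∈ MulAction.stabilizer Cfsg.M24 d ⊓ MulAction.stabilizer Cfsg.M24 C,
      (∀ p ∈ d \ C, ((g : ↥Cfsg.M24) : Equiv.Perm Cfsg.GolayPt) p = p) → g = 1 := by
  obtain ⟨hC6, o, ho, hoC⟩ := hC
  have hCd : C ⊆ d := by rw [← hoC]; exact Finset.inter_subset_right
  have hCo : C ⊆ o := by rw [← hoC]; exact Finset.inter_subset_left
  have hd12 := ((gc_dodecad_iff d).mp hd).2
  have hfC : ∀ g ∈ MulAction.stabilizer Cfsg.M24 d ⊓ MulAction.stabilizer Cfsg.M24 C,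
      (∀ p ∈ C, ((g : ↥Cfsg.M24) : Equiv.Perm Cfsg.GolayPt) p = p) → g = 1 := by
    intro g hg hfix
    exact gc_dodecad_faithful d hd C hCd (by omega) g (Subgroup.mem_inf.mp hg).1 hfix
  refine ⟨?_, hfC, ?_⟩
  · have hinj : Function.Injective (gcRes2 d C) := by
      rw [injective_iff_map_eq_one]
      intro g hg
      have h1 := hfC (g : Cfsg.M24) g.2 (fun p hp => by
        have h2 := congrArg (fun e : Equiv.Perm ↥C => (e ⟨p, hp⟩ : Cfsg.GolayPt)) hg
        exact h2)
      exact Subtype.ext h1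
    have hsurj : Function.Surjective (gcRes2 d C) := by
      intro σ
      have e : Fin 6 ≃ ↥C := (Finset.equivFinOfCardEq hC6).symm
      obtain ⟨x, y, hx, hy, hne, hmem⟩ := gc_six_enum C e
      obtain ⟨x', y', hx', hy', hne', hmem'⟩ := gc_six_enum C (e.trans σ)
      have hxC : ∀ i, x i ∈ C := fun i => (hmem _).mpr (Or.inl ⟨i, rfl⟩)
      have hxC' : ∀ i, x' i ∈ C := fun i => (hmem' _).mpr (Or.inl ⟨i, rfl⟩)
      obtain ⟨g, hg, hgd, hgx⟩ := gc_dodecad_five d hd x x' (fun i => hCd (hxC i))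
        (fun i => hCd (hxC' i))
      -- the image of the octad is the octad
      have hgo : g • o = o := by
        apply gc_octad_eq5 ho (gc_M24_octad hg ho)
        have hsub : (Finset.univ : Finset (Fin 5)).map x' ⊆ o ∩ g • o := by
          intro p hp
          rw [Finset.mem_map] at hp
          obtain ⟨i, _, rfl⟩ := hp
          rw [Finset.mem_inter]
          refine ⟨hCo (hxC' i), ?_⟩
          rw [← hgx i, ← Equiv.Perm.smul_def]
          exact Finset.smul_mem_smul_finset (hCo (hxC i))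
        have hc := Finset.card_le_card hsub
        rw [Finset.card_map, Finset.card_univ, Fintype.card_fin] at hc
        exact hc
      have hgC : g • C = C := by
        rw [← hoC, Finset.smul_finset_inter, hgo, hgd]
      have hgy : g y = y' := by
        have h1 : g y ∈ C := (gc_stab_mem hgC y).mpr ((hmem y).mpr (Or.inr rfl))
        rcases (hmem' _).mp h1 with ⟨i, hi⟩ | h
        · rw [← hgx i] at hi
          exact absurd (g.injective hi).symm (hne i)
        · exact h
      refine ⟨⟨⟨g, hg⟩, Subgroup.mem_inf.mpr ⟨hgd, hgC⟩⟩, ?_⟩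
      apply Equiv.ext
      intro p
      apply Subtype.ext
      show g p = σ p
      obtain ⟨j, rfl⟩ := e.surjective p
      induction j using Fin.lastCases with
      | last =>
        rw [← hy, hgy, hy']
        rfl
      | cast i =>
        rw [← hx i, hgx i, hx' i]
        rfl
    exact ⟨(MulEquiv.ofBijective (gcRes2 d C) ⟨hinj, hsurj⟩).trans
      (Equiv.permCongrHom (Finset.equivFinOfCardEq hC6))⟩
  · intro g hg hfix
    have hsd : d \ C ⊆ d := Finset.sdiff_subset
    have hc : (d \ C).card = 6 := by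
      rw [Finset.card_sdiff_of_subset hCd, hd12, hC6]
    exact gc_dodecad_faithful d hd (d \ C) hsd (by omega) g (Subgroup.mem_inf.mp hg).1 hfix

end Cfsg.Agent.Lib.Helper7
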