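import Mathlib
import Cfsg.Prelude
import Cfsg.Agent.Lib.Helper7.GolayC19

set_option autoImplicit false

namespace Cfsg.Agent.Lib.Helper7

open scoped Pointwise

theorem gc_sq_dodecad : Cfsg.Spor.squareDodecad ∈ Cfsg.dodecads := by
  refine ⟨⟨Cfsg.qrWord 0, Submodule.subset_span (Or.inl ⟨0, rfl⟩), rfl⟩, ?_⟩
  show (Cfsg.support₂ (Cfsg.qrWord 0)).card = 12
  rw [← g24_norm_eq, gc_wt_gen]

theorem gc_sq_zero : (some 0 : Cfsg.GolayPt) ∈ Cfsg.Spor.squareDodecad := by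
  show (some 0 : Cfsg.GolayPt) ∈ Cfsg.support₂ (Cfsg.qrWord 0)
  rw [g24_mem_supp]
  show (if ∃ r : ZMod 23, (0 : ZMod 23) = r ^ 2 + 0 then (1 : ZMod 2) else 0) ≠ 0
  rw [if_pos ⟨0, by norm_num⟩]
  exact one_ne_zero

theorem gc_sq_none : (none : Cfsg.GolayPt) ∉ Cfsg.Spor.squareDodecad := by
  show (none : Cfsg.GolayPt) ∉ Cfsg.support₂ (Cfsg.qrWord 0)
  rw [g24_mem_supp]
  exact fun h => h rfl

/-- conjugating the joint stabiliser of a set and a point -/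
theorem gc_conj_stab_le {g : Equiv.Perm Cfsg.GolayPt} (hg : g ∈ Cfsg.M24)
    (S S' : Finset Cfsg.GolayPt) (p p' : Cfsg.GolayPt) (hS : g • S = S') (hp : g p = p')
    {y : Equiv.Perm Cfsg.GolayPt}
    (hy : y ∈ Cfsg.M24 ⊓ MulAction.stabilizer (Equiv.Perm Cfsg.GolayPt) S ⊓
      MulAction.stabilizer (Equiv.Perm Cfsg.GolayPt) p) :
    g * y * g⁻¹ ∈ Cfsg.M24 ⊓ MulAction.stabilizer (Equiv.Perm Cfsg.GolayPt) S' ⊓
      MulAction.stabilizer (Equiv.Perm Cfsg.GolayPt) p' := by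
  obtain ⟨hy12, hy3⟩ := Subgroup.mem_inf.mp hy
  obtain ⟨hy1, hy2⟩ := Subgroup.mem_inf.mp hy12
  rw [MulAction.mem_stabilizer_iff] at hy2 hy3
  refine Subgroup.mem_inf.mpr ⟨Subgroup.mem_inf.mpr ⟨mul_mem (mul_mem hg hy1) (inv_mem hg), ?_⟩,
    ?_⟩
  · rw [MulAction.mem_stabilizer_iff, ← hS, mul_smul, mul_smul, inv_smul_smul, hy2]
  · rw [MulAction.mem_stabilizer_iff, ← hp]
    show g (y (g⁻¹ (g p))) = g p
    have e1 : g⁻¹ (g p) = p := g.symm_apply_apply p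
    have e2 : y p = p := hy3
    rw [e1, e2]

theorem gc_conj_stab {g : Equiv.Perm Cfsg.GolayPt} (hg : g ∈ Cfsg.M24)
    (S S' : Finset Cfsg.GolayPt) (p p' : Cfsg.GolayPt) (hS : g • S = S') (hp : g p = p') :
    MulAut.conj g • (Cfsg.M24 ⊓ MulAction.stabilizer (Equiv.Perm Cfsg.GolayPt) S ⊓
      MulAction.stabilizer (Equiv.Perm Cfsg.GolayPt) p) =
    Cfsg.M24 ⊓ MulAction.stabilizer (Equiv.Perm Cfsg.GolayPt) S' ⊓
      MulAction.stabilizer (Equiv.Perm Cfsg.GolayPt) p' := by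
  ext x
  rw [Subgroup.mem_pointwise_smul_iff_inv_smul_mem]
  have e : (MulAut.conj g)⁻¹ • x = g⁻¹ * x * g := rfl
  rw [e]
  have hS' : g⁻¹ • S' = S := by rw [← hS, inv_smul_smul]
  have hp' : g⁻¹ p' = p := by rw [← hp]; exact g.symm_apply_apply p
  constructor
  · intro h
    have h1 := gc_conj_stab_le hg S S' p p' hS hp h
    have e2 : g * (g⁻¹ * x * g) * g⁻¹ = x := by group
    rwa [e2] at h1
  · intro h
    have h1 := gc_conj_stab_le (inv_mem hg) S' S p' p hS' hp' h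
    rwa [inv_inv] at h1

theorem gc_stab_compl (S : Finset Cfsg.GolayPt) :
    MulAction.stabilizer (Equiv.Perm Cfsg.GolayPt) Sᶜ =
      MulAction.stabilizer (Equiv.Perm Cfsg.GolayPt) S := by
  ext x
  rw [MulAction.mem_stabilizer_iff, MulAction.mem_stabilizer_iff]
  constructor
  · intro h
    have h1 := gc_smul_compl h
    rwa [compl_compl] at h1
  · exact gc_smul_compl

theorem gc_s5620 : Nonempty (↥(Cfsg.Spor.M12 ⊓ MulAction.stabilizer (Equiv.Perm Cfsg.GolayPt)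
      (none : Cfsg.GolayPt)) ≃* ↥Cfsg.Spor.M11) ∧
    (¬ ∃ k ∈ Cfsg.Spor.M12, MulAut.conj k • Cfsg.Spor.M11 =
      Cfsg.Spor.M12 ⊓ MulAction.stabilizer (Equiv.Perm Cfsg.GolayPt) (none : Cfsg.GolayPt)) ∧
    ∃ g ∈ Cfsg.M24, g • Cfsg.Spor.squareDodecad = Finset.univ \ Cfsg.Spor.squareDodecad ∧
      MulAut.conj g • Cfsg.Spor.M11 =
        Cfsg.Spor.M12 ⊓ MulAction.stabilizer (Equiv.Perm Cfsg.GolayPt) (none : Cfsg.GolayPt) := by
  have hD := gc_sq_dodecad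
  have hDc := gc_compl_dodecad hD
  have h0 := gc_sq_zero
  have hn := gc_sq_none
  have hD12 := ((gc_dodecad_iff _).mp hD).2
  have hDc12 := ((gc_dodecad_iff _).mp hDc).2
  have hM11 : Cfsg.Spor.M11 = Cfsg.M24 ⊓ MulAction.stabilizer (Equiv.Perm Cfsg.GolayPt)
      Cfsg.Spor.squareDodecad ⊓ MulAction.stabilizer (Equiv.Perm Cfsg.GolayPt)
      (some 0 : Cfsg.GolayPt) := rfl
  have hM12 : Cfsg.Spor.M12 = Cfsg.M24 ⊓ MulAction.stabilizer (Equiv.Perm Cfsg.GolayPt)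
      Cfsg.Spor.squareDodecad := rfl
  -- the conjugating element
  have hex : ∃ g ∈ Cfsg.M24, g • Cfsg.Spor.squareDodecad = Finset.univ \ Cfsg.Spor.squareDodecad ∧
      MulAut.conj g • Cfsg.Spor.M11 =
        Cfsg.Spor.M12 ⊓ MulAction.stabilizer (Equiv.Perm Cfsg.GolayPt) (none : Cfsg.GolayPt) := by
    obtain ⟨w, hw, hwD⟩ := gc_trans_dodecads _ _ hD hDc
    have hq : w (some 0) ∈ Cfsg.Spor.squareDodecadᶜ := by
      rw [← hwD, ← Equiv.Perm.smul_def]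
      exact Finset.smul_mem_smul_finset h0
    obtain ⟨h, hh, hhD, hhq⟩ := gc_dodecad_pt_trans _ hDc (w (some 0)) none hq
      (Finset.mem_compl.mpr hn)
    have hgD : (h * w) • Cfsg.Spor.squareDodecad = Cfsg.Spor.squareDodecadᶜ := by
      rw [mul_smul, hwD, hhD]
    refine ⟨h * w, mul_mem hh hw, ?_, ?_⟩
    · rw [hgD, Finset.compl_eq_univ_sdiff]
    · rw [hM11, gc_conj_stab (mul_mem hh hw) _ _ _ _ hgD hhq, gc_stab_compl, hM12]
  refine ⟨?_, ?_, hex⟩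
  · obtain ⟨g, _, _, hconj⟩ := hex
    exact ⟨((Subgroup.equivSMul (MulAut.conj g) Cfsg.Spor.M11).trans
      (MulEquiv.subgroupCongr hconj)).symm⟩
  · rintro ⟨k, hk, hconj⟩
    rw [hM12] at hk
    obtain ⟨hk1, hk2⟩ := Subgroup.mem_inf.mp hk
    rw [MulAction.mem_stabilizer_iff] at hk2
    rw [hM11, gc_conj_stab hk1 _ _ _ _ hk2 rfl, hM12] at hconj
    have hp : k (some 0) ∈ Cfsg.Spor.squareDodecad := by
      have h1 : k (some 0) ∈ k • Cfsg.Spor.squareDodecad := by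
        rw [← Equiv.Perm.smul_def]
        exact Finset.smul_mem_smul_finset h0
      rwa [hk2] at h1
    -- two more points of the dodecad
    have hc : 1 < (Cfsg.Spor.squareDodecad.erase (k (some 0))).card := by
      rw [Finset.card_erase_of_mem hp, hD12]
      norm_num
    obtain ⟨q, hq, r, hr, hqr⟩ := Finset.one_lt_card.mp hc
    obtain ⟨hqp, hqD⟩ := Finset.mem_erase.mp hq
    obtain ⟨hrp, hrD⟩ := Finset.mem_erase.mp hr
    obtain ⟨y, hy, hyn⟩ := Finset.exists_mem_ne (by rw [hDc12]; norm_num :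
      1 < (Cfsg.Spor.squareDodecadᶜ).card) (none : Cfsg.GolayPt)
    obtain ⟨g, hg, hgD, hgp, _, _, hgy⟩ := gc_dodecad_three_trans _ hD (k (some 0)) q r hp hqD hrD
      (Ne.symm hqp) (Ne.symm hrp) hqr none y hn (Finset.mem_compl.mp hy)
    have hmem : g ∈ Cfsg.M24 ⊓ MulAction.stabilizer (Equiv.Perm Cfsg.GolayPt)
        Cfsg.Spor.squareDodecad ⊓ MulAction.stabilizer (Equiv.Perm Cfsg.GolayPt)
        (k (some 0)) :=
      Subgroup.mem_inf.mpr ⟨Subgroup.mem_inf.mpr ⟨hg, MulAction.mem_stabilizer_iff.mpr hgD⟩,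
        MulAction.mem_stabilizer_iff.mpr hgp⟩
    rw [hconj] at hmem
    have h1 : g none = none := MulAction.mem_stabilizer_iff.mp (Subgroup.mem_inf.mp hmem).2
    rw [hgy] at h1
    exact hyn h1

end Cfsg.Agent.Lib.Helper7
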