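import Mathlib
import Cfsg.Prelude
import Cfsg.Agent.Lib.Helper7.GolayC31

set_option autoImplicit false

namespace Cfsg.Agent.Lib.Helper7

open scoped Pointwise

theorem gc_f1_67 : ∀ i : Fin 24, gcF1.testBit i.val = true → i ≠ 6 ∧ i ≠ 7 := by decide

/-- the group of the code contains no transposition -/
theorem gc_no_transposition (c : Equiv.Perm Cfsg.GolayPt) (hc : c ∈ Cfsg.M24)
    (a b : Cfsg.GolayPt) (hab : a ≠ b) (hfix : ∀ p, p ≠ a → p ≠ b → c p = p) : c = 1 := by
  have hn : ([gcPt 6, gcPt 7] : List Cfsg.GolayPt).Nodup := by decide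
  obtain ⟨k, hk, hkl⟩ := gc_list_trans [a, b] [gcPt 6, gcPt 7] (by simp [hab]) hn rfl
    (by norm_num)
  have hka : k a = gcPt 6 := by
    have := congrArg (fun l : List Cfsg.GolayPt => l.getD 0 a) hkl
    exact this
  have hkb : k b = gcPt 7 := by
    have := congrArg (fun l : List Cfsg.GolayPt => l.getD 1 a) hkl
    exact this
  have h1 : k * c * k⁻¹ = 1 := by
    apply gc_base7 _ (mul_mem (mul_mem hk hc) (inv_mem hk))
    intro i hi
    obtain ⟨h6, h7⟩ := gc_f1_67 i hi
    show k (c (k⁻¹ (gcPt i))) = gcPt i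
    have e1 : k⁻¹ (gcPt i) ≠ a := by
      intro h
      have h2 : gcPt i = k a := by rw [← h]; exact (k.apply_symm_apply _).symm
      rw [hka] at h2
      exact h6 (gcEquiv.injective h2)
    have e2 : k⁻¹ (gcPt i) ≠ b := by
      intro h
      have h2 : gcPt i = k b := by rw [← h]; exact (k.apply_symm_apply _).symm
      rw [hkb] at h2
      exact h7 (gcEquiv.injective h2)
    rw [hfix _ e1 e2]
    exact k.apply_symm_apply _
  have h2 : c = k⁻¹ * (k * c * k⁻¹) * k := by group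
  rw [h2, h1]
  group

theorem gc_mem_M22 (x : Equiv.Perm Cfsg.GolayPt) :
    x ∈ Cfsg.Spor.M22 ↔ x ∈ Cfsg.M24 ∧ x none = none ∧ x (some 0) = some 0 := by
  show x ∈ (Cfsg.M24 ⊓ MulAction.stabilizer (Equiv.Perm Cfsg.GolayPt) (none : Cfsg.GolayPt)) ⊓
    MulAction.stabilizer (Equiv.Perm Cfsg.GolayPt) (some 0 : Cfsg.GolayPt) ↔ _
  rw [Subgroup.mem_inf, Subgroup.mem_inf, MulAction.mem_stabilizer_iff,
    MulAction.mem_stabilizer_iff]
  exact and_assoc

theorem gc_pair_stab_iff (x : Equiv.Perm Cfsg.GolayPt) (a b : Cfsg.GolayPt) (hab : a ≠ b) :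
    x • ({a, b} : Finset Cfsg.GolayPt) = {a, b} ↔
      ((x a = a ∧ x b = b) ∨ (x a = b ∧ x b = a)) := by
  constructor
  · intro h
    have ha : x a ∈ ({a, b} : Finset Cfsg.GolayPt) := by
      rw [← h, ← Equiv.Perm.smul_def]
      exact Finset.smul_mem_smul_finset (by simp)
    have hb : x b ∈ ({a, b} : Finset Cfsg.GolayPt) := by
      rw [← h, ← Equiv.Perm.smul_def]
      exact Finset.smul_mem_smul_finset (by simp)
    rw [Finset.mem_insert, Finset.mem_singleton] at ha hb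
    rcases ha with ha | ha <;> rcases hb with hb | hb
    · exact absurd (x.injective (ha.trans hb.symm)) hab
    · exact Or.inl ⟨ha, hb⟩
    · exact Or.inr ⟨ha, hb⟩
    · exact absurd (x.injective (ha.trans hb.symm)) hab
  · rintro (⟨ha, hb⟩ | ⟨ha, hb⟩)
    · rw [Finset.smul_finset_insert, Finset.smul_finset_singleton, Equiv.Perm.smul_def,
        Equiv.Perm.smul_def, ha, hb]
    · rw [Finset.smul_finset_insert, Finset.smul_finset_singleton, Equiv.Perm.smul_def,
        Equiv.Perm.smul_def, ha, hb, Finset.pair_comm]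

theorem gc_s5599 (g : Equiv.Perm Cfsg.GolayPt) (hg : g ∈ Cfsg.M24) (h₁ : g none = some 0)
    (h₂ : g (some 0) = none) :
    Cfsg.Spor.M22.relIndex (Cfsg.M24 ⊓ MulAction.stabilizer (Equiv.Perm Cfsg.GolayPt)
      ({none, some 0} : Finset Cfsg.GolayPt)) = 2 ∧
    (∀ x ∈ Cfsg.Spor.M22, g * x * g⁻¹ ∈ Cfsg.Spor.M22) ∧
    ¬ ∃ h ∈ Cfsg.Spor.M22, ∀ x ∈ Cfsg.Spor.M22, g * x * g⁻¹ = h * x * h⁻¹ := by
  have hab : (none : Cfsg.GolayPt) ≠ some 0 := by decide
  have hgi1 : g⁻¹ none = some 0 := by rw [← h₂]; exact g.symm_apply_apply _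
  have hgi2 : g⁻¹ (some 0) = none := by rw [← h₁]; exact g.symm_apply_apply _
  refine ⟨?_, ?_, ?_⟩
  · show (Cfsg.Spor.M22.subgroupOf (Cfsg.M24 ⊓ MulAction.stabilizer (Equiv.Perm Cfsg.GolayPt)
      ({none, some 0} : Finset Cfsg.GolayPt))).index = 2
    rw [Subgroup.index_eq_two_iff]
    have hgP : g ∈ Cfsg.M24 ⊓ MulAction.stabilizer (Equiv.Perm Cfsg.GolayPt)
        ({none, some 0} : Finset Cfsg.GolayPt) :=
      Subgroup.mem_inf.mpr ⟨hg, MulAction.mem_stabilizer_iff.mpr
        ((gc_pair_stab_iff g _ _ hab).mpr (Or.inr ⟨h₁, h₂⟩))⟩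
    refine ⟨⟨g, hgP⟩, fun x => ?_⟩
    rw [Subgroup.mem_subgroupOf, Subgroup.mem_subgroupOf, gc_mem_M22, gc_mem_M22]
    obtain ⟨hx1, hx2⟩ := Subgroup.mem_inf.mp x.2
    rcases (gc_pair_stab_iff _ _ _ hab).mp (MulAction.mem_stabilizer_iff.mp hx2) with
      ⟨ha, hb⟩ | ⟨ha, hb⟩
    · refine Or.inr ⟨⟨hx1, ha, hb⟩, ?_⟩
      rintro ⟨_, h3, _⟩
      have h4 : (x : Equiv.Perm Cfsg.GolayPt) (g none) = none := h3
      rw [h₁, hb] at h4
      exact hab h4.symm
    · refine Or.inl ⟨⟨mul_mem hx1 hg, ?_, ?_⟩, ?_⟩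
      · show (x : Equiv.Perm Cfsg.GolayPt) (g none) = none
        rw [h₁, hb]
      · show (x : Equiv.Perm Cfsg.GolayPt) (g (some 0)) = some 0
        rw [h₂, ha]
      · rintro ⟨_, h3, _⟩
        rw [ha] at h3
        exact hab h3.symm
  · intro x hx
    obtain ⟨hx1, hx2, hx3⟩ := (gc_mem_M22 x).mp hx
    refine (gc_mem_M22 _).mpr ⟨mul_mem (mul_mem hg hx1) (inv_mem hg), ?_, ?_⟩
    · show g (x (g⁻¹ none)) = none
      rw [hgi1, hx3, h₂]
    · show g (x (g⁻¹ (some 0))) = some 0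
      rw [hgi2, hx2, h₁]
  · rintro ⟨h, hh, hconj⟩
    obtain ⟨hh1, hh2, hh3⟩ := (gc_mem_M22 h).mp hh
    have hhi1 : h⁻¹ none = none := by
      have e : h⁻¹ (h none) = none := h.symm_apply_apply _
      rwa [hh2] at e
    have hhi2 : h⁻¹ (some 0) = some 0 := by
      have e : h⁻¹ (h (some 0)) = some 0 := h.symm_apply_apply _
      rwa [hh3] at e
    have hc : h⁻¹ * g ∈ Cfsg.M24 := mul_mem (inv_mem hh1) hg
    have hca : (h⁻¹ * g) none = some 0 := by
      show h⁻¹ (g none) = some 0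
      rw [h₁, hhi2]
    have hcb : (h⁻¹ * g) (some 0) = none := by
      show h⁻¹ (g (some 0)) = none
      rw [h₂, hhi1]
    have hcomm : ∀ x ∈ Cfsg.Spor.M22, (h⁻¹ * g) * x = x * (h⁻¹ * g) := by
      intro x hx
      have e := hconj x hx
      have e2 : (h⁻¹ * g) * x = h⁻¹ * (g * x * g⁻¹) * g := by group
      rw [e2, e]
      group
    have hfix : ∀ p, p ≠ none → p ≠ some 0 → (h⁻¹ * g) p = p := by
      intro p hpa hpb
      by_contra hne
      have hqa : (h⁻¹ * g) p ≠ none := by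
        intro e
        rw [← hcb] at e
        exact hpb ((h⁻¹ * g).injective e)
      have hqb : (h⁻¹ * g) p ≠ some 0 := by
        intro e
        rw [← hca] at e
        exact hpa ((h⁻¹ * g).injective e)
      have hnd : ([none, some 0, p, (h⁻¹ * g) p] : List Cfsg.GolayPt).Nodup := by
        simp only [List.nodup_cons, List.mem_cons, List.not_mem_nil, or_false, not_or,
          List.nodup_nil, and_true, not_false_eq_true]
        exact ⟨⟨hab, Ne.symm hpa, Ne.symm hqa⟩, ⟨Ne.symm hpb, Ne.symm hqb⟩, Ne.symm hne⟩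
      -- a fifth point
      have hlt : ([none, some 0, p, (h⁻¹ * g) p] : List Cfsg.GolayPt).toFinset.card <
          (Finset.univ : Finset Cfsg.GolayPt).card := by
        rw [Finset.card_univ, gc_card_pt]
        exact lt_of_le_of_lt (List.toFinset_card_le _) (by norm_num)
      obtain ⟨q, _, hq⟩ := Finset.exists_mem_notMem_of_card_lt_card hlt
      rw [List.mem_toFinset] at hq
      simp only [List.mem_cons, List.not_mem_nil, or_false, not_or] at hq
      have hnd' : ([none, some 0, p, q] : List Cfsg.GolayPt).Nodup := by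
        simp only [List.nodup_cons, List.mem_cons, List.not_mem_nil, or_false, not_or,
          List.nodup_nil, and_true, not_false_eq_true]
        exact ⟨⟨hab, Ne.symm hpa, Ne.symm hq.1⟩, ⟨Ne.symm hpb, Ne.symm hq.2.1⟩, Ne.symm hq.2.2.1⟩
      obtain ⟨x, hx, hxl⟩ := gc_list_trans _ _ hnd hnd' rfl (by norm_num)
      have hx0 : x none = none := congrArg (fun l : List Cfsg.GolayPt => l.getD 0 none) hxl
      have hx1 : x (some 0) = some 0 := congrArg (fun l : List Cfsg.GolayPt => l.getD 1 none) hxl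
      have hx2 : x p = p := congrArg (fun l : List Cfsg.GolayPt => l.getD 2 none) hxl
      have hx3 : x ((h⁻¹ * g) p) = q := congrArg (fun l : List Cfsg.GolayPt => l.getD 3 none) hxl
      have e := congrArg (fun f : Equiv.Perm Cfsg.GolayPt => f p)
        (hcomm x ((gc_mem_M22 x).mpr ⟨hx, hx0, hx1⟩))
      have e' : (h⁻¹ * g) (x p) = x ((h⁻¹ * g) p) := e
      rw [hx2, hx3] at e'
      exact hq.2.2.2 e'.symm
    have h1 := gc_no_transposition _ hc none (some 0) hab hfix
    rw [h1] at hca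
    exact hab hca

end Cfsg.Agent.Lib.Helper7
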