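import Mathlib
import Cfsg.Prelude
import Cfsg.Agent.Lib.Helper7.GolayC36
import Cfsg.Agent.Lib.Helper7.GolayC37

set_option autoImplicit false

namespace Cfsg.Agent.Lib.Helper7

open scoped Pointwise

/-- an octad meeting the standard octad in two points -/
def gcO2p : ℕ := 4845570

theorem gc_o2p_tab : gcCw 2 = gcO2p ∧ gcPop gcO2p = 8 ∧ gcPopF (gcO0 &&& gcO2p) = 2 := by
  decide +kernel

theorem gc_o2p_mem : gcSet gcO2p ∈ Cfsg.octads := by
  rw [gc_octad_iff, gc_set_card]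
  refine ⟨?_, gc_o2p_tab.2.1⟩
  rw [← gc_o2p_tab.1]
  exact gc_set_cw_mem _

theorem gc_o2p_inter : (gcSet gcO0 ∩ gcSet gcO2p).card = 2 := by
  rw [gc_set_inter, gc_set_cardF]
  exact gc_o2p_tab.2.2

theorem gc_o2p_free : ∀ v : Fin 24, gcO0.testBit v.val = false →
    (∀ a : Fin 24, gcO2p.testBit a.val = true →
      gcO2p.testBit (gcEval (gcW48 5 v.val) a).val = true) → v = 4 := by
  decide +kernel

/-- the restriction of a subgroup to an invariant set -/
noncomputable def gcResK (K : Subgroup Cfsg.M24) (W : Finset Cfsg.GolayPt)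
    (hK : ∀ g ∈ K, ((g : Cfsg.M24) : Equiv.Perm Cfsg.GolayPt) • W = W) :
    ↥K →* Equiv.Perm ↥W where
  toFun g := ((g : Cfsg.M24) : Equiv.Perm Cfsg.GolayPt).subtypePerm (gc_stab_mem (hK g g.2))
  map_one' := Equiv.ext (fun _ => Subtype.ext rfl)
  map_mul' _ _ := Equiv.ext (fun _ => Subtype.ext rfl)

/-- an element fixing two octads meeting in two points and the six points of the first
outside the second is trivial -/
theorem gc_two_octads_faithful (o o' : Finset Cfsg.GolayPt) (ho : o ∈ Cfsg.octads)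
    (ho' : o' ∈ Cfsg.octads) (h₂ : (o ∩ o').card = 2) (g : Equiv.Perm Cfsg.GolayPt)
    (hg : g ∈ Cfsg.M24) (hgo' : g • o' = o') (hfix : ∀ p ∈ o \ o', g p = p) : g = 1 := by
  have hW6 : (o \ o').card = 6 := by
    have h1 := Finset.card_sdiff_add_card_inter o o'
    rw [h₂, gc_octad_card ho] at h1
    omega
  have hWo : o \ o' ⊆ o := Finset.sdiff_subset
  have e : Fin 6 ≃ ↥(o \ o') := (Finset.equivFinOfCardEq hW6).symm
  obtain ⟨x, y, hx, hy, hne, hmem⟩ := gc_six_enum (o \ o') e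
  have hxW : ∀ i, x i ∈ o \ o' := fun i => (hmem _).mpr (Or.inl ⟨i, rfl⟩)
  have hyW : y ∈ o \ o' := (hmem _).mpr (Or.inr rfl)
  obtain ⟨k, hk, hkx, hky⟩ := gc_six_norm x y hne
  have hko : k • o = gcSet gcO0 := gc_octad_of_base hk ho x (fun i => hWo (hxW i)) hkx
  have h5 : k y = gcPt 5 := by
    rcases hky with h | h
    · exact h
    · have h1 : k y ∈ k • o := by
        rw [← Equiv.Perm.smul_def]
        exact Finset.smul_mem_smul_finset (hWo hyW)
      rw [hko, h] at h1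
      exact absurd h1 gc_four_out
  have hkW := gc_six_image x y k hkx 5 h5 (o \ o') hmem gcF6a gc_f6a_tab
  have hkW' : k⁻¹ • gcSet gcF6a = o \ o' := by rw [← hkW, inv_smul_smul]
  have hgW : g ∈ Cfsg.M24 ⊓ fixingSubgroup (Equiv.Perm Cfsg.GolayPt)
      ((o \ o' : Finset Cfsg.GolayPt) : Set Cfsg.GolayPt) :=
    Subgroup.mem_inf.mpr ⟨hg, (mem_fixingSubgroup_iff _).mpr
      (fun p hp => hfix p (Finset.mem_coe.mp hp))⟩
  have h1 := gc_fix_conj (inv_mem hk) (gcSet gcF6a) (o \ o') hkW' hgW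
  rw [inv_inv, gc_f6a_fix] at h1
  -- `g` fixes the octad pointwise
  have hgo : g ∈ Cfsg.M24 ⊓ fixingSubgroup (Equiv.Perm Cfsg.GolayPt)
      (o : Set Cfsg.GolayPt) := by
    have h2 := gc_fix_conj hk o (gcSet gcO0) hko h1
    have e2 : k⁻¹ * (k * g * k⁻¹) * k = g := by group
    rwa [e2] at h2
  -- move the second octad to the standard one
  have hko' := gc_M24_octad hk ho'
  have hint : (gcSet gcO0 ∩ k • o').card = (gcSet gcO0 ∩ gcSet gcO2p).card := by
    rw [← hko, gc_inter_smul, h₂, hko, gc_o2p_inter]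
  obtain ⟨k2, hk2, hk2o, hk2o'⟩ := gc_octad_pair_orbit (gcSet gcO0) (k • o') (gcSet gcO2p)
    gc_o0_mem hko' gc_o2p_mem hint
  have hK : k2 * k ∈ Cfsg.M24 := mul_mem hk2 hk
  have hKo : (k2 * k) • o = gcSet gcO0 := by rw [mul_smul, hko, hk2o]
  have hKo' : (k2 * k) • o' = gcSet gcO2p := by rw [mul_smul, hk2o']
  have hKoi : (k2 * k)⁻¹ • gcSet gcO0 = o := by rw [← hKo, inv_smul_smul]
  have h3 := gc_fix_conj (inv_mem hK) (gcSet gcO0) o hKoi hgo
  rw [inv_inv] at h3
  obtain ⟨v, hv, he⟩ := gc_o0_fix_word h3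
  have hstab : (k2 * k * g * (k2 * k)⁻¹) • gcSet gcO2p = gcSet gcO2p := by
    rw [← hKo', mul_smul, inv_smul_smul, mul_smul, hgo']
  have hv4 : v = 4 := by
    apply gc_o2p_free v hv
    intro a ha
    have h4 : gcPt a ∈ gcSet gcO2p := (gc_mem_set _ _).mpr ha
    have h5' : (k2 * k * g * (k2 * k)⁻¹) • gcPt a ∈ (k2 * k * g * (k2 * k)⁻¹) • gcSet gcO2p :=
      Finset.smul_mem_smul_finset h4
    rw [hstab, he, Equiv.Perm.smul_def, gc_word_rep] at h5'
    exact (gc_mem_set _ _).mp h5'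
  subst hv4
  have h6 : k2 * k * g * (k2 * k)⁻¹ = 1 := by
    rw [he]
    apply Equiv.ext
    intro q
    obtain ⟨a, rfl⟩ := gcEquiv.surjective q
    show gcWord (gcW48 5 (4 : Fin 24).val) (gcPt a) = gcPt a
    rw [gc_word_rep]
    exact congrArg gcPt (gc_w54 a)
  have h7 : g = (k2 * k)⁻¹ * (k2 * k * g * (k2 * k)⁻¹) * (k2 * k) := by group
  rw [h7, h6]
  group

theorem gc_s5614 (o o' : Finset Cfsg.GolayPt) (ho : o ∈ Cfsg.octads) (ho' : o' ∈ Cfsg.octads)
    (h₂ : (o ∩ o').card = 2) :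
    Nonempty (↥(MulAction.stabilizer Cfsg.M24 o ⊓ MulAction.stabilizer Cfsg.M24 o') ≃*
      Equiv.Perm (Fin 6)) := by
  have hW6 : (o \ o').card = 6 := by
    have h1 := Finset.card_sdiff_add_card_inter o o'
    rw [h₂, gc_octad_card ho] at h1
    omega
  have hK : ∀ g ∈ MulAction.stabilizer Cfsg.M24 o ⊓ MulAction.stabilizer Cfsg.M24 o',
      ((g : Cfsg.M24) : Equiv.Perm Cfsg.GolayPt) • (o \ o') = o \ o' := by
    intro g hg
    obtain ⟨hg1, hg2⟩ := Subgroup.mem_inf.mp hg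
    have e1 : ((g : Cfsg.M24) : Equiv.Perm Cfsg.GolayPt) • o = o :=
      MulAction.mem_stabilizer_iff.mp hg1
    have e2 : ((g : Cfsg.M24) : Equiv.Perm Cfsg.GolayPt) • o' = o' :=
      MulAction.mem_stabilizer_iff.mp hg2
    rw [Finset.smul_finset_sdiff, e1, e2]
  have hinj : Function.Injective (gcResK _ (o \ o') hK) := by
    rw [injective_iff_map_eq_one]
    intro g hg
    have e2 : (((g : Cfsg.M24) : Equiv.Perm Cfsg.GolayPt)) • o' = o' :=
      MulAction.mem_stabilizer_iff.mp (Subgroup.mem_inf.mp g.2).2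
    have h1 := gc_two_octads_faithful o o' ho ho' h₂ ((g : Cfsg.M24) : Equiv.Perm Cfsg.GolayPt)
      (g : Cfsg.M24).2 e2 (fun p hp => by
        have h2 := congrArg (fun e : Equiv.Perm ↥(o \ o') => (e ⟨p, hp⟩ : Cfsg.GolayPt)) hg
        exact h2)
    exact Subtype.ext (Subtype.ext h1)
  have hcard : Nat.card ↥(MulAction.stabilizer Cfsg.M24 o ⊓ MulAction.stabilizer Cfsg.M24 o') =
      720 := by
    have h1 := gc_joint_stab_card o o' ho ho'
    rw [h₂, gc_cnt_inter_tab.2.2] at h1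
    omega
  have hperm : Nat.card (Equiv.Perm ↥(o \ o')) = 720 := by
    rw [Nat.card_perm, Nat.card_eq_fintype_card, Fintype.card_coe, hW6]
    rfl
  have hbij := hinj.bijective_of_nat_card_le (by rw [hcard, hperm])
  exact ⟨(MulEquiv.ofBijective (gcResK _ (o \ o') hK) hbij).trans
    (Equiv.permCongrHom (Finset.equivFinOfCardEq hW6))⟩

end Cfsg.Agent.Lib.Helper7
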