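import Mathlib

set_option autoImplicit false

namespace Cfsg.Agent.Lib.Helper7

/-- a nontrivial normal subgroup of a faithful 2-transitive group is transitive -/
theorem sp_normal_trans {G X : Type*} [Group G] [MulAction G X]
    (hfaith : ∀ g : G, (∀ x : X, g • x = x) → g = 1)
    (h2 : ∀ a b c d : X, a ≠ b → c ≠ d → ∃ g : G, g • a = c ∧ g • b = d)
    (N : Subgroup G) (hNn : N.Normal) (hN : N ≠ ⊥) (a b : X) : ∃ g ∈ N, g • a = b := by
  by_cases hab : a = b
  · exact ⟨1, one_mem _, by rw [one_smul, hab]⟩
  · obtain ⟨⟨n0, hn0⟩, hne⟩ := Subgroup.ne_bot_iff_exists_ne_one.mp hN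
    have hne' : n0 ≠ 1 := fun h => hne (Subtype.ext h)
    have hx : ∃ x : X, n0 • x ≠ x := by
      by_contra hcon
      push Not at hcon
      exact hne' (hfaith n0 hcon)
    obtain ⟨x, hx⟩ := hx
    obtain ⟨g, hg1, hg2⟩ := h2 x (n0 • x) a b (Ne.symm hx) hab
    refine ⟨g * n0 * g⁻¹, hNn.conj_mem n0 hn0 g, ?_⟩
    have e : g⁻¹ • a = x := by rw [inv_smul_eq_iff, hg1]
    rw [mul_smul, mul_smul, e, hg2]

/-- the order of a transitive subgroup -/
theorem sp_trans_card {G X : Type*} [Group G] [Finite G] [MulAction G X] (N : Subgroup G)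
    (htr : ∀ a b : X, ∃ g ∈ N, g • a = b) (x : X) :
    Nat.card N = Nat.card (MulAction.stabilizer N x) * Nat.card X := by
  have h1 := Subgroup.card_mul_index (MulAction.stabilizer N x)
  rw [MulAction.index_stabilizer] at h1
  have h2 : MulAction.orbit N x = Set.univ := by
    ext y
    simp only [Set.mem_univ, iff_true]
    obtain ⟨g, hg, hgy⟩ := htr x y
    exact ⟨⟨g, hg⟩, hgy⟩
  rw [h2, Set.ncard_univ] at h1
  exact h1.symm

/-- the normaliser of a subgroup of prime order `p` of a faithful group of degree `p` -/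
theorem sp_normalizer_lt {G X : Type*} [Group G] [Finite G] [Finite X] [MulAction G X]
    (hfaith : ∀ g : G, (∀ x : X, g • x = x) → g = 1)
    (p : ℕ) [hp : Fact p.Prime] (hX : Nat.card X = p) (P : Subgroup G) (hP : Nat.card P = p) :
    Nat.card (Subgroup.normalizer (P : Set G)) < p * p := by
  have hp2 := hp.out.two_le
  haveI : Nontrivial ↥P := Finite.one_lt_card_iff_nontrivial.mp (by rw [hP]; exact hp.out.one_lt)
  obtain ⟨u, hu⟩ := exists_ne (1 : ↥P)
  have hzp := zpowers_eq_top_of_prime_card hP hu
  have hu' : (u : G) ≠ 1 := fun h => hu (Subtype.ext h)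
  have hx : ∃ x : X, (u : G) • x ≠ x := by
    by_contra hcon
    push Not at hcon
    exact hu' (hfaith _ hcon)
  obtain ⟨x0, hx0⟩ := hx
  -- `P` is transitive
  have horb : MulAction.orbit P x0 = Set.univ := by
    have h1 := Subgroup.card_mul_index (MulAction.stabilizer P x0)
    rw [MulAction.index_stabilizer, hP] at h1
    have h2 : (MulAction.orbit P x0).ncard ∣ p := Dvd.intro_left _ h1
    rcases (Nat.dvd_prime hp.out).mp h2 with h | h
    · obtain ⟨a, ha⟩ := Set.ncard_eq_one.mp h
      have e1 : x0 ∈ MulAction.orbit P x0 := MulAction.mem_orbit_self x0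
      have e2 : (u : G) • x0 ∈ MulAction.orbit P x0 := ⟨u, rfl⟩
      rw [ha, Set.mem_singleton_iff] at e1 e2
      exact absurd (e2.trans e1.symm) hx0
    · exact Set.eq_of_subset_of_ncard_le (Set.subset_univ _)
        (by rw [Set.ncard_univ, hX, h]) Set.finite_univ
  have htrans : ∀ y : X, ∃ v : ↥P, (v : G) • x0 = y := by
    intro y
    have hy : y ∈ MulAction.orbit P x0 := by rw [horb]; exact Set.mem_univ y
    obtain ⟨v, hv⟩ := hy
    exact ⟨v, hv⟩
  -- the stabiliser of `x0` in the normaliser
  have h1 := Subgroup.card_mul_index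
    (MulAction.stabilizer (Subgroup.normalizer (P : Set G)) x0)
  rw [MulAction.index_stabilizer] at h1
  have hle : (MulAction.orbit (Subgroup.normalizer (P : Set G)) x0).ncard ≤ p := by
    rw [← hX, ← Set.ncard_univ]
    exact Set.ncard_le_ncard (Set.subset_univ _) Set.finite_univ
  have hK : Nat.card (MulAction.stabilizer (Subgroup.normalizer (P : Set G)) x0) < p := by
    have hmem : ∀ s : MulAction.stabilizer (Subgroup.normalizer (P : Set G)) x0,
        ((s : Subgroup.normalizer (P : Set G)) : G) * (u : G) *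
          ((s : Subgroup.normalizer (P : Set G)) : G)⁻¹ ∈ P := fun s =>
      (Subgroup.mem_normalizer_iff.mp (s : Subgroup.normalizer (P : Set G)).2 (u : G)).mp u.2
    have hinj : Function.Injective
        (fun s : MulAction.stabilizer (Subgroup.normalizer (P : Set G)) x0 =>
          (⟨_, hmem s⟩ : ↥P)) := by
      intro s s' h
      have h' : ((s : Subgroup.normalizer (P : Set G)) : G) * (u : G) *
          ((s : Subgroup.normalizer (P : Set G)) : G)⁻¹ =
          ((s' : Subgroup.normalizer (P : Set G)) : G) * (u : G) *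
          ((s' : Subgroup.normalizer (P : Set G)) : G)⁻¹ := congrArg Subtype.val h
      set a : G := ((s : Subgroup.normalizer (P : Set G)) : G) with ha
      set b : G := ((s' : Subgroup.normalizer (P : Set G)) : G) with hb
      have hsa : a • x0 = x0 := s.2
      have hsb : b • x0 = x0 := s'.2
      have hcomm : Commute (b⁻¹ * a) (u : G) := by
        show b⁻¹ * a * (u : G) = (u : G) * (b⁻¹ * a)
        have e1 : a * (u : G) = b * (u : G) * b⁻¹ * a := by
          rw [← h']; group
        calc b⁻¹ * a * (u : G) = b⁻¹ * (a * (u : G)) := by group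
          _ = b⁻¹ * (b * (u : G) * b⁻¹ * a) := by rw [← e1]
          _ = (u : G) * (b⁻¹ * a) := by group
      have hone : b⁻¹ * a = 1 := by
        apply hfaith
        intro y
        obtain ⟨v, rfl⟩ := htrans y
        have hv : v ∈ Subgroup.zpowers u := by rw [hzp]; exact Subgroup.mem_top v
        obtain ⟨k, rfl⟩ := Subgroup.mem_zpowers_iff.mp hv
        have hc2 : Commute (b⁻¹ * a) ((u : G) ^ k) := hcomm.zpow_right k
        have e2 : ((u ^ k : ↥P) : G) = (u : G) ^ k := by simp
        have hsb' : b⁻¹ • x0 = x0 := by rw [inv_smul_eq_iff, hsb]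
        rw [e2, ← mul_smul, hc2.eq, mul_smul, mul_smul, hsa, hsb']
      have hab : a = b := by
        have := congrArg (fun t => b * t) hone
        simpa using this
      exact Subtype.ext (Subtype.ext hab)
    have hnot : (1 : ↥P) ∉ Set.range
        (fun s : MulAction.stabilizer (Subgroup.normalizer (P : Set G)) x0 =>
          (⟨_, hmem s⟩ : ↥P)) := by
      rintro ⟨s, hs⟩
      have h' : ((s : Subgroup.normalizer (P : Set G)) : G) * (u : G) *
          ((s : Subgroup.normalizer (P : Set G)) : G)⁻¹ = 1 := congrArg Subtype.val hs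
      apply hu'
      have := congrArg (fun t => ((s : Subgroup.normalizer (P : Set G)) : G)⁻¹ * t *
        ((s : Subgroup.normalizer (P : Set G)) : G)) h'
      simpa [mul_assoc] using this
    classical
    letI := Fintype.ofFinite (MulAction.stabilizer (Subgroup.normalizer (P : Set G)) x0)
    letI := Fintype.ofFinite ↥P
    have h3 := Fintype.card_lt_of_injective_of_notMem _ hinj hnot
    rw [← Nat.card_eq_fintype_card, ← Nat.card_eq_fintype_card, hP] at h3
    exact h3
  calc Nat.card (Subgroup.normalizer (P : Set G))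
      = Nat.card (MulAction.stabilizer (Subgroup.normalizer (P : Set G)) x0) *
        (MulAction.orbit (Subgroup.normalizer (P : Set G)) x0).ncard := h1.symm
    _ ≤ (p - 1) * p := Nat.mul_le_mul (by omega) hle
    _ < p * p := Nat.mul_lt_mul_of_pos_right (by omega) (by omega)

/-- a faithful 2-transitive group of prime degree `p` and order `p * r * n`, with `r < p` prime and
`n ≡ 1` modulo `p`, `n ≠ 1`, is simple -/
theorem sp_simple_prime {G X : Type*} [Group G] [Finite G] [Finite X] [MulAction G X]
    (hfaith : ∀ g : G, (∀ x : X, g • x = x) → g = 1)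
    (h2 : ∀ a b c d : X, a ≠ b → c ≠ d → ∃ g : G, g • a = c ∧ g • b = d)
    (p r n : ℕ) [hp : Fact p.Prime] (hX : Nat.card X = p)
    (hcard : Nat.card G = p * r * n) (hr : r.Prime) (hrp : r < p) (hn : n % p = 1)
    (hn1 : n ≠ 1) : IsSimpleGroup G := by
  have hp2 := hp.out.two_le
  have hpr : ¬ p ∣ r := fun h => absurd (Nat.le_of_dvd hr.pos h) (by omega)
  have hpn : ¬ p ∣ n := fun h => by
    have := Nat.mod_eq_zero_of_dvd h
    omega
  have hprn : ¬ p ∣ r * n := fun h => (hp.out.dvd_mul.mp h).elim hpr hpn
  have hpG : p ∣ Nat.card G := by rw [hcard, mul_assoc]; exact dvd_mul_right _ _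
  have hnpos : 0 < n := by
    rcases Nat.eq_zero_or_pos n with h | h
    · rw [h] at hn; simp at hn
    · exact h
  -- a general fact: a `p`-subgroup containing an element has order `p`
  have hpp : ∀ (H : Type _) [Group H] [Finite H], Nat.card H ∣ p * (r * n) → p ∣ Nat.card H →
      ∀ P : Sylow p H, Nat.card P = p := by
    intro H _ _ hdvd hpH P
    obtain ⟨k, hk⟩ := IsPGroup.iff_card.mp P.isPGroup'
    have h1 : p ∣ Nat.card P := P.dvd_card_of_dvd_card hpH
    have h3 : Nat.card P ∣ p * (r * n) := (Subgroup.card_subgroup_dvd_card _).trans hdvd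
    rw [hk] at h1 h3 ⊢
    rcases Nat.lt_or_ge k 2 with hk2 | hk2
    · interval_cases k
      · rw [pow_zero] at h1
        exact absurd (Nat.le_of_dvd Nat.one_pos h1) (by omega)
      · exact pow_one p
    · exfalso
      have h4 : p ^ 2 ∣ p * (r * n) := (pow_dvd_pow p hk2).trans h3
      rw [pow_two] at h4
      exact hprn ((Nat.mul_dvd_mul_iff_left (by omega)).mp h4)
  have hsyl : ∀ P : Sylow p G, Nat.card P = p :=
    hpp G (by rw [hcard, mul_assoc]) hpG
  have hfac : (Nat.card G).factorization p = 1 := by
    have h1 := Sylow.card_eq_multiplicity (default : Sylow p G)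
    rw [hsyl] at h1
    have h2 : p ^ 1 = p ^ (Nat.card G).factorization p := by rw [pow_one]; exact h1
    exact (Nat.pow_right_injective hp2 h2).symm
  -- normalisers of subgroups of order `p`
  have hnorm : ∀ P : Subgroup G, Nat.card P = p →
      Nat.card (Subgroup.normalizer (P : Set G)) = p * r := by
    intro P hP
    have h1 := sp_normalizer_lt hfaith p hX P hP
    have h2 : p ∣ Nat.card (Subgroup.normalizer (P : Set G)) := by
      rw [← hP]
      exact Subgroup.card_dvd_of_le Subgroup.le_normalizer
    obtain ⟨r0, hr0⟩ := h2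
    have h3 := Subgroup.card_mul_index (Subgroup.normalizer (P : Set G))
    have h4 : Nat.card (Sylow p G) = (Subgroup.normalizer (P : Set G)).index :=
      Sylow.card_eq_index_normalizer (Sylow.ofCard P (by rw [hP, hfac, pow_one]))
    rw [← h4, hcard, hr0] at h3
    have h5 := card_sylow_modEq_one p G
    have h6 : Nat.card (Sylow p G) % p = 1 := by
      have := h5
      unfold Nat.ModEq at this
      rw [this, Nat.mod_eq_of_lt (by omega)]
    have hr0p : r0 < p := by
      rw [hr0] at h1
      exact Nat.lt_of_mul_lt_mul_left h1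
    have h7 : r0 * Nat.card (Sylow p G) = r * n := by
      have : p * (r0 * Nat.card (Sylow p G)) = p * (r * n) := by
        rw [← mul_assoc, h3, mul_assoc]
      exact Nat.eq_of_mul_eq_mul_left (by omega) this
    have h8 : r0 = r := by
      have e1 : (r0 * Nat.card (Sylow p G)) % p = r0 := by
        rw [Nat.mul_mod, h6, mul_one, Nat.mod_mod, Nat.mod_eq_of_lt hr0p]
      have e2 : (r * n) % p = r := by
        rw [Nat.mul_mod, hn, mul_one, Nat.mod_mod, Nat.mod_eq_of_lt hrp]
      rw [h7, e2] at e1
      exact e1.symm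
    rw [hr0, h8]
  haveI : Nontrivial G := Finite.one_lt_card_iff_nontrivial.mp (by
    rw [hcard]
    have : 1 ≤ r * n := Nat.mul_pos hr.pos hnpos
    nlinarith)
  refine ⟨fun N hN => ?_⟩
  by_contra hcon
  push Not at hcon
  obtain ⟨hNbot, hNtop⟩ := hcon
  haveI := hN
  have hXne : Nonempty X := by
    rw [← Finite.card_pos_iff, hX]
    omega
  obtain ⟨x⟩ := hXne
  have htr := sp_normal_trans hfaith h2 N hN hNbot
  have hpN : p ∣ Nat.card N := by
    rw [sp_trans_card N htr x, hX]
    exact dvd_mul_left _ _
  have hNG : Nat.card N ∣ p * (r * n) := by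
    rw [← mul_assoc, ← hcard]
    exact Subgroup.card_subgroup_dvd_card N
  have Q : Sylow p N := default
  have hQ : Nat.card Q = p := hpp N hNG hpN Q
  have hQ' : Nat.card ((Q : Subgroup N).map N.subtype) = p := by
    rw [Subgroup.card_map_of_injective N.subtype_injective]
    exact hQ
  have hfr := Sylow.normalizer_sup_eq_top Q
  have hnQ := hnorm _ hQ'
  have hidx : N.index = N.relIndex (Subgroup.normalizer
      (((Q : Subgroup N).map N.subtype : Subgroup G) : Set G)) := by
    have h1 := Subgroup.relIndex_sup_right (H := Subgroup.normalizer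
      (((Q : Subgroup N).map N.subtype : Subgroup G) : Set G)) (K := N)
    rw [hfr, Subgroup.relIndex_top_right] at h1
    exact h1
  have hM : Nat.card ↥(N ⊓ Subgroup.normalizer
      (((Q : Subgroup N).map N.subtype : Subgroup G) : Set G)) * N.index = p * r := by
    have h1 := Subgroup.relIndex_mul_relIndex (H := (⊥ : Subgroup G))
      (K := N ⊓ Subgroup.normalizer (((Q : Subgroup N).map N.subtype : Subgroup G) : Set G))
      (L := Subgroup.normalizer (((Q : Subgroup N).map N.subtype : Subgroup G) : Set G))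
      bot_le inf_le_right
    rw [Subgroup.relIndex_bot_left, Subgroup.relIndex_bot_left, Subgroup.inf_relIndex_right,
      ← hidx, hnQ] at h1
    exact h1
  have hQle : (Q : Subgroup N).map N.subtype ≤ N ⊓ Subgroup.normalizer
      (((Q : Subgroup N).map N.subtype : Subgroup G) : Set G) := by
    refine le_inf ?_ Subgroup.le_normalizer
    rintro _ ⟨y, _, rfl⟩
    exact y.2
  have hpM : p ∣ Nat.card ↥(N ⊓ Subgroup.normalizer
      (((Q : Subgroup N).map N.subtype : Subgroup G) : Set G)) := by
    have h3 := Subgroup.card_dvd_of_le hQle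
    rwa [hQ'] at h3
  obtain ⟨r1, hr1⟩ := hpM
  have hr1r : r1 * N.index = r := by
    rw [hr1, mul_assoc] at hM
    exact Nat.eq_of_mul_eq_mul_left (by omega) hM
  have hr1d : r1 ∣ r := Dvd.intro _ hr1r
  rcases (Nat.dvd_prime hr).mp hr1d with h1 | h1
  · -- the self-normalising case
    rw [h1, mul_one] at hr1
    rw [h1, one_mul] at hr1r
    have hMQ : (Q : Subgroup N).map N.subtype = N ⊓ Subgroup.normalizer
        (((Q : Subgroup N).map N.subtype : Subgroup G) : Set G) :=
      Subgroup.eq_of_le_of_card_ge hQle (by rw [hr1, hQ'])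
    have hcN : Nat.card N = p * n := by
      have h3 := Subgroup.card_mul_index N
      rw [hr1r, hcard] at h3
      have : Nat.card N * r = p * n * r := by rw [h3]; ring
      exact Nat.eq_of_mul_eq_mul_right hr.pos this
    -- the Sylow subgroup of `N` is self-normalising, hence central in its normaliser
    have hQn : Subgroup.normalizer ((Q : Subgroup N) : Set N) ≤
        Subgroup.centralizer ((Q : Subgroup N) : Set N) := by
      intro y hy
      have hyQ : y ∈ (Q : Subgroup N) := by
        have h3 : (y : G) ∈ N ⊓ Subgroup.normalizer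
            (((Q : Subgroup N).map N.subtype : Subgroup G) : Set G) := by
          refine Subgroup.mem_inf.mpr ⟨y.2, ?_⟩
          rw [Subgroup.mem_normalizer_iff]
          intro h
          constructor
          · rintro ⟨z, hz, rfl⟩
            exact ⟨y * z * y⁻¹, (Subgroup.mem_normalizer_iff.mp hy z).mp hz, rfl⟩
          · rintro ⟨z, hz, hzh⟩
            have hhN : h ∈ N := by
              have e : h = (y : G)⁻¹ * ((y : G) * h * (y : G)⁻¹) * (y : G) := by group
              rw [e, ← hzh]
              exact N.mul_mem (N.mul_mem (N.inv_mem y.2) z.2) y.2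
            have e2 : z = y * ⟨h, hhN⟩ * y⁻¹ := Subtype.ext hzh
            have hzQ : (⟨h, hhN⟩ : ↥N) ∈ (Q : Subgroup N) := by
              rw [Subgroup.mem_normalizer_iff.mp hy ⟨h, hhN⟩, ← e2]
              exact hz
            exact ⟨⟨h, hhN⟩, hzQ, rfl⟩
        rw [← hMQ] at h3
        obtain ⟨z, hz, hzy⟩ := h3
        have : z = y := Subtype.ext hzy
        rwa [this] at hz
      haveI : IsCyclic ↥(Q : Subgroup N) := isCyclic_of_prime_card hQ
      rw [Subgroup.mem_centralizer_iff]
      intro z hz
      have h4 := (IsCyclic.commutative (α := ↥(Q : Subgroup N))).is_comm.comm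
        (⟨z, hz⟩ : ↥(Q : Subgroup N)) ⟨y, hyQ⟩
      exact congrArg Subtype.val h4
    have hcompl := MonoidHom.ker_transferSylow_isComplement' Q hQn
    have hKc : Nat.card (MonoidHom.transferSylow Q hQn).ker = n := by
      have h3 := hcompl.card_mul_card
      rw [hQ, hcN, mul_comm] at h3
      exact Nat.eq_of_mul_eq_mul_left (by omega) h3
    -- elements of the complement
    have hKiff : ∀ y : ↥N, y ∈ (MonoidHom.transferSylow Q hQn).ker ↔ y ^ n = 1 := by
      intro y
      constructor
      · intro hy
        have h3 : (⟨y, hy⟩ : (MonoidHom.transferSylow Q hQn).ker) ^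
            Nat.card (MonoidHom.transferSylow Q hQn).ker = 1 := pow_card_eq_one'
        rw [hKc] at h3
        exact congrArg Subtype.val h3
      · intro hy
        rw [MonoidHom.mem_ker]
        have h3 : (MonoidHom.transferSylow Q hQn y) ^ n = 1 := by
          rw [← map_pow, hy, map_one]
        have h4 : (MonoidHom.transferSylow Q hQn y) ^ p = 1 := by
          have := pow_card_eq_one' (G := ↥(Q : Subgroup N)) (x := MonoidHom.transferSylow Q hQn y)
          rwa [hQ] at this
        have h5 := pow_gcd_eq_one.mpr ⟨h3, h4⟩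
        have h6 : Nat.gcd n p = 1 := by
          rw [Nat.gcd_comm]
          exact (Nat.Prime.coprime_iff_not_dvd hp.out).mpr hpn
        rwa [h6, pow_one] at h5
    -- the complement is normal in `G`
    have hKn : (((MonoidHom.transferSylow Q hQn).ker).map N.subtype).Normal := by
      constructor
      rintro _ ⟨y, hy, rfl⟩ g
      have hmem : g * (y : G) * g⁻¹ ∈ N := hN.conj_mem _ y.2 g
      refine ⟨⟨_, hmem⟩, ?_, rfl⟩
      rw [SetLike.mem_coe, hKiff]
      apply Subtype.ext
      have h3 : (y : G) ^ n = 1 := by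
        have := congrArg Subtype.val ((hKiff y).mp hy)
        simpa using this
      show (g * (y : G) * g⁻¹) ^ n = 1
      rw [conj_pow, h3, mul_one, mul_inv_cancel]
    have hKc' : Nat.card (((MonoidHom.transferSylow Q hQn).ker).map N.subtype) = n := by
      rw [Subgroup.card_map_of_injective N.subtype_injective, hKc]
    by_cases hKbot : ((MonoidHom.transferSylow Q hQn).ker).map N.subtype = ⊥
    · rw [hKbot, Subgroup.card_bot] at hKc'
      exact hn1 hKc'.symm
    · have htr' := sp_normal_trans hfaith h2 _ hKn hKbot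
      have h3 := sp_trans_card _ htr' x
      rw [hKc', hX] at h3
      exact hpn (Dvd.intro_left _ h3.symm)
  · -- the normaliser lies in `N`
    rw [h1] at hr1r
    have h3 : N.index = 1 := by
      have : r * N.index = r * 1 := by rw [hr1r, mul_one]
      exact Nat.eq_of_mul_eq_mul_left hr.pos this
    exact hNtop (Subgroup.index_eq_one.mp h3)

/-- a faithful 2-transitive group with a simple point stabiliser, of degree not a prime power, is
simple -/
theorem sp_simple_stab {G X : Type*} [Group G] [Finite G] [Finite X] [MulAction G X]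
    (hfaith : ∀ g : G, (∀ x : X, g • x = x) → g = 1)
    (h2 : ∀ a b c d : X, a ≠ b → c ≠ d → ∃ g : G, g • a = c ∧ g • b = d)
    (x : X) (S : Subgroup G) (hS : ∀ g : G, g ∈ S ↔ g • x = x) (hsimple : IsSimpleGroup S)
    (q1 q2 : ℕ) (hq1 : q1.Prime) (hq2 : q2.Prime) (hq : q1 ≠ q2) (hd1 : q1 ∣ Nat.card X)
    (hd2 : q2 ∣ Nat.card X) : IsSimpleGroup G := by
  haveI : Nontrivial G := by
    haveI := hsimple.toNontrivial
    obtain ⟨a, b, hab⟩ := exists_pair_ne ↥S
    exact ⟨⟨a, b, fun h => hab (Subtype.ext h)⟩⟩
  refine ⟨fun N hN => ?_⟩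
  by_contra hcon
  push Not at hcon
  obtain ⟨hNbot, hNtop⟩ := hcon
  have htr := sp_normal_trans hfaith h2 N hN hNbot
  haveI := hN
  rcases (inferInstance : (N.subgroupOf S).Normal).eq_bot_or_eq_top with h | h
  · rw [Subgroup.subgroupOf_eq_bot] at h
    have hreg : ∀ g ∈ N, g • x = x → g = 1 := fun g hg hgx =>
      Subgroup.disjoint_def.mp h hg ((hS g).mpr hgx)
    have hcard : Nat.card N = Nat.card X := by
      rw [sp_trans_card N htr x]
      have h1 : Nat.card (MulAction.stabilizer N x) = 1 := by
        rw [Subgroup.card_eq_one, eq_bot_iff]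
        intro g hg
        have h3 : (g : G) • x = x := MulAction.mem_stabilizer_iff.mp hg
        exact Subgroup.mem_bot.mpr (Subtype.ext (hreg g g.2 h3))
      rw [h1, one_mul]
    haveI : Fact q1.Prime := ⟨hq1⟩
    haveI : Fact q2.Prime := ⟨hq2⟩
    obtain ⟨n1, hn1⟩ := exists_prime_orderOf_dvd_card' (G := N) q1 (by rw [hcard]; exact hd1)
    obtain ⟨n2, hn2⟩ := exists_prime_orderOf_dvd_card' (G := N) q2 (by rw [hcard]; exact hd2)
    have hn1x : (n1 : G) • x ≠ x := by
      intro h'
      have h3 : n1 = 1 := Subtype.ext (hreg n1 n1.2 h')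
      rw [h3, orderOf_one] at hn1
      exact hq1.one_lt.ne hn1
    have hn2x : (n2 : G) • x ≠ x := by
      intro h'
      have h3 : n2 = 1 := Subtype.ext (hreg n2 n2.2 h')
      rw [h3, orderOf_one] at hn2
      exact hq2.one_lt.ne hn2
    obtain ⟨g, hg1, hg2⟩ := h2 x ((n1 : G) • x) x ((n2 : G) • x) (Ne.symm hn1x) (Ne.symm hn2x)
    have hgi : g⁻¹ • x = x := by rw [inv_smul_eq_iff, hg1]
    have hmem : (n2 : G)⁻¹ * (g * (n1 : G) * g⁻¹) ∈ N :=
      N.mul_mem (N.inv_mem n2.2) (hN.conj_mem _ n1.2 g)
    have hfix : ((n2 : G)⁻¹ * (g * (n1 : G) * g⁻¹)) • x = x := by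
      rw [mul_smul, mul_smul, mul_smul, hgi, hg2, inv_smul_smul]
    have hone := hreg _ hmem hfix
    have hconj : g * (n1 : G) * g⁻¹ = (n2 : G) := by
      have := congrArg (fun t => (n2 : G) * t) hone
      simpa using this
    have ho1 : orderOf (g * (n1 : G) * g⁻¹) = q1 := by
      have := (MulAut.conj g).orderOf_eq (n1 : G)
      rw [MulAut.conj_apply] at this
      rw [this, Subgroup.orderOf_coe, hn1]
    rw [hconj, Subgroup.orderOf_coe, hn2] at ho1
    exact hq ho1.symm
  · rw [Subgroup.subgroupOf_eq_top] at h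
    apply hNtop
    rw [eq_top_iff]
    intro g _
    obtain ⟨n, hn, hnx⟩ := htr x (g • x)
    have h3 : n⁻¹ * g ∈ S := by
      rw [hS, mul_smul, inv_smul_eq_iff, hnx]
    have e : g = n * (n⁻¹ * g) := by group
    rw [e]
    exact N.mul_mem hn (h h3)

end Cfsg.Agent.Lib.Helper7
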