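import Mathlib
import Cfsg.Prelude
import Cfsg.Agent.Lib.Helper7.GolayC39
import Cfsg.Agent.Lib.Helper7.GolayC42
import Cfsg.Agent.Lib.Helper7.SimplePrime

set_option autoImplicit false

namespace Cfsg.Agent.Lib.Helper7

open scoped Pointwise

theorem gc_pt_stab_compl (p : Cfsg.GolayPt) :
    ∀ g ∈ MulAction.stabilizer Cfsg.M24 p,
      ((g : Cfsg.M24) : Equiv.Perm Cfsg.GolayPt) • ({p}ᶜ : Finset Cfsg.GolayPt) = {p}ᶜ := by
  intro g hg
  apply gc_smul_compl
  have h1 : ((g : Cfsg.M24) : Equiv.Perm Cfsg.GolayPt) p = p := MulAction.mem_stabilizer_iff.mp hg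
  rw [Finset.smul_finset_singleton, Equiv.Perm.smul_def, h1]

theorem gc_card_stab_pt (p : Cfsg.GolayPt) :
    Nat.card (MulAction.stabilizer Cfsg.M24 p) = 10200960 := by
  have h1 := Subgroup.card_mul_index (MulAction.stabilizer Cfsg.M24 p)
  have h2 : MulAction.orbit Cfsg.M24 p = Set.univ := by
    ext q
    simp only [Set.mem_univ, iff_true]
    obtain ⟨g, hg, hgl⟩ := gc_list_trans [p] [q] (by simp) (by simp) rfl (by norm_num)
    have h3 : g p = q := congrArg (fun l : List Cfsg.GolayPt => l.getD 0 p) hgl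
    exact ⟨⟨g, hg⟩, h3⟩
  have h3 : Nat.card Cfsg.GolayPt = 24 := by rw [Nat.card_eq_fintype_card, gc_card_pt]
  rw [MulAction.index_stabilizer, h2, Set.ncard_univ, h3, gc_card_M24] at h1
  omega

/-- a point stabiliser is simple -/
theorem gc_M23_simple (p : Cfsg.GolayPt) : IsSimpleGroup (MulAction.stabilizer Cfsg.M24 p) := by
  letI : MulAction ↥(MulAction.stabilizer Cfsg.M24 p) ↥({p}ᶜ : Finset Cfsg.GolayPt) :=
    MulAction.compHom _ (gcResK (MulAction.stabilizer Cfsg.M24 p) {p}ᶜ (gc_pt_stab_compl p))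
  haveI : Fact (Nat.Prime 23) := ⟨by norm_num⟩
  have hsm : ∀ (g : ↥(MulAction.stabilizer Cfsg.M24 p)) (y : ↥({p}ᶜ : Finset Cfsg.GolayPt)),
      ((g • y : ↥({p}ᶜ : Finset Cfsg.GolayPt)) : Cfsg.GolayPt) =
        ((g : Cfsg.M24) : Equiv.Perm Cfsg.GolayPt) (y : Cfsg.GolayPt) := fun _ _ => rfl
  refine sp_simple_prime (X := ↥({p}ᶜ : Finset Cfsg.GolayPt)) ?_ ?_ 23 11 40320 ?_ ?_
    (by norm_num) (by norm_num) (by norm_num) (by norm_num)
  · intro g hg
    apply Subtype.ext
    apply Subtype.ext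
    apply Equiv.ext
    intro q
    show ((g : Cfsg.M24) : Equiv.Perm Cfsg.GolayPt) q = q
    by_cases hq : q = p
    · rw [hq]
      exact MulAction.mem_stabilizer_iff.mp g.2
    · have h1 := hg ⟨q, Finset.mem_compl.mpr (by simpa using hq)⟩
      have h2 := congrArg Subtype.val h1
      rw [hsm] at h2
      exact h2
  · intro a b c e hab hce
    have ha : (a : Cfsg.GolayPt) ≠ p := by simpa using Finset.mem_compl.mp a.2
    have hb : (b : Cfsg.GolayPt) ≠ p := by simpa using Finset.mem_compl.mp b.2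
    have hc : (c : Cfsg.GolayPt) ≠ p := by simpa using Finset.mem_compl.mp c.2
    have he : (e : Cfsg.GolayPt) ≠ p := by simpa using Finset.mem_compl.mp e.2
    have hab' : (a : Cfsg.GolayPt) ≠ b := fun h => hab (Subtype.ext h)
    have hce' : (c : Cfsg.GolayPt) ≠ e := fun h => hce (Subtype.ext h)
    obtain ⟨k, hk, hkl⟩ := gc_list_trans [p, (a : Cfsg.GolayPt), (b : Cfsg.GolayPt)]
      [p, (c : Cfsg.GolayPt), (e : Cfsg.GolayPt)]
      (by simp [Ne.symm ha, Ne.symm hb, hab']) (by simp [Ne.symm hc, Ne.symm he, hce']) rfl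
      (by norm_num)
    have h0 : k p = p := congrArg (fun l : List Cfsg.GolayPt => l.getD 0 p) hkl
    have h1 : k a = c := congrArg (fun l : List Cfsg.GolayPt => l.getD 1 p) hkl
    have h2 : k b = e := congrArg (fun l : List Cfsg.GolayPt => l.getD 2 p) hkl
    refine ⟨⟨⟨k, hk⟩, MulAction.mem_stabilizer_iff.mpr h0⟩, Subtype.ext ?_, Subtype.ext ?_⟩
    · rw [hsm]; exact h1
    · rw [hsm]; exact h2
  · rw [Nat.card_eq_fintype_card, Fintype.card_coe, Finset.card_compl, gc_card_pt,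
      Finset.card_singleton]
  · rw [gc_card_stab_pt]

/-- the group of the code is simple -/
theorem gc_M24_simple : IsSimpleGroup Cfsg.M24 := by
  refine sp_simple_stab (X := Cfsg.GolayPt) ?_ ?_ none (MulAction.stabilizer Cfsg.M24 none)
    (fun g => MulAction.mem_stabilizer_iff) (gc_M23_simple none) 2 3 (by norm_num) (by norm_num)
    (by norm_num) ?_ ?_
  · intro g hg
    exact Subtype.ext (Equiv.ext hg)
  · intro a b c e hab hce
    obtain ⟨k, hk, hkl⟩ := gc_list_trans [a, b] [c, e] (by simp [hab]) (by simp [hce]) rfl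
      (by norm_num)
    have h1 : k a = c := congrArg (fun l : List Cfsg.GolayPt => l.getD 0 a) hkl
    have h2 : k b = e := congrArg (fun l : List Cfsg.GolayPt => l.getD 1 a) hkl
    exact ⟨⟨k, hk⟩, h1, h2⟩
  · rw [Nat.card_eq_fintype_card, gc_card_pt]
    norm_num
  · rw [Nat.card_eq_fintype_card, gc_card_pt]
    norm_num

theorem gc_M11_stab (d : Finset Cfsg.GolayPt) (p : Cfsg.GolayPt) :
    ∀ g ∈ MulAction.stabilizer Cfsg.M24 d ⊓ MulAction.stabilizer Cfsg.M24 p,
      ((g : Cfsg.M24) : Equiv.Perm Cfsg.GolayPt) • (d.erase p) = d.erase p := by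
  intro g hg
  obtain ⟨hg1, hg2⟩ := Subgroup.mem_inf.mp hg
  have e1 : ((g : Cfsg.M24) : Equiv.Perm Cfsg.GolayPt) • d = d :=
    MulAction.mem_stabilizer_iff.mp hg1
  have e2 : ((g : Cfsg.M24) : Equiv.Perm Cfsg.GolayPt) p = p :=
    MulAction.mem_stabilizer_iff.mp hg2
  rw [← Finset.sdiff_singleton_eq_erase, Finset.smul_finset_sdiff, e1,
    Finset.smul_finset_singleton, Equiv.Perm.smul_def, e2]

/-- the stabiliser of a dodecad and a point on it is simple -/
theorem gc_M11_simple (d : Finset Cfsg.GolayPt) (hd : d ∈ Cfsg.dodecads) (p : Cfsg.GolayPt)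
    (hp : p ∈ d) :
    IsSimpleGroup ↥(MulAction.stabilizer Cfsg.M24 d ⊓ MulAction.stabilizer Cfsg.M24 p) := by
  have hd12 := ((gc_dodecad_iff d).mp hd).2
  letI : MulAction ↥(MulAction.stabilizer Cfsg.M24 d ⊓ MulAction.stabilizer Cfsg.M24 p)
      ↥(d.erase p) :=
    MulAction.compHom _ (gcResK (MulAction.stabilizer Cfsg.M24 d ⊓ MulAction.stabilizer Cfsg.M24 p)
      (d.erase p) (gc_M11_stab d p))
  haveI : Fact (Nat.Prime 11) := ⟨by norm_num⟩
  have hsm : ∀ (g : ↥(MulAction.stabilizer Cfsg.M24 d ⊓ MulAction.stabilizer Cfsg.M24 p))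
      (y : ↥(d.erase p)), ((g • y : ↥(d.erase p)) : Cfsg.GolayPt) =
        ((g : Cfsg.M24) : Equiv.Perm Cfsg.GolayPt) (y : Cfsg.GolayPt) := fun _ _ => rfl
  refine sp_simple_prime (X := ↥(d.erase p)) ?_ ?_ 11 5 144 ?_ ?_
    (by norm_num) (by norm_num) (by norm_num) (by norm_num)
  · intro g hg
    apply Subtype.ext
    apply gc_dodecad_faithful d hd d (Finset.Subset.refl d) (by omega) (g : Cfsg.M24)
      (Subgroup.mem_inf.mp g.2).1
    intro q hq
    by_cases hqp : q = p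
    · rw [hqp]
      exact MulAction.mem_stabilizer_iff.mp (Subgroup.mem_inf.mp g.2).2
    · have h1 := hg ⟨q, Finset.mem_erase.mpr ⟨hqp, hq⟩⟩
      have h2 := congrArg Subtype.val h1
      rw [hsm] at h2
      exact h2
  · intro a b c e hab hce
    obtain ⟨ha, had⟩ := Finset.mem_erase.mp a.2
    obtain ⟨hb, hbd⟩ := Finset.mem_erase.mp b.2
    obtain ⟨hc, hcd⟩ := Finset.mem_erase.mp c.2
    obtain ⟨he, hed⟩ := Finset.mem_erase.mp e.2
    have hab' : (a : Cfsg.GolayPt) ≠ b := fun h => hab (Subtype.ext h)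
    have hce' : (c : Cfsg.GolayPt) ≠ e := fun h => hce (Subtype.ext h)
    obtain ⟨x, hx0, hx1, hx2, hx⟩ := gc_emb_three d hd12 p a b hp had hbd (Ne.symm ha)
      (Ne.symm hb) hab'
    obtain ⟨y, hy0, hy1, hy2, hy⟩ := gc_emb_three d hd12 p c e hp hcd hed (Ne.symm hc)
      (Ne.symm he) hce'
    obtain ⟨k, hk, hkd, hkx⟩ := gc_dodecad_five d hd x y hx hy
    have h0 : k p = p := by
      have := hkx 0
      rwa [hx0, hy0] at this
    have h1 : k a = c := by
      have := hkx 1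
      rwa [hx1, hy1] at this
    have h2 : k b = e := by
      have := hkx 2
      rwa [hx2, hy2] at this
    refine ⟨⟨⟨k, hk⟩, Subgroup.mem_inf.mpr ⟨MulAction.mem_stabilizer_iff.mpr hkd,
      MulAction.mem_stabilizer_iff.mpr h0⟩⟩, Subtype.ext ?_, Subtype.ext ?_⟩
    · rw [hsm]; exact h1
    · rw [hsm]; exact h2
  · rw [Nat.card_eq_fintype_card, Fintype.card_coe, Finset.card_erase_of_mem hp, hd12]
  · rw [gc_card_stab_dodecad_pt d hd p hp]

/-- a dodecad stabiliser is simple -/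
theorem gc_M12_simple (d : Finset Cfsg.GolayPt) (hd : d ∈ Cfsg.dodecads) :
    IsSimpleGroup (MulAction.stabilizer Cfsg.M24 d) := by
  have hd12 := ((gc_dodecad_iff d).mp hd).2
  letI : MulAction ↥(MulAction.stabilizer Cfsg.M24 d) ↥d := MulAction.compHom _ (gcRes d)
  have hsm : ∀ (g : ↥(MulAction.stabilizer Cfsg.M24 d)) (y : ↥d),
      ((g • y : ↥d) : Cfsg.GolayPt) =
        ((g : Cfsg.M24) : Equiv.Perm Cfsg.GolayPt) (y : Cfsg.GolayPt) := fun _ _ => rfl
  have hne : d.Nonempty := Finset.card_pos.mp (by omega)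
  obtain ⟨p, hp⟩ := hne
  have hM11 := gc_M11_simple d hd p hp
  have hsimple : IsSimpleGroup ↥((MulAction.stabilizer Cfsg.M24 d ⊓
      MulAction.stabilizer Cfsg.M24 p).subgroupOf (MulAction.stabilizer Cfsg.M24 d)) := by
    haveI := hM11
    haveI : Nontrivial ↥((MulAction.stabilizer Cfsg.M24 d ⊓
        MulAction.stabilizer Cfsg.M24 p).subgroupOf (MulAction.stabilizer Cfsg.M24 d)) :=
      (Subgroup.subgroupOfEquivOfLe (inf_le_left : MulAction.stabilizer Cfsg.M24 d ⊓
        MulAction.stabilizer Cfsg.M24 p ≤ MulAction.stabilizer Cfsg.M24 d)).toEquiv.nontrivial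
    exact IsSimpleGroup.isSimpleGroup_of_surjective
      (Subgroup.subgroupOfEquivOfLe (inf_le_left : MulAction.stabilizer Cfsg.M24 d ⊓
        MulAction.stabilizer Cfsg.M24 p ≤ MulAction.stabilizer Cfsg.M24 d)).symm.toMonoidHom
      (Subgroup.subgroupOfEquivOfLe (inf_le_left : MulAction.stabilizer Cfsg.M24 d ⊓
        MulAction.stabilizer Cfsg.M24 p ≤ MulAction.stabilizer Cfsg.M24 d)).symm.surjective
  refine sp_simple_stab (X := ↥d) ?_ ?_ ⟨p, hp⟩ _ ?_ hsimple 2 3 (by norm_num) (by norm_num)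
    (by norm_num) ?_ ?_
  · intro g hg
    apply Subtype.ext
    apply gc_dodecad_faithful d hd d (Finset.Subset.refl d) (by omega) (g : Cfsg.M24) g.2
    intro q hq
    have h1 := hg ⟨q, hq⟩
    have h2 := congrArg Subtype.val h1
    rw [hsm] at h2
    exact h2
  · intro a b c e hab hce
    have hab' : (a : Cfsg.GolayPt) ≠ b := fun h => hab (Subtype.ext h)
    have hce' : (c : Cfsg.GolayPt) ≠ e := fun h => hce (Subtype.ext h)
    obtain ⟨x, hx0, hx1, hx⟩ := gc_exists_emb_pt2 d (by omega) a b a.2 b.2 hab'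
    obtain ⟨y, hy0, hy1, hy⟩ := gc_exists_emb_pt2 d (by omega) c e c.2 e.2 hce'
    obtain ⟨k, hk, hkd, hkx⟩ := gc_dodecad_five d hd x y hx hy
    have h1 : k a = c := by
      have := hkx 0
      rwa [hx0, hy0] at this
    have h2 : k b = e := by
      have := hkx 1
      rwa [hx1, hy1] at this
    refine ⟨⟨⟨k, hk⟩, MulAction.mem_stabilizer_iff.mpr hkd⟩, Subtype.ext ?_, Subtype.ext ?_⟩
    · rw [hsm]; exact h1
    · rw [hsm]; exact h2
  · intro g
    rw [Subgroup.mem_subgroupOf, Subgroup.mem_inf, MulAction.mem_stabilizer_iff,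
      MulAction.mem_stabilizer_iff]
    constructor
    · rintro ⟨_, h2⟩
      apply Subtype.ext
      rw [hsm]
      exact h2
    · intro h
      have h2 := congrArg Subtype.val h
      rw [hsm] at h2
      exact ⟨MulAction.mem_stabilizer_iff.mp g.2, h2⟩
  · rw [Nat.card_eq_fintype_card, Fintype.card_coe, hd12]
    norm_num
  · rw [Nat.card_eq_fintype_card, Fintype.card_coe, hd12]
    norm_num

end Cfsg.Agent.Lib.Helper7
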