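import Mathlib
import Cfsg.Prelude
import Cfsg.Agent.Lib.Helper7.GolayC34

set_option autoImplicit false

namespace Cfsg.Agent.Lib.Helper7

open scoped Pointwise

/-- the pairs disjoint from `s` and in a common octad with `p, q, s` -/
theorem gc_pq_cnt_in (p q : Cfsg.GolayPt) (hpq : p ≠ q) (s : Finset Cfsg.GolayPt)
    (hs : s.card = 2 ∧ p ∉ s ∧ q ∉ s) :
    {t : Finset Cfsg.GolayPt | (t.card = 2 ∧ p ∉ t ∧ q ∉ t) ∧ Disjoint s t ∧
      (∃ o ∈ Cfsg.octads, p ∈ o ∧ q ∈ o ∧ s ∪ t ⊆ o)}.ncard = 30 := by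
  classical
  obtain ⟨F, hF⟩ : ∃ F : Finset Cfsg.GolayPt, F = insert p (insert q s) := ⟨_, rfl⟩
  have hFc : F.card = 4 := by
    rw [hF, Finset.card_insert_of_notMem, Finset.card_insert_of_notMem hs.2.2, hs.1]
    rw [Finset.mem_insert, not_or]
    exact ⟨hpq, hs.2.1⟩
  have hpF : p ∈ F := hF ▸ Finset.mem_insert_self _ _
  have hqF : q ∈ F := hF ▸ Finset.mem_insert_of_mem (Finset.mem_insert_self _ _)
  have hsF : s ⊆ F := fun x hx => hF ▸ Finset.mem_insert_of_mem (Finset.mem_insert_of_mem hx)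
  have hFm : ∀ x, x ∈ F → x = p ∨ x = q ∨ x ∈ s := by
    intro x hx
    rw [hF, Finset.mem_insert, Finset.mem_insert] at hx
    exact hx
  have hset : {t : Finset Cfsg.GolayPt | (t.card = 2 ∧ p ∉ t ∧ q ∉ t) ∧ Disjoint s t ∧
      (∃ o ∈ Cfsg.octads, p ∈ o ∧ q ∈ o ∧ s ∪ t ⊆ o)} =
      ↑((gcOct.filter (fun c => F ⊆ c)).biUnion (fun o => (o \ F).powersetCard 2)) := by
    ext t
    simp only [Set.mem_setOf_eq, Finset.coe_biUnion, Finset.mem_coe, Finset.mem_filter,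
      Set.mem_iUnion, Finset.mem_powersetCard, gc_mem_oct, exists_prop]
    constructor
    · rintro ⟨⟨ht, hpt, hqt⟩, hd, o, ho, hpo, hqo, hsub⟩
      refine ⟨o, ⟨ho, ?_⟩, ?_, ht⟩
      · intro x hx
        rcases hFm x hx with rfl | rfl | hx
        · exact hpo
        · exact hqo
        · exact Finset.union_subset_left hsub hx
      · intro x hx
        refine Finset.mem_sdiff.mpr ⟨Finset.union_subset_right hsub hx, fun hxF => ?_⟩
        rcases hFm x hxF with rfl | rfl | hxF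
        · exact hpt hx
        · exact hqt hx
        · exact Finset.disjoint_left.mp hd hxF hx
    · rintro ⟨o, ⟨ho, hFo⟩, hto, ht⟩
      refine ⟨⟨ht, fun h => (Finset.mem_sdiff.mp (hto h)).2 hpF,
        fun h => (Finset.mem_sdiff.mp (hto h)).2 hqF⟩, ?_, o, ho, hFo hpF, hFo hqF, ?_⟩
      · exact Finset.disjoint_left.mpr fun x hxs hxt =>
          (Finset.mem_sdiff.mp (hto hxt)).2 (hsF hxs)
      · exact Finset.union_subset (fun x hx => hFo (hsF hx))
          (fun x hx => (Finset.mem_sdiff.mp (hto hx)).1)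
  rw [hset, Set.ncard_coe_finset, Finset.card_biUnion]
  · have h5 : (gcOct.filter (fun c => F ⊆ c)).card = 5 := by
      have h := gc_lambda F (by omega)
      rw [hFc] at h
      have e1 : Nat.choose (8 - 4) (5 - 4) = 4 := by decide
      have e2 : Nat.choose (24 - 4) (5 - 4) = 20 := by decide
      rw [e1, e2] at h
      omega
    have hc : ∀ o ∈ gcOct.filter (fun c => F ⊆ c), ((o \ F).powersetCard 2).card = 6 := by
      intro o ho
      obtain ⟨ho1, ho2⟩ := Finset.mem_filter.mp ho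
      have h8 := gc_octad_card ((gc_mem_oct o).mp ho1)
      have h4 : (o \ F).card = 4 := by
        rw [Finset.card_sdiff_of_subset ho2, h8, hFc]
      rw [Finset.card_powersetCard, h4]
      decide
    rw [Finset.sum_congr rfl hc, Finset.sum_const, h5]
    rfl
  · intro o ho o' ho' hne
    have ho1 := Finset.mem_filter.mp (Finset.mem_coe.mp ho)
    have ho1' := Finset.mem_filter.mp (Finset.mem_coe.mp ho')
    refine Finset.disjoint_left.mpr fun U hU hU' => hne ?_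
    obtain ⟨hU1, hU2⟩ := Finset.mem_powersetCard.mp hU
    obtain ⟨hU1', _⟩ := Finset.mem_powersetCard.mp hU'
    have hd : Disjoint F U :=
      Finset.disjoint_left.mpr fun p hpT hpU => (Finset.mem_sdiff.mp (hU1 hpU)).2 hpT
    have hsub : F ∪ U ⊆ o' ∩ o := by
      intro p hp
      rcases Finset.mem_union.mp hp with hp | hp
      · exact Finset.mem_inter.mpr ⟨ho1'.2 hp, ho1.2 hp⟩
      · exact Finset.mem_inter.mpr ⟨(Finset.mem_sdiff.mp (hU1' hp)).1,
          (Finset.mem_sdiff.mp (hU1 hp)).1⟩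
    have hcard : (F ∪ U).card = 6 := by rw [Finset.card_union_of_disjoint hd, hFc, hU2]
    have := Finset.card_le_card hsub
    exact gc_octad_eq5 ((gc_mem_oct o').mp ho1'.1) ((gc_mem_oct o).mp ho1.1) (by omega)

/-- the pairs disjoint from `s` and in no common octad with `p, q, s` -/
theorem gc_pq_cnt_out (p q : Cfsg.GolayPt) (hpq : p ≠ q) (s : Finset Cfsg.GolayPt)
    (hs : s.card = 2 ∧ p ∉ s ∧ q ∉ s) :
    {t : Finset Cfsg.GolayPt | (t.card = 2 ∧ p ∉ t ∧ q ∉ t) ∧ Disjoint s t ∧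
      ¬ (∃ o ∈ Cfsg.octads, p ∈ o ∧ q ∈ o ∧ s ∪ t ⊆ o)}.ncard = 160 := by
  classical
  obtain ⟨F, hF⟩ : ∃ F : Finset Cfsg.GolayPt, F = insert p (insert q s) := ⟨_, rfl⟩
  have hFc : F.card = 4 := by
    rw [hF, Finset.card_insert_of_notMem, Finset.card_insert_of_notMem hs.2.2, hs.1]
    rw [Finset.mem_insert, not_or]
    exact ⟨hpq, hs.2.1⟩
  have hpF : p ∈ F := hF ▸ Finset.mem_insert_self _ _
  have hqF : q ∈ F := hF ▸ Finset.mem_insert_of_mem (Finset.mem_insert_self _ _)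
  have hsF : s ⊆ F := fun x hx => hF ▸ Finset.mem_insert_of_mem (Finset.mem_insert_of_mem hx)
  have hFm : ∀ x, x ∈ F → x = p ∨ x = q ∨ x ∈ s := by
    intro x hx
    rw [hF, Finset.mem_insert, Finset.mem_insert] at hx
    exact hx
  have hall : {t : Finset Cfsg.GolayPt | (t.card = 2 ∧ p ∉ t ∧ q ∉ t) ∧ Disjoint s t}.ncard
      = 190 := by
    have hset : {t : Finset Cfsg.GolayPt | (t.card = 2 ∧ p ∉ t ∧ q ∉ t) ∧ Disjoint s t} =
        ↑((Finset.univ \ F).powersetCard 2) := by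
      ext t
      simp only [Set.mem_setOf_eq, Finset.mem_coe, Finset.mem_powersetCard]
      constructor
      · rintro ⟨⟨ht, hpt, hqt⟩, hd⟩
        refine ⟨fun x hx => Finset.mem_sdiff.mpr ⟨Finset.mem_univ _, fun hxF => ?_⟩, ht⟩
        rcases hFm x hxF with rfl | rfl | hxF
        · exact hpt hx
        · exact hqt hx
        · exact Finset.disjoint_left.mp hd hxF hx
      · rintro ⟨hsub, ht⟩
        exact ⟨⟨ht, fun h => (Finset.mem_sdiff.mp (hsub h)).2 hpF,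
          fun h => (Finset.mem_sdiff.mp (hsub h)).2 hqF⟩,
          Finset.disjoint_left.mpr fun x hxs hxt => (Finset.mem_sdiff.mp (hsub hxt)).2 (hsF hxs)⟩
    rw [hset, Set.ncard_coe_finset, Finset.card_powersetCard,
      Finset.card_sdiff_of_subset (Finset.subset_univ F), Finset.card_univ, gc_card_pt, hFc]
    decide
  have hsub : {t : Finset Cfsg.GolayPt | (t.card = 2 ∧ p ∉ t ∧ q ∉ t) ∧ Disjoint s t ∧
      (∃ o ∈ Cfsg.octads, p ∈ o ∧ q ∈ o ∧ s ∪ t ⊆ o)} ⊆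
      {t : Finset Cfsg.GolayPt | (t.card = 2 ∧ p ∉ t ∧ q ∉ t) ∧ Disjoint s t} :=
    fun U hU => ⟨hU.1, hU.2.1⟩
  have hdiff : {t : Finset Cfsg.GolayPt | (t.card = 2 ∧ p ∉ t ∧ q ∉ t) ∧ Disjoint s t ∧
      ¬ (∃ o ∈ Cfsg.octads, p ∈ o ∧ q ∈ o ∧ s ∪ t ⊆ o)} =
      {t : Finset Cfsg.GolayPt | (t.card = 2 ∧ p ∉ t ∧ q ∉ t) ∧ Disjoint s t} \
      {t : Finset Cfsg.GolayPt | (t.card = 2 ∧ p ∉ t ∧ q ∉ t) ∧ Disjoint s t ∧
        (∃ o ∈ Cfsg.octads, p ∈ o ∧ q ∈ o ∧ s ∪ t ⊆ o)} := by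
    ext U
    simp only [Set.mem_setOf_eq, Set.mem_diff]
    constructor
    · rintro ⟨h1, h2, h3⟩
      exact ⟨⟨h1, h2⟩, fun h => h3 h.2.2⟩
    · rintro ⟨⟨h1, h2⟩, h3⟩
      exact ⟨h1, h2, fun h => h3 ⟨h1, h2, h⟩⟩
  rw [hdiff, Set.ncard_diff hsub (Set.toFinite _), hall, gc_pq_cnt_in p q hpq s hs]

/-- two 6-tuples of distinct points of the same kind are conjugate -/
theorem gc_six_pts_trans (p q a c b d p' q' a' c' b' d' : Cfsg.GolayPt)
    (h : ([p, q, a, c, b] ++ [d]).Nodup) (h' : ([p', q', a', c', b'] ++ [d']).Nodup)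
    (hiff : (∃ o ∈ Cfsg.octads, p ∈ o ∧ q ∈ o ∧ a ∈ o ∧ c ∈ o ∧ b ∈ o ∧ d ∈ o) ↔
      (∃ o ∈ Cfsg.octads, p' ∈ o ∧ q' ∈ o ∧ a' ∈ o ∧ c' ∈ o ∧ b' ∈ o ∧ d' ∈ o)) :
    ∃ g ∈ Cfsg.M24, g p = p' ∧ g q = q' ∧ g a = a' ∧ g c = c' ∧ g b = b' ∧ g d = d' := by
  obtain ⟨hn1, _, hn2⟩ := List.nodup_append.mp h
  obtain ⟨hn1', _, hn2'⟩ := List.nodup_append.mp h'
  obtain ⟨x, hx0, hx1, hx2, hx3, hx4⟩ := gc_emb5 p q a c b hn1
  obtain ⟨x', hx0', hx1', hx2', hx3', hx4'⟩ := gc_emb5 p' q' a' c' b' hn1'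
  have hy : ∀ i, d ≠ x i := by
    refine gc_forall5 ?_ ?_ ?_ ?_ ?_
    · rw [hx0]; exact (hn2 p (by simp) d (by simp)).symm
    · rw [hx1]; exact (hn2 q (by simp) d (by simp)).symm
    · rw [hx2]; exact (hn2 a (by simp) d (by simp)).symm
    · rw [hx3]; exact (hn2 c (by simp) d (by simp)).symm
    · rw [hx4]; exact (hn2 b (by simp) d (by simp)).symm
  have hy' : ∀ i, d' ≠ x' i := by
    refine gc_forall5 ?_ ?_ ?_ ?_ ?_
    · rw [hx0']; exact (hn2' p' (by simp) d' (by simp)).symm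
    · rw [hx1']; exact (hn2' q' (by simp) d' (by simp)).symm
    · rw [hx2']; exact (hn2' a' (by simp) d' (by simp)).symm
    · rw [hx3']; exact (hn2' c' (by simp) d' (by simp)).symm
    · rw [hx4']; exact (hn2' b' (by simp) d' (by simp)).symm
  have e1 : ∀ o : Finset Cfsg.GolayPt, ((∀ i, x i ∈ o) ∧ d ∈ o) ↔
      (p ∈ o ∧ q ∈ o ∧ a ∈ o ∧ c ∈ o ∧ b ∈ o ∧ d ∈ o) := by
    intro o
    constructor
    · rintro ⟨hx, hd⟩
      exact ⟨hx0 ▸ hx 0, hx1 ▸ hx 1, hx2 ▸ hx 2, hx3 ▸ hx 3, hx4 ▸ hx 4, hd⟩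
    · rintro ⟨h0, h1, h2, h3, h4, hd⟩
      refine ⟨gc_forall5 ?_ ?_ ?_ ?_ ?_, hd⟩
      · rw [hx0]; exact h0
      · rw [hx1]; exact h1
      · rw [hx2]; exact h2
      · rw [hx3]; exact h3
      · rw [hx4]; exact h4
  have e1' : ∀ o : Finset Cfsg.GolayPt, ((∀ i, x' i ∈ o) ∧ d' ∈ o) ↔
      (p' ∈ o ∧ q' ∈ o ∧ a' ∈ o ∧ c' ∈ o ∧ b' ∈ o ∧ d' ∈ o) := by
    intro o
    constructor
    · rintro ⟨hx, hd⟩
      exact ⟨hx0' ▸ hx 0, hx1' ▸ hx 1, hx2' ▸ hx 2, hx3' ▸ hx 3, hx4' ▸ hx 4, hd⟩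
    · rintro ⟨h0, h1, h2, h3, h4, hd⟩
      refine ⟨gc_forall5 ?_ ?_ ?_ ?_ ?_, hd⟩
      · rw [hx0']; exact h0
      · rw [hx1']; exact h1
      · rw [hx2']; exact h2
      · rw [hx3']; exact h3
      · rw [hx4']; exact h4
  have hiff' : (∃ o ∈ Cfsg.octads, (∀ i, x i ∈ o) ∧ d ∈ o) ↔
      (∃ o ∈ Cfsg.octads, (∀ i, x' i ∈ o) ∧ d' ∈ o) := by
    constructor
    · rintro ⟨o, ho, hh⟩
      obtain ⟨o', ho', hh'⟩ := hiff.mp ⟨o, ho, (e1 o).mp hh⟩
      exact ⟨o', ho', (e1' o').mpr hh'⟩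
    · rintro ⟨o, ho, hh⟩
      obtain ⟨o', ho', hh'⟩ := hiff.mpr ⟨o, ho, (e1' o).mp hh⟩
      exact ⟨o', ho', (e1 o').mpr hh'⟩
  obtain ⟨g, hg, hgx, hgy⟩ := gc_six_trans x x' d d' hy hy' hiff'
  have g0 := hgx 0
  have g1 := hgx 1
  have g2 := hgx 2
  have g3 := hgx 3
  have g4 := hgx 4
  rw [hx0, hx0'] at g0
  rw [hx1, hx1'] at g1
  rw [hx2, hx2'] at g2
  rw [hx3, hx3'] at g3
  rw [hx4, hx4'] at g4
  exact ⟨g, hg, g0, g1, g2, g3, g4, hgy⟩

theorem gc_pair_meet1 (s t : Finset Cfsg.GolayPt) (hs : s.card = 2) (ht : t.card = 2)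
    (h : (s ∩ t).card = 1) : ∃ a b c, s = {a, c} ∧ t = {a, b} ∧ a ≠ b ∧ a ≠ c ∧ b ≠ c := by
  classical
  obtain ⟨a, ha⟩ := Finset.card_eq_one.mp h
  have has : a ∈ s := Finset.mem_of_mem_inter_left (ha ▸ Finset.mem_singleton_self a)
  have hat : a ∈ t := Finset.mem_of_mem_inter_right (ha ▸ Finset.mem_singleton_self a)
  have h1 : (s.erase a).card = 1 := by rw [Finset.card_erase_of_mem has, hs]
  have h2 : (t.erase a).card = 1 := by rw [Finset.card_erase_of_mem hat, ht]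
  obtain ⟨c, hc⟩ := Finset.card_eq_one.mp h1
  obtain ⟨b, hb⟩ := Finset.card_eq_one.mp h2
  have hcs : c ∈ s.erase a := hc ▸ Finset.mem_singleton_self c
  have hbt : b ∈ t.erase a := hb ▸ Finset.mem_singleton_self b
  obtain ⟨hca, hcs'⟩ := Finset.mem_erase.mp hcs
  obtain ⟨hba, hbt'⟩ := Finset.mem_erase.mp hbt
  refine ⟨a, b, c, ?_, ?_, hba.symm, hca.symm, ?_⟩
  · rw [← Finset.insert_erase has, hc]
  · rw [← Finset.insert_erase hat, hb]
  · rintro rfl
    have : b ∈ s ∩ t := Finset.mem_inter.mpr ⟨hcs', hbt'⟩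
    rw [ha, Finset.mem_singleton] at this
    exact hba this

/-- the stabiliser of two points and a pair on the other pairs -/
theorem gc_pq_trans (p q : Cfsg.GolayPt) (hpq : p ≠ q) (s : Finset Cfsg.GolayPt)
    (hs : s.card = 2 ∧ p ∉ s ∧ q ∉ s) (t t' : Finset Cfsg.GolayPt)
    (ht : t.card = 2 ∧ p ∉ t ∧ q ∉ t) (ht' : t'.card = 2 ∧ p ∉ t' ∧ q ∉ t')
    (hts : t ≠ s) (hts' : t' ≠ s) (hc : (s ∩ t).card = (s ∩ t').card)
    (hiff : (∃ o ∈ Cfsg.octads, p ∈ o ∧ q ∈ o ∧ s ∪ t ⊆ o) ↔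
      (∃ o ∈ Cfsg.octads, p ∈ o ∧ q ∈ o ∧ s ∪ t' ⊆ o)) :
    ∃ g : Equiv.Perm Cfsg.GolayPt, g ∈ Cfsg.M24 ∧ g p = p ∧ g q = q ∧ g • s = s ∧ g • t = t' := by
  classical
  have hle : ∀ u : Finset Cfsg.GolayPt, u.card = 2 → u ≠ s → (s ∩ u).card ≤ 1 := by
    intro u hu hus
    by_contra hcon
    have h2 : (s ∩ u).card = 2 := by
      have := Finset.card_le_card (Finset.inter_subset_left : s ∩ u ⊆ s)
      omega
    have e1 : s ∩ u = s :=
      Finset.eq_of_subset_of_card_le Finset.inter_subset_left (by rw [h2, hs.1])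
    have e2 : s ∩ u = u :=
      Finset.eq_of_subset_of_card_le Finset.inter_subset_right (by rw [h2, hu])
    exact hus (e2.symm.trans e1)
  have h1 := hle t ht.1 hts
  have h1' := hle t' ht'.1 hts'
  rcases Nat.lt_or_ge (s ∩ t).card 1 with h0 | h0
  · -- disjoint case
    have hd : (s ∩ t).card = 0 := by omega
    have hd' : (s ∩ t').card = 0 := by omega
    have hdis : s ∩ t = ∅ := Finset.card_eq_zero.mp hd
    have hdis' : s ∩ t' = ∅ := Finset.card_eq_zero.mp hd'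
    obtain ⟨a, c, hac, rfl⟩ := Finset.card_eq_two.mp hs.1
    obtain ⟨b, d, hbd, rfl⟩ := Finset.card_eq_two.mp ht.1
    obtain ⟨b', d', hbd', rfl⟩ := Finset.card_eq_two.mp ht'.1
    have hpa : p ≠ a ∧ p ≠ c := by
      simpa only [Finset.mem_insert, Finset.mem_singleton, not_or] using hs.2.1
    have hqa : q ≠ a ∧ q ≠ c := by
      simpa only [Finset.mem_insert, Finset.mem_singleton, not_or] using hs.2.2
    have hpb : p ≠ b ∧ p ≠ d := by
      simpa only [Finset.mem_insert, Finset.mem_singleton, not_or] using ht.2.1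
    have hqb : q ≠ b ∧ q ≠ d := by
      simpa only [Finset.mem_insert, Finset.mem_singleton, not_or] using ht.2.2
    have hpb' : p ≠ b' ∧ p ≠ d' := by
      simpa only [Finset.mem_insert, Finset.mem_singleton, not_or] using ht'.2.1
    have hqb' : q ≠ b' ∧ q ≠ d' := by
      simpa only [Finset.mem_insert, Finset.mem_singleton, not_or] using ht'.2.2
    have hnm : ∀ x y z w : Cfsg.GolayPt, ({x, y} ∩ {z, w} : Finset Cfsg.GolayPt) = ∅ →
        x ≠ z ∧ x ≠ w ∧ y ≠ z ∧ y ≠ w := by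
      intro x y z w hh
      have hx : ∀ u, u ∈ ({x, y} : Finset Cfsg.GolayPt) → u ∉ ({z, w} : Finset Cfsg.GolayPt) :=
        fun u hu hu' => by
          have : u ∈ ({x, y} ∩ {z, w} : Finset Cfsg.GolayPt) := Finset.mem_inter.mpr ⟨hu, hu'⟩
          rw [hh] at this
          exact absurd this (Finset.notMem_empty _)
      have hx1 := hx x (by simp)
      have hx2 := hx y (by simp)
      simp only [Finset.mem_insert, Finset.mem_singleton, not_or] at hx1 hx2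
      exact ⟨hx1.1, hx1.2, hx2.1, hx2.2⟩
    obtain ⟨hab, had, hcb, hcd⟩ := hnm a c b d hdis
    obtain ⟨hab', had', hcb', hcd'⟩ := hnm a c b' d' hdis'
    have hnd : ([p, q, a, c, b] ++ [d]).Nodup := by
      simp only [List.cons_append, List.nil_append, List.nodup_cons, List.mem_cons,
        List.not_mem_nil, or_false, not_or, List.nodup_nil, and_true, not_false_eq_true]
      exact ⟨⟨hpq, hpa.1, hpa.2, hpb.1, hpb.2⟩, ⟨hqa.1, hqa.2, hqb.1, hqb.2⟩, ⟨hac, hab, had⟩,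
        ⟨hcb, hcd⟩, hbd⟩
    have hnd' : ([p, q, a, c, b'] ++ [d']).Nodup := by
      simp only [List.cons_append, List.nil_append, List.nodup_cons, List.mem_cons,
        List.not_mem_nil, or_false, not_or, List.nodup_nil, and_true, not_false_eq_true]
      exact ⟨⟨hpq, hpa.1, hpa.2, hpb'.1, hpb'.2⟩, ⟨hqa.1, hqa.2, hqb'.1, hqb'.2⟩,
        ⟨hac, hab', had'⟩, ⟨hcb', hcd'⟩, hbd'⟩
    have e : ∀ (u v : Cfsg.GolayPt) (o : Finset Cfsg.GolayPt),
        (p ∈ o ∧ q ∈ o ∧ ({a, c} ∪ {u, v} : Finset Cfsg.GolayPt) ⊆ o) ↔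
        (p ∈ o ∧ q ∈ o ∧ a ∈ o ∧ c ∈ o ∧ u ∈ o ∧ v ∈ o) := by
      intro u v o
      simp only [Finset.union_subset_iff, Finset.insert_subset_iff, Finset.singleton_subset_iff,
        and_assoc]
    have hiff' : (∃ o ∈ Cfsg.octads, p ∈ o ∧ q ∈ o ∧ a ∈ o ∧ c ∈ o ∧ b ∈ o ∧ d ∈ o) ↔
        (∃ o ∈ Cfsg.octads, p ∈ o ∧ q ∈ o ∧ a ∈ o ∧ c ∈ o ∧ b' ∈ o ∧ d' ∈ o) := by
      constructor
      · rintro ⟨o, ho, hh⟩
        obtain ⟨o', ho', hh'⟩ := hiff.mp ⟨o, ho, (e b d o).mpr hh⟩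
        exact ⟨o', ho', (e b' d' o').mp hh'⟩
      · rintro ⟨o, ho, hh⟩
        obtain ⟨o', ho', hh'⟩ := hiff.mpr ⟨o, ho, (e b' d' o).mpr hh⟩
        exact ⟨o', ho', (e b d o').mp hh'⟩
    obtain ⟨g, hg, gp, gq, ga, gc', gb, gd⟩ :=
      gc_six_pts_trans p q a c b d p q a c b' d' hnd hnd' hiff'
    refine ⟨g, hg, gp, gq, ?_, ?_⟩
    · rw [Finset.smul_finset_insert, Finset.smul_finset_singleton,
        Equiv.Perm.smul_def, Equiv.Perm.smul_def, ga, gc']
    · rw [Finset.smul_finset_insert, Finset.smul_finset_singleton,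
        Equiv.Perm.smul_def, Equiv.Perm.smul_def, gb, gd]
  · -- the pairs meet `s` in one point
    have hm : (s ∩ t).card = 1 := by omega
    have hm' : (s ∩ t').card = 1 := by omega
    obtain ⟨a, b, c, hsE, rfl, hab, hac, hbc⟩ := gc_pair_meet1 s t hs.1 ht.1 hm
    obtain ⟨a', b', c', hsE', rfl, hab', hac', hbc'⟩ := gc_pair_meet1 s t' hs.1 ht'.1 hm'
    have hpa : p ≠ a ∧ p ≠ c := by
      have := hs.2.1
      rw [hsE] at this
      simpa only [Finset.mem_insert, Finset.mem_singleton, not_or] using this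
    have hqa : q ≠ a ∧ q ≠ c := by
      have := hs.2.2
      rw [hsE] at this
      simpa only [Finset.mem_insert, Finset.mem_singleton, not_or] using this
    have hpa' : p ≠ a' ∧ p ≠ c' := by
      have := hs.2.1
      rw [hsE'] at this
      simpa only [Finset.mem_insert, Finset.mem_singleton, not_or] using this
    have hqa' : q ≠ a' ∧ q ≠ c' := by
      have := hs.2.2
      rw [hsE'] at this
      simpa only [Finset.mem_insert, Finset.mem_singleton, not_or] using this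
    have hpb : p ≠ a ∧ p ≠ b := by
      simpa only [Finset.mem_insert, Finset.mem_singleton, not_or] using ht.2.1
    have hqb : q ≠ a ∧ q ≠ b := by
      simpa only [Finset.mem_insert, Finset.mem_singleton, not_or] using ht.2.2
    have hpb' : p ≠ a' ∧ p ≠ b' := by
      simpa only [Finset.mem_insert, Finset.mem_singleton, not_or] using ht'.2.1
    have hqb' : q ≠ a' ∧ q ≠ b' := by
      simpa only [Finset.mem_insert, Finset.mem_singleton, not_or] using ht'.2.2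
    have hnd : [p, q, a, c, b].Nodup := by
      simp only [List.nodup_cons, List.mem_cons,
        List.not_mem_nil, or_false, not_or, List.nodup_nil, and_true, not_false_eq_true]
      exact ⟨⟨hpq, hpa.1, hpa.2, hpb.2⟩, ⟨hqa.1, hqa.2, hqb.2⟩, ⟨hac, hab⟩, hbc.symm⟩
    have hnd' : [p, q, a', c', b'].Nodup := by
      simp only [List.nodup_cons, List.mem_cons,
        List.not_mem_nil, or_false, not_or, List.nodup_nil, and_true, not_false_eq_true]
      exact ⟨⟨hpq, hpa'.1, hpa'.2, hpb'.2⟩, ⟨hqa'.1, hqa'.2, hqb'.2⟩, ⟨hac', hab'⟩, hbc'.symm⟩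
    obtain ⟨g, hg, hmap⟩ := gc_list_trans _ _ hnd hnd' rfl (le_refl 5)
    simp only [List.map_cons, List.map_nil, List.cons.injEq, and_true] at hmap
    obtain ⟨gp, gq, ga, gc', gb⟩ := hmap
    refine ⟨g, hg, gp, gq, ?_, ?_⟩
    · rw [hsE, Finset.smul_finset_insert, Finset.smul_finset_singleton,
        Equiv.Perm.smul_def, Equiv.Perm.smul_def, ga, gc', ← hsE']
      exact hsE
    · rw [Finset.smul_finset_insert, Finset.smul_finset_singleton,
        Equiv.Perm.smul_def, Equiv.Perm.smul_def, ga, gb]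

end Cfsg.Agent.Lib.Helper7
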