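import Mathlib
import Cfsg.Agent.Lib.Helper7.SimplePrime

set_option autoImplicit false

namespace Cfsg.Agent.Lib.Helper7

/-- the normaliser of a subgroup of prime order: its order is that of the centraliser times a
divisor of `p - 1` -/
theorem sp_normalizer_card {G : Type*} [Group G] [Finite G] (p : ℕ) [hp : Fact p.Prime]
    (P : Subgroup G) (hP : Nat.card P = p) :
    ∃ d, d ∣ p - 1 ∧ Nat.card (Subgroup.normalizer (P : Set G)) =
      Nat.card (Subgroup.centralizer (P : Set G)) * d := by
  haveI : IsCyclic ↥P := isCyclic_of_prime_card hP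
  have key := Subgroup.card_dvd_of_injective _
    (QuotientGroup.kerLift_injective P.normalizerMonoidHom)
  rw [Subgroup.normalizerMonoidHom_ker, ← Subgroup.index, ← Subgroup.relIndex] at key
  rw [IsCyclic.card_mulAut, hP, Nat.totient_prime hp.out] at key
  refine ⟨_, key, ?_⟩
  have hle : Subgroup.centralizer (P : Set G) ≤ Subgroup.normalizer (P : Set G) :=
    Subgroup.centralizer_le_normalizer _
  have h1 := Subgroup.relIndex_mul_relIndex (H := (⊥ : Subgroup G))
    (K := Subgroup.centralizer (P : Set G)) (L := Subgroup.normalizer (P : Set G)) bot_le hle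
  rw [Subgroup.relIndex_bot_left, Subgroup.relIndex_bot_left] at h1
  exact h1.symm

/-- a faithful 2-transitive group of degree divisible by the prime `p` and of order `p * r * n`,
with `r < p` prime and `n ≡ 1` modulo `p`, `n ≠ 1`, in which the normalisers of the subgroups of
order `p` are controlled, is simple -/
theorem sp_simple_gen {G X : Type*} [Group G] [Finite G] [Finite X] [MulAction G X]
    (hfaith : ∀ g : G, (∀ x : X, g • x = x) → g = 1)
    (h2 : ∀ a b c d : X, a ≠ b → c ≠ d → ∃ g : G, g • a = c ∧ g • b = d)
    (p r n : ℕ) [hp : Fact p.Prime] (hX : p ∣ Nat.card X) (x : X)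
    (hcard : Nat.card G = p * r * n) (hr : r.Prime) (hrp : r < p) (hn : n % p = 1)
    (hn1 : n ≠ 1)
    (hNr : ∀ P : Subgroup G, Nat.card P = p → ∀ r0 : ℕ,
      Nat.card (Subgroup.normalizer (P : Set G)) = p * r0 → r0 % p = r → r0 = r) :
    IsSimpleGroup G := by
  have hp2 := hp.out.two_le
  have hpr : ¬ p ∣ r := fun h => absurd (Nat.le_of_dvd hr.pos h) (by omega)
  have hpn : ¬ p ∣ n := fun h => by
    have := Nat.mod_eq_zero_of_dvd h
    omega
  have hprn : ¬ p ∣ r * n := fun h => (hp.out.dvd_mul.mp h).elim hpr hpn
  have hpG : p ∣ Nat.card G := by rw [hcard, mul_assoc]; exact dvd_mul_right _ _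
  have hnpos : 0 < n := by
    rcases Nat.eq_zero_or_pos n with h | h
    · rw [h] at hn; simp at hn
    · exact h
  -- a general fact: a `p`-subgroup containing an element has order `p`
  have hpp : ∀ (H : Type _) [Group H] [Finite H], Nat.card H ∣ p * (r * n) → p ∣ Nat.card H →
      ∀ P : Sylow p H, Nat.card P = p := by
    intro H _ _ hdvd hpH P
    obtain ⟨k, hk⟩ := IsPGroup.iff_card.mp P.isPGroup'
    have h1 : p ∣ Nat.card P := P.dvd_card_of_dvd_card hpH
    have h3 : Nat.card P ∣ p * (r * n) := (Subgroup.card_subgroup_dvd_card _).trans hdvd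
    rw [hk] at h1 h3 ⊢
    rcases Nat.lt_or_ge k 2 with hk2 | hk2
    · interval_cases k
      · rw [pow_zero] at h1
        exact absurd (Nat.le_of_dvd Nat.one_pos h1) (by omega)
      · exact pow_one p
    · exfalso
      have h4 : p ^ 2 ∣ p * (r * n) := (pow_dvd_pow p hk2).trans h3
      rw [pow_two] at h4
      exact hprn ((Nat.mul_dvd_mul_iff_left (by omega)).mp h4)
  have hsyl : ∀ P : Sylow p G, Nat.card P = p :=
    hpp G (by rw [hcard, mul_assoc]) hpG
  have hfac : (Nat.card G).factorization p = 1 := by
    have h1 := Sylow.card_eq_multiplicity (default : Sylow p G)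
    rw [hsyl] at h1
    have h2 : p ^ 1 = p ^ (Nat.card G).factorization p := by rw [pow_one]; exact h1
    exact (Nat.pow_right_injective hp2 h2).symm
  -- normalisers of subgroups of order `p`
  have hnorm : ∀ P : Subgroup G, Nat.card P = p →
      Nat.card (Subgroup.normalizer (P : Set G)) = p * r := by
    intro P hP
    have h2 : p ∣ Nat.card (Subgroup.normalizer (P : Set G)) := by
      rw [← hP]
      exact Subgroup.card_dvd_of_le Subgroup.le_normalizer
    obtain ⟨r0, hr0⟩ := h2
    have h3 := Subgroup.card_mul_index (Subgroup.normalizer (P : Set G))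
    have h4 : Nat.card (Sylow p G) = (Subgroup.normalizer (P : Set G)).index :=
      Sylow.card_eq_index_normalizer (Sylow.ofCard P (by rw [hP, hfac, pow_one]))
    rw [← h4, hcard, hr0] at h3
    have h5 := card_sylow_modEq_one p G
    have h6 : Nat.card (Sylow p G) % p = 1 := by
      have := h5
      unfold Nat.ModEq at this
      rw [this, Nat.mod_eq_of_lt (by omega)]
    have h7 : r0 * Nat.card (Sylow p G) = r * n := by
      have : p * (r0 * Nat.card (Sylow p G)) = p * (r * n) := by
        rw [← mul_assoc, h3, mul_assoc]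
      exact Nat.eq_of_mul_eq_mul_left (by omega) this
    have h8 : r0 % p = r := by
      have e1 : (r0 * Nat.card (Sylow p G)) % p = r0 % p := by
        rw [Nat.mul_mod, h6, mul_one, Nat.mod_mod]
      have e2 : (r * n) % p = r := by
        rw [Nat.mul_mod, hn, mul_one, Nat.mod_mod, Nat.mod_eq_of_lt hrp]
      rw [h7, e2] at e1
      exact e1.symm
    rw [hr0, hNr P hP r0 hr0 h8]
  haveI : Nontrivial G := Finite.one_lt_card_iff_nontrivial.mp (by
    rw [hcard]
    have : 1 ≤ r * n := Nat.mul_pos hr.pos hnpos
    nlinarith)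
  refine ⟨fun N hN => ?_⟩
  by_contra hcon
  push Not at hcon
  obtain ⟨hNbot, hNtop⟩ := hcon
  haveI := hN
  have htr := sp_normal_trans hfaith h2 N hN hNbot
  have hpN : p ∣ Nat.card N := by
    rw [sp_trans_card N htr x]
    exact Dvd.dvd.mul_left hX _
  have hNG : Nat.card N ∣ p * (r * n) := by
    rw [← mul_assoc, ← hcard]
    exact Subgroup.card_subgroup_dvd_card N
  have Q : Sylow p N := default
  have hQ : Nat.card Q = p := hpp N hNG hpN Q
  have hQ' : Nat.card ((Q : Subgroup N).map N.subtype) = p := by
    rw [Subgroup.card_map_of_injective N.subtype_injective]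
    exact hQ
  have hfr := Sylow.normalizer_sup_eq_top Q
  have hnQ := hnorm _ hQ'
  have hidx : N.index = N.relIndex (Subgroup.normalizer
      (((Q : Subgroup N).map N.subtype : Subgroup G) : Set G)) := by
    have h1 := Subgroup.relIndex_sup_right (H := Subgroup.normalizer
      (((Q : Subgroup N).map N.subtype : Subgroup G) : Set G)) (K := N)
    rw [hfr, Subgroup.relIndex_top_right] at h1
    exact h1
  have hM : Nat.card ↥(N ⊓ Subgroup.normalizer
      (((Q : Subgroup N).map N.subtype : Subgroup G) : Set G)) * N.index = p * r := by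
    have h1 := Subgroup.relIndex_mul_relIndex (H := (⊥ : Subgroup G))
      (K := N ⊓ Subgroup.normalizer (((Q : Subgroup N).map N.subtype : Subgroup G) : Set G))
      (L := Subgroup.normalizer (((Q : Subgroup N).map N.subtype : Subgroup G) : Set G))
      bot_le inf_le_right
    rw [Subgroup.relIndex_bot_left, Subgroup.relIndex_bot_left, Subgroup.inf_relIndex_right,
      ← hidx, hnQ] at h1
    exact h1
  have hQle : (Q : Subgroup N).map N.subtype ≤ N ⊓ Subgroup.normalizer
      (((Q : Subgroup N).map N.subtype : Subgroup G) : Set G) := by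
    refine le_inf ?_ Subgroup.le_normalizer
    rintro _ ⟨y, _, rfl⟩
    exact y.2
  have hpM : p ∣ Nat.card ↥(N ⊓ Subgroup.normalizer
      (((Q : Subgroup N).map N.subtype : Subgroup G) : Set G)) := by
    have h3 := Subgroup.card_dvd_of_le hQle
    rwa [hQ'] at h3
  obtain ⟨r1, hr1⟩ := hpM
  have hr1r : r1 * N.index = r := by
    rw [hr1, mul_assoc] at hM
    exact Nat.eq_of_mul_eq_mul_left (by omega) hM
  have hr1d : r1 ∣ r := Dvd.intro _ hr1r
  rcases (Nat.dvd_prime hr).mp hr1d with h1 | h1
  · -- the self-normalising case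
    rw [h1, mul_one] at hr1
    rw [h1, one_mul] at hr1r
    have hMQ : (Q : Subgroup N).map N.subtype = N ⊓ Subgroup.normalizer
        (((Q : Subgroup N).map N.subtype : Subgroup G) : Set G) :=
      Subgroup.eq_of_le_of_card_ge hQle (by rw [hr1, hQ'])
    have hcN : Nat.card N = p * n := by
      have h3 := Subgroup.card_mul_index N
      rw [hr1r, hcard] at h3
      have : Nat.card N * r = p * n * r := by rw [h3]; ring
      exact Nat.eq_of_mul_eq_mul_right hr.pos this
    -- the Sylow subgroup of `N` is self-normalising, hence central in its normaliser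
    have hQn : Subgroup.normalizer ((Q : Subgroup N) : Set N) ≤
        Subgroup.centralizer ((Q : Subgroup N) : Set N) := by
      intro y hy
      have hyQ : y ∈ (Q : Subgroup N) := by
        have h3 : (y : G) ∈ N ⊓ Subgroup.normalizer
            (((Q : Subgroup N).map N.subtype : Subgroup G) : Set G) := by
          refine Subgroup.mem_inf.mpr ⟨y.2, ?_⟩
          rw [Subgroup.mem_normalizer_iff]
          intro h
          constructor
          · rintro ⟨z, hz, rfl⟩
            exact ⟨y * z * y⁻¹, (Subgroup.mem_normalizer_iff.mp hy z).mp hz, rfl⟩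
          · rintro ⟨z, hz, hzh⟩
            have hhN : h ∈ N := by
              have e : h = (y : G)⁻¹ * ((y : G) * h * (y : G)⁻¹) * (y : G) := by group
              rw [e, ← hzh]
              exact N.mul_mem (N.mul_mem (N.inv_mem y.2) z.2) y.2
            have e2 : z = y * ⟨h, hhN⟩ * y⁻¹ := Subtype.ext hzh
            have hzQ : (⟨h, hhN⟩ : ↥N) ∈ (Q : Subgroup N) := by
              rw [Subgroup.mem_normalizer_iff.mp hy ⟨h, hhN⟩, ← e2]
              exact hz
            exact ⟨⟨h, hhN⟩, hzQ, rfl⟩
        rw [← hMQ] at h3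
        obtain ⟨z, hz, hzy⟩ := h3
        have : z = y := Subtype.ext hzy
        rwa [this] at hz
      haveI : IsCyclic ↥(Q : Subgroup N) := isCyclic_of_prime_card hQ
      rw [Subgroup.mem_centralizer_iff]
      intro z hz
      have h4 := (IsCyclic.commutative (α := ↥(Q : Subgroup N))).is_comm.comm
        (⟨z, hz⟩ : ↥(Q : Subgroup N)) ⟨y, hyQ⟩
      exact congrArg Subtype.val h4
    have hcompl := MonoidHom.ker_transferSylow_isComplement' Q hQn
    have hKc : Nat.card (MonoidHom.transferSylow Q hQn).ker = n := by
      have h3 := hcompl.card_mul_card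
      rw [hQ, hcN, mul_comm] at h3
      exact Nat.eq_of_mul_eq_mul_left (by omega) h3
    -- elements of the complement
    have hKiff : ∀ y : ↥N, y ∈ (MonoidHom.transferSylow Q hQn).ker ↔ y ^ n = 1 := by
      intro y
      constructor
      · intro hy
        have h3 : (⟨y, hy⟩ : (MonoidHom.transferSylow Q hQn).ker) ^
            Nat.card (MonoidHom.transferSylow Q hQn).ker = 1 := pow_card_eq_one'
        rw [hKc] at h3
        exact congrArg Subtype.val h3
      · intro hy
        rw [MonoidHom.mem_ker]
        have h3 : (MonoidHom.transferSylow Q hQn y) ^ n = 1 := by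
          rw [← map_pow, hy, map_one]
        have h4 : (MonoidHom.transferSylow Q hQn y) ^ p = 1 := by
          have := pow_card_eq_one' (G := ↥(Q : Subgroup N)) (x := MonoidHom.transferSylow Q hQn y)
          rwa [hQ] at this
        have h5 := pow_gcd_eq_one.mpr ⟨h3, h4⟩
        have h6 : Nat.gcd n p = 1 := by
          rw [Nat.gcd_comm]
          exact (Nat.Prime.coprime_iff_not_dvd hp.out).mpr hpn
        rwa [h6, pow_one] at h5
    -- the complement is normal in `G`
    have hKn : (((MonoidHom.transferSylow Q hQn).ker).map N.subtype).Normal := by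
      constructor
      rintro _ ⟨y, hy, rfl⟩ g
      have hmem : g * (y : G) * g⁻¹ ∈ N := hN.conj_mem _ y.2 g
      refine ⟨⟨_, hmem⟩, ?_, rfl⟩
      rw [SetLike.mem_coe, hKiff]
      apply Subtype.ext
      have h3 : (y : G) ^ n = 1 := by
        have := congrArg Subtype.val ((hKiff y).mp hy)
        simpa using this
      show (g * (y : G) * g⁻¹) ^ n = 1
      rw [conj_pow, h3, mul_one, mul_inv_cancel]
    have hKc' : Nat.card (((MonoidHom.transferSylow Q hQn).ker).map N.subtype) = n := by
      rw [Subgroup.card_map_of_injective N.subtype_injective, hKc]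
    by_cases hKbot : ((MonoidHom.transferSylow Q hQn).ker).map N.subtype = ⊥
    · rw [hKbot, Subgroup.card_bot] at hKc'
      exact hn1 hKc'.symm
    · have htr' := sp_normal_trans hfaith h2 _ hKn hKbot
      have h3 := sp_trans_card _ htr' x
      rw [hKc'] at h3
      exact hpn (hX.trans (Dvd.intro_left _ h3.symm))
  · -- the normaliser lies in `N`
    rw [h1] at hr1r
    have h3 : N.index = 1 := by
      have : r * N.index = r * 1 := by rw [hr1r, mul_one]
      exact Nat.eq_of_mul_eq_mul_left hr.pos this
    exact hNtop (Subgroup.index_eq_one.mp h3)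

end Cfsg.Agent.Lib.Helper7
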