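import Mathlib
import Cfsg.Prelude
import Cfsg.Agent.Lib.Helper7.GolayC43
import Cfsg.Agent.Lib.Helper7.SimplePrime2

set_option autoImplicit false

namespace Cfsg.Agent.Lib.Helper7

open scoped Pointwise

/-- an element fixing six points of an octad fixes the octad pointwise -/
theorem gc_six_fix_octad (E : Finset Cfsg.GolayPt) (hE : E.card = 6) (o : Finset Cfsg.GolayPt)
    (ho : o ∈ Cfsg.octads) (hEo : E ⊆ o) {g : Equiv.Perm Cfsg.GolayPt} (hg : g ∈ Cfsg.M24)
    (hfix : ∀ p ∈ E, g p = p) :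
    g ∈ Cfsg.M24 ⊓ fixingSubgroup (Equiv.Perm Cfsg.GolayPt) (o : Set Cfsg.GolayPt) := by
  have e : Fin 6 ≃ ↥E := (Finset.equivFinOfCardEq hE).symm
  obtain ⟨x, y, hx, hy, hne, hmem⟩ := gc_six_enum E e
  obtain ⟨k, hk, hkx, hky⟩ := gc_six_norm x y hne
  have h1 := (gc_six_octad x y hk hkx).trans (gc_six_iff E x y hmem)
  have h2 := h1.mpr ⟨o, ho, hEo⟩
  have h5 : k y = gcPt 5 := by
    rcases hky with h | h
    · exact h
    · rw [h] at h2
      exact absurd h2 gc_four_out
  have h3 := gc_six_image x y k hkx 5 h5 E hmem gcF6a gc_f6a_tab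
  have hxo : ∀ i, x i ∈ o := fun i => hEo ((hmem (x i)).mpr (Or.inl ⟨i, rfl⟩))
  have h4 := gc_octad_of_base hk ho x hxo hkx
  have hgE : g ∈ Cfsg.M24 ⊓ fixingSubgroup (Equiv.Perm Cfsg.GolayPt) (E : Set Cfsg.GolayPt) :=
    Subgroup.mem_inf.mpr ⟨hg, (mem_fixingSubgroup_iff _).mpr
      (fun p hp => hfix p (Finset.mem_coe.mp hp))⟩
  have hk' : k⁻¹ • gcSet gcF6a = E := by rw [← h3, inv_smul_smul]
  have h6 := gc_fix_conj (inv_mem hk) (gcSet gcF6a) E hk' hgE
  rw [inv_inv, gc_f6a_fix] at h6
  have h7 := gc_fix_conj hk o (gcSet gcO0) h4 h6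
  have h8 : k⁻¹ * (k * g * k⁻¹) * k = g := by group
  rw [h8] at h7
  exact h7

/-- an element fixing at least thirteen points is trivial -/
theorem gc_fix13 {g : Equiv.Perm Cfsg.GolayPt} (hg : g ∈ Cfsg.M24) (F : Finset Cfsg.GolayPt)
    (hF : 13 ≤ F.card) (hfix : ∀ p ∈ F, g p = p) : g = 1 := by
  classical
  have hoct : ∃ o ∈ Cfsg.octads, 6 ≤ (o ∩ F).card := by
    by_contra hcon
    push Not at hcon
    have hex : ∀ A ∈ F.powersetCard 5, ∃ o, o ∈ gcOct ∧ A ⊆ o := by
      intro A hA
      obtain ⟨o, ⟨ho, hAo⟩, _⟩ := gc_steiner.2 A (Finset.mem_powersetCard.mp hA).2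
      exact ⟨o, (gc_mem_oct o).mpr ho, hAo⟩
    choose! φ hφ1 hφ2 using hex
    have hinj : Set.InjOn φ (F.powersetCard 5 : Set (Finset Cfsg.GolayPt)) := by
      intro A hA A' hA' h
      by_contra hne
      obtain ⟨hAF, hA5⟩ := Finset.mem_powersetCard.mp (Finset.mem_coe.mp hA)
      obtain ⟨hAF', hA5'⟩ := Finset.mem_powersetCard.mp (Finset.mem_coe.mp hA')
      have h6 : 6 ≤ (A ∪ A').card := by
        by_contra hlt
        have e1 : A = A ∪ A' :=
          Finset.eq_of_subset_of_card_le Finset.subset_union_left (by omega)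
        have e2 : A' = A ∪ A' :=
          Finset.eq_of_subset_of_card_le Finset.subset_union_right (by omega)
        exact hne (e1.trans e2.symm)
      have hsub : A ∪ A' ⊆ φ A ∩ F := by
        intro z hz
        rcases Finset.mem_union.mp hz with hz | hz
        · exact Finset.mem_inter.mpr ⟨hφ2 A hA hz, hAF hz⟩
        · exact Finset.mem_inter.mpr ⟨h ▸ hφ2 A' hA' hz, hAF' hz⟩
      have h7 := Finset.card_le_card hsub
      have h8 := hcon (φ A) ((gc_mem_oct _).mp (hφ1 A hA))
      omega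
    have h1 := Finset.card_le_card_of_injOn φ (fun A hA => hφ1 A hA) hinj
    rw [Finset.card_powersetCard, gc_oct_card] at h1
    have h2 := Nat.choose_le_choose 5 hF
    have h3 : Nat.choose 13 5 = 1287 := by decide
    omega
  obtain ⟨o, ho, h6⟩ := hoct
  obtain ⟨E, hE1, hE2⟩ := Finset.exists_subset_card_eq h6
  have hfo := gc_six_fix_octad E hE2 o ho (hE1.trans Finset.inter_subset_left) hg
    (fun p hp => hfix p (Finset.mem_of_mem_inter_right (hE1 hp)))
  have hlt : o.card < F.card := by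
    rw [gc_octad_card ho]
    omega
  obtain ⟨p, hpF, hpo⟩ := Finset.exists_mem_notMem_of_card_lt_card hlt
  exact gc_octad_fix_free o ho p hpo hfo (hfix p hpF)

/-- a nontrivial element of order dividing 11 fixes at most two points -/
theorem gc_ord11_free {v : Equiv.Perm Cfsg.GolayPt} (hv : v ∈ Cfsg.M24) (h11 : v ^ 11 = 1)
    (hv1 : v ≠ 1) (p q x : Cfsg.GolayPt) (hpq : p ≠ q) (hxp : x ≠ p) (hxq : x ≠ q)
    (hp : v p = p) (hq : v q = q) : v x ≠ x := by
  classical
  intro hx
  haveI : Fact (Nat.Prime 11) := ⟨by norm_num⟩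
  have h1 := Equiv.Perm.card_compl_support_modEq (p := 11) (n := 1) (σ := v)
    (by rw [pow_one]; exact h11)
  rw [gc_card_pt] at h1
  have hsub : ({p, q, x} : Finset Cfsg.GolayPt) ⊆ v.supportᶜ := by
    intro z hz
    rw [Finset.mem_compl, Equiv.Perm.notMem_support]
    simp only [Finset.mem_insert, Finset.mem_singleton] at hz
    rcases hz with rfl | rfl | rfl
    · exact hp
    · exact hq
    · exact hx
  have h3 : ({p, q, x} : Finset Cfsg.GolayPt).card = 3 := by
    rw [Finset.card_insert_of_notMem, Finset.card_insert_of_notMem, Finset.card_singleton]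
    · rw [Finset.mem_singleton]; exact Ne.symm hxq
    · rw [Finset.mem_insert, Finset.mem_singleton, not_or]; exact ⟨hpq, Ne.symm hxp⟩
  have h4 := Finset.card_le_card hsub
  rw [h3] at h4
  have h5 : v.supportᶜ.card % 11 = 2 := h1
  have h6 : 13 ≤ v.supportᶜ.card := by omega
  exact hv1 (gc_fix13 hv _ h6 (fun z hz => by
    rwa [Finset.mem_compl, Equiv.Perm.notMem_support] at hz))

/-- an element commuting with an element of order 11 fixing two points, and fixing these and a
third point, is trivial -/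
theorem gc_ord11_centralizer {u c : Equiv.Perm Cfsg.GolayPt} (hu : u ∈ Cfsg.M24)
    (hc : c ∈ Cfsg.M24) (h11 : orderOf u = 11) (p q x : Cfsg.GolayPt) (hpq : p ≠ q)
    (hxp : x ≠ p) (hxq : x ≠ q) (hup : u p = p) (huq : u q = q) (hcp : c p = p) (hcq : c q = q)
    (hcomm : c * u = u * c) (hcx : c x = x) : c = 1 := by
  classical
  have hupow : ∀ k : ℕ, (u ^ k) p = p ∧ (u ^ k) q = q := by
    intro k
    induction k with
    | zero => exact ⟨rfl, rfl⟩
    | succ k ih =>
      rw [pow_succ, Equiv.Perm.mul_apply, Equiv.Perm.mul_apply, hup, huq]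
      exact ih
  have hne : ∀ i j : ℕ, i < j → j < 11 → (u ^ i) x ≠ (u ^ j) x := by
    intro i j hij hj h
    have e : u ^ j = u ^ i * u ^ (j - i) := by rw [← pow_add]; congr 1; omega
    rw [e, Equiv.Perm.mul_apply] at h
    have h2 : x = (u ^ (j - i)) x := (u ^ i).injective h
    have hv1 : u ^ (j - i) ≠ 1 :=
      pow_ne_one_of_lt_orderOf (by omega) (by rw [h11]; omega)
    have hv11 : (u ^ (j - i)) ^ 11 = 1 := by
      rw [← pow_mul, mul_comm, pow_mul, ← h11, pow_orderOf_eq_one, one_pow]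
    exact gc_ord11_free (pow_mem hu _) hv11 hv1 p q x hpq hxp hxq (hupow _).1 (hupow _).2 h2.symm
  have hinj : Set.InjOn (fun k : ℕ => (u ^ k) x) (Finset.range 11 : Set ℕ) := by
    intro i hi j hj h
    have hi' := Finset.mem_range.mp (Finset.mem_coe.mp hi)
    have hj' := Finset.mem_range.mp (Finset.mem_coe.mp hj)
    rcases Nat.lt_trichotomy i j with h1 | h1 | h1
    · exact absurd h (hne i j h1 hj')
    · exact h1
    · exact absurd h.symm (hne j i h1 hi')
  have hcard : ((Finset.range 11).image (fun k : ℕ => (u ^ k) x)).card = 11 := by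
    rw [Finset.card_image_of_injOn hinj, Finset.card_range]
  have hq' : q ∉ (Finset.range 11).image (fun k : ℕ => (u ^ k) x) := by
    intro h
    obtain ⟨k, _, hk⟩ := Finset.mem_image.mp h
    have h2 : (u ^ k) x = (u ^ k) q := by rw [(hupow k).2]; exact hk
    exact hxq ((u ^ k).injective h2)
  have hp' : p ∉ insert q ((Finset.range 11).image (fun k : ℕ => (u ^ k) x)) := by
    intro h
    rcases Finset.mem_insert.mp h with h | h
    · exact hpq h
    · obtain ⟨k, _, hk⟩ := Finset.mem_image.mp h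
      have h2 : (u ^ k) x = (u ^ k) p := by rw [(hupow k).1]; exact hk
      exact hxp ((u ^ k).injective h2)
  have hcomm' : ∀ k : ℕ, c * u ^ k = u ^ k * c := by
    intro k
    have : Commute c u := hcomm
    exact (this.pow_right k).eq
  apply gc_fix13 hc (insert p (insert q ((Finset.range 11).image (fun k : ℕ => (u ^ k) x))))
  · rw [Finset.card_insert_of_notMem hp', Finset.card_insert_of_notMem hq', hcard]
  · intro z hz
    rcases Finset.mem_insert.mp hz with rfl | hz
    · exact hcp
    · rcases Finset.mem_insert.mp hz with rfl | hz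
      · exact hcq
      · obtain ⟨k, _, rfl⟩ := Finset.mem_image.mp hz
        show c ((u ^ k) x) = (u ^ k) x
        rw [← Equiv.Perm.mul_apply, hcomm' k, Equiv.Perm.mul_apply, hcx]

end Cfsg.Agent.Lib.Helper7
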