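import Mathlib
import Cfsg.Prelude
import Cfsg.Agent.Lib.Helper7.GolayC46

set_option autoImplicit false

namespace Cfsg.Agent.Lib.Helper7

open scoped Pointwise

theorem gc_pq_stab_compl (p q : Cfsg.GolayPt) :
    ∀ g ∈ MulAction.stabilizer Cfsg.M24 p ⊓ MulAction.stabilizer Cfsg.M24 q,
      ((g : Cfsg.M24) : Equiv.Perm Cfsg.GolayPt) • (({p, q} : Finset Cfsg.GolayPt)ᶜ) =
        ({p, q} : Finset Cfsg.GolayPt)ᶜ := by
  intro g hg
  obtain ⟨hg1, hg2⟩ := Subgroup.mem_inf.mp hg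
  apply gc_smul_compl
  have h1 : ((g : Cfsg.M24) : Equiv.Perm Cfsg.GolayPt) p = p := MulAction.mem_stabilizer_iff.mp hg1
  have h2 : ((g : Cfsg.M24) : Equiv.Perm Cfsg.GolayPt) q = q := MulAction.mem_stabilizer_iff.mp hg2
  rw [Finset.smul_finset_insert, Finset.smul_finset_singleton, Equiv.Perm.smul_def,
    Equiv.Perm.smul_def, h1, h2]

/-- a two-point stabiliser is simple -/
theorem gc_M22_simple (p q : Cfsg.GolayPt) (hpq : p ≠ q) :
    IsSimpleGroup ↥(MulAction.stabilizer Cfsg.M24 p ⊓ MulAction.stabilizer Cfsg.M24 q) := by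
  classical
  letI : MulAction ↥(MulAction.stabilizer Cfsg.M24 p ⊓ MulAction.stabilizer Cfsg.M24 q)
      ↥(({p, q} : Finset Cfsg.GolayPt)ᶜ) :=
    MulAction.compHom _ (gcResK (MulAction.stabilizer Cfsg.M24 p ⊓ MulAction.stabilizer Cfsg.M24 q)
      ({p, q} : Finset Cfsg.GolayPt)ᶜ (gc_pq_stab_compl p q))
  haveI : Fact (Nat.Prime 11) := ⟨by norm_num⟩
  have hsm : ∀ (g : ↥(MulAction.stabilizer Cfsg.M24 p ⊓ MulAction.stabilizer Cfsg.M24 q))
      (y : ↥(({p, q} : Finset Cfsg.GolayPt)ᶜ)),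
      ((g • y : ↥(({p, q} : Finset Cfsg.GolayPt)ᶜ)) : Cfsg.GolayPt) =
        ((g : Cfsg.M24) : Equiv.Perm Cfsg.GolayPt) (y : Cfsg.GolayPt) := fun _ _ => rfl
  have hgp : ∀ g : ↥(MulAction.stabilizer Cfsg.M24 p ⊓ MulAction.stabilizer Cfsg.M24 q),
      ((g : Cfsg.M24) : Equiv.Perm Cfsg.GolayPt) p = p :=
    fun g => MulAction.mem_stabilizer_iff.mp (Subgroup.mem_inf.mp g.2).1
  have hgq : ∀ g : ↥(MulAction.stabilizer Cfsg.M24 p ⊓ MulAction.stabilizer Cfsg.M24 q),
      ((g : Cfsg.M24) : Equiv.Perm Cfsg.GolayPt) q = q :=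
    fun g => MulAction.mem_stabilizer_iff.mp (Subgroup.mem_inf.mp g.2).2
  have hmemW : ∀ y : Cfsg.GolayPt, y ∈ ({p, q} : Finset Cfsg.GolayPt)ᶜ ↔ y ≠ p ∧ y ≠ q := by
    intro y
    rw [Finset.mem_compl, Finset.mem_insert, Finset.mem_singleton, not_or]
  have hcardW : Nat.card ↥(({p, q} : Finset Cfsg.GolayPt)ᶜ) = 22 := by
    rw [Nat.card_eq_fintype_card, Fintype.card_coe, Finset.card_compl, gc_card_pt,
      Finset.card_pair hpq]
  have hne : (({p, q} : Finset Cfsg.GolayPt)ᶜ).Nonempty := by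
    rw [← Finset.card_pos, Finset.card_compl, gc_card_pt, Finset.card_pair hpq]
    norm_num
  obtain ⟨x0, hx0⟩ := hne
  refine sp_simple_gen (X := ↥(({p, q} : Finset Cfsg.GolayPt)ᶜ)) ?_ ?_ 11 5 8064 ?_ ⟨x0, hx0⟩ ?_
    (by norm_num) (by norm_num) (by norm_num) (by norm_num) ?_
  · -- faithful
    intro g hg
    apply Subtype.ext
    apply Subtype.ext
    apply Equiv.ext
    intro y
    show ((g : Cfsg.M24) : Equiv.Perm Cfsg.GolayPt) y = y
    by_cases hyp : y = p
    · rw [hyp]; exact hgp g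
    · by_cases hyq : y = q
      · rw [hyq]; exact hgq g
      · have h1 := hg ⟨y, (hmemW y).mpr ⟨hyp, hyq⟩⟩
        have h2 := congrArg Subtype.val h1
        rw [hsm] at h2
        exact h2
  · -- 2-transitive
    intro a b c e hab hce
    obtain ⟨hap, haq⟩ := (hmemW _).mp a.2
    obtain ⟨hbp, hbq⟩ := (hmemW _).mp b.2
    obtain ⟨hcp, hcq⟩ := (hmemW _).mp c.2
    obtain ⟨hep, heq⟩ := (hmemW _).mp e.2
    have hab' : (a : Cfsg.GolayPt) ≠ b := fun h => hab (Subtype.ext h)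
    have hce' : (c : Cfsg.GolayPt) ≠ e := fun h => hce (Subtype.ext h)
    obtain ⟨k, hk, hkl⟩ := gc_list_trans [p, q, (a : Cfsg.GolayPt), (b : Cfsg.GolayPt)]
      [p, q, (c : Cfsg.GolayPt), (e : Cfsg.GolayPt)]
      (by simp [hpq, Ne.symm hap, Ne.symm hbp, Ne.symm haq, Ne.symm hbq, hab'])
      (by simp [hpq, Ne.symm hcp, Ne.symm hep, Ne.symm hcq, Ne.symm heq, hce']) rfl (by norm_num)
    have h0 : k p = p := congrArg (fun l : List Cfsg.GolayPt => l.getD 0 p) hkl
    have h0' : k q = q := congrArg (fun l : List Cfsg.GolayPt => l.getD 1 p) hkl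
    have h1 : k a = c := congrArg (fun l : List Cfsg.GolayPt => l.getD 2 p) hkl
    have h2 : k b = e := congrArg (fun l : List Cfsg.GolayPt => l.getD 3 p) hkl
    refine ⟨⟨⟨k, hk⟩, Subgroup.mem_inf.mpr ⟨MulAction.mem_stabilizer_iff.mpr h0,
      MulAction.mem_stabilizer_iff.mpr h0'⟩⟩, Subtype.ext ?_, Subtype.ext ?_⟩
    · rw [hsm]; exact h1
    · rw [hsm]; exact h2
  · rw [hcardW]
    norm_num
  · rw [gc_card_stab2 p q hpq]
  · -- normalisers of the subgroups of order 11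
    intro P hP r0 hN hr0
    obtain ⟨d, hd, hNC⟩ := sp_normalizer_card 11 P hP
    haveI : Nontrivial ↥P := Finite.one_lt_card_iff_nontrivial.mp (by rw [hP]; norm_num)
    obtain ⟨u, hu⟩ := exists_ne (1 : ↥P)
    have hord : orderOf u = 11 := by
      have h1 : orderOf u ∣ 11 := by rw [← hP]; exact orderOf_dvd_natCard u
      rcases (Nat.dvd_prime (by norm_num : Nat.Prime 11)).mp h1 with h | h
      · exact absurd (orderOf_eq_one_iff.mp h) hu
      · exact h
    have hordP : orderOf ((((u : ↥P) : ↥(MulAction.stabilizer Cfsg.M24 p ⊓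
        MulAction.stabilizer Cfsg.M24 q)) : Cfsg.M24) : Equiv.Perm Cfsg.GolayPt) = 11 := by
      rw [Subgroup.orderOf_coe, Subgroup.orderOf_coe, Subgroup.orderOf_coe, hord]
    have h11C : 11 ∣ Nat.card (Subgroup.centralizer ((P : Subgroup ↥(MulAction.stabilizer Cfsg.M24 p ⊓
        MulAction.stabilizer Cfsg.M24 q)) : Set ↥(MulAction.stabilizer Cfsg.M24 p ⊓
        MulAction.stabilizer Cfsg.M24 q))) := by
      haveI : IsCyclic ↥P := isCyclic_of_prime_card hP
      have hle : P ≤ Subgroup.centralizer ((P : Subgroup ↥(MulAction.stabilizer Cfsg.M24 p ⊓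
          MulAction.stabilizer Cfsg.M24 q)) : Set ↥(MulAction.stabilizer Cfsg.M24 p ⊓
          MulAction.stabilizer Cfsg.M24 q)) := by
        intro y hy
        rw [Subgroup.mem_centralizer_iff]
        intro z hz
        have h4 := (IsCyclic.commutative (α := ↥P)).is_comm.comm (⟨z, hz⟩ : ↥P) ⟨y, hy⟩
        exact congrArg Subtype.val h4
      rw [← hP]
      exact Subgroup.card_dvd_of_le hle
    have hCle : Nat.card (Subgroup.centralizer ((P : Subgroup ↥(MulAction.stabilizer Cfsg.M24 p ⊓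
        MulAction.stabilizer Cfsg.M24 q)) : Set ↥(MulAction.stabilizer Cfsg.M24 p ⊓
        MulAction.stabilizer Cfsg.M24 q))) ≤ 22 := by
      rw [← hcardW]
      apply Nat.card_le_card_of_injective (fun c : ↥(Subgroup.centralizer
        ((P : Subgroup ↥(MulAction.stabilizer Cfsg.M24 p ⊓
        MulAction.stabilizer Cfsg.M24 q)) : Set ↥(MulAction.stabilizer Cfsg.M24 p ⊓
        MulAction.stabilizer Cfsg.M24 q))) =>
          (c : ↥(MulAction.stabilizer Cfsg.M24 p ⊓ MulAction.stabilizer Cfsg.M24 q)) •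
            (⟨x0, hx0⟩ : ↥(({p, q} : Finset Cfsg.GolayPt)ᶜ)))
      intro c c' h
      have k1 : Commute (u : ↥(MulAction.stabilizer Cfsg.M24 p ⊓ MulAction.stabilizer Cfsg.M24 q))
          (c : ↥(MulAction.stabilizer Cfsg.M24 p ⊓ MulAction.stabilizer Cfsg.M24 q)) :=
        Subgroup.mem_centralizer_iff.mp c.2 _ u.2
      have k1' : Commute (u : ↥(MulAction.stabilizer Cfsg.M24 p ⊓ MulAction.stabilizer Cfsg.M24 q))
          (c' : ↥(MulAction.stabilizer Cfsg.M24 p ⊓ MulAction.stabilizer Cfsg.M24 q)) :=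
        Subgroup.mem_centralizer_iff.mp c'.2 _ u.2
      have k2 := (k1'.inv_right.mul_right k1).symm.eq
      have hfix : ((c' : ↥(MulAction.stabilizer Cfsg.M24 p ⊓ MulAction.stabilizer Cfsg.M24 q))⁻¹ *
          (c : ↥(MulAction.stabilizer Cfsg.M24 p ⊓ MulAction.stabilizer Cfsg.M24 q))) •
          (⟨x0, hx0⟩ : ↥(({p, q} : Finset Cfsg.GolayPt)ᶜ)) = ⟨x0, hx0⟩ := by
        rw [mul_smul, inv_smul_eq_iff]
        exact h
      have hfix' := congrArg Subtype.val hfix
      rw [hsm] at hfix'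
      obtain ⟨hx0p, hx0q⟩ := (hmemW x0).mp hx0
      have hone : (c' : ↥(MulAction.stabilizer Cfsg.M24 p ⊓ MulAction.stabilizer Cfsg.M24 q))⁻¹ *
          (c : ↥(MulAction.stabilizer Cfsg.M24 p ⊓ MulAction.stabilizer Cfsg.M24 q)) = 1 := by
        apply Subtype.ext
        apply Subtype.ext
        exact gc_ord11_centralizer (((u : ↥P) : ↥(MulAction.stabilizer Cfsg.M24 p ⊓
          MulAction.stabilizer Cfsg.M24 q)) : Cfsg.M24).2
          ((((c' : ↥(MulAction.stabilizer Cfsg.M24 p ⊓ MulAction.stabilizer Cfsg.M24 q))⁻¹ *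
          (c : ↥(MulAction.stabilizer Cfsg.M24 p ⊓ MulAction.stabilizer Cfsg.M24 q)) :
            ↥(MulAction.stabilizer Cfsg.M24 p ⊓ MulAction.stabilizer Cfsg.M24 q)) : Cfsg.M24)).2
          hordP p q x0 hpq hx0p hx0q (hgp _) (hgq _) (hgp _) (hgq _)
          (congrArg (fun z : ↥(MulAction.stabilizer Cfsg.M24 p ⊓ MulAction.stabilizer Cfsg.M24 q) =>
            ((z : Cfsg.M24) : Equiv.Perm Cfsg.GolayPt)) k2) hfix'
      have hcc : (c : ↥(MulAction.stabilizer Cfsg.M24 p ⊓ MulAction.stabilizer Cfsg.M24 q)) =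
          (c' : ↥(MulAction.stabilizer Cfsg.M24 p ⊓ MulAction.stabilizer Cfsg.M24 q)) := by
        have := congrArg (fun t => (c' : ↥(MulAction.stabilizer Cfsg.M24 p ⊓
          MulAction.stabilizer Cfsg.M24 q)) * t) hone
        simpa using this
      exact Subtype.ext hcc
    obtain ⟨c0, hc0⟩ := h11C
    rw [hc0] at hNC hCle
    rw [hN] at hNC
    have hd10 : d ∣ 10 := hd
    have hdle : d ≤ 10 := Nat.le_of_dvd (by norm_num) hd10
    have hr0' : r0 = c0 * d := by
      have : 11 * r0 = 11 * (c0 * d) := by rw [hNC, mul_assoc]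
      exact Nat.eq_of_mul_eq_mul_left (by norm_num) this
    have hc0le : c0 ≤ 2 := by omega
    subst hr0'
    interval_cases c0 <;> interval_cases d <;> omega

end Cfsg.Agent.Lib.Helper7
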