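import Mathlib
import Cfsg.Prelude
import Cfsg.Agent.Lib.Helper7.GolayC48

set_option autoImplicit false

namespace Cfsg.Agent.Lib.Helper7

open scoped Pointwise

/-- an element with prescribed images of the base points lies in a coset of the five-point
stabiliser -/
theorem gc_coset_word5 {g : Equiv.Perm Cfsg.GolayPt} (hg : g ∈ Cfsg.M24) (w0 : List ℕ)
    (t0 t1 t2 t3 t4 : Fin 24)
    (ht : gcEval w0 (gcBase 0) = t0 ∧ gcEval w0 (gcBase 1) = t1 ∧ gcEval w0 (gcBase 2) = t2 ∧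
      gcEval w0 (gcBase 3) = t3 ∧ gcEval w0 (gcBase 4) = t4)
    (h0 : g (gcPt (gcBase 0)) = gcPt t0) (h1 : g (gcPt (gcBase 1)) = gcPt t1)
    (h2 : g (gcPt (gcBase 2)) = gcPt t2) (h3 : g (gcPt (gcBase 3)) = gcPt t3)
    (h4 : g (gcPt (gcBase 4)) = gcPt t4) :
    ∃ u v : Fin 24, (gcO0.testBit u.val = true ∧ gcF5.testBit u.val = false ∧
      gcO0.testBit v.val = false) ∧ g = gcWord (w0 ++ gcW48 u.val v.val) := by
  have h1' : (gcWord w0)⁻¹ * g ∈ Cfsg.M24 := mul_mem (inv_mem (gc_word_mem _)) hg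
  have h2' : ∀ j < 5, ((gcWord w0)⁻¹ * g) (gcPt (gcBase j)) = gcPt (gcBase j) := by
    intro j hj
    rw [Equiv.Perm.mul_apply]
    interval_cases j
    · rw [h0, ← ht.1, ← gc_word_rep]; exact (gcWord w0).symm_apply_apply _
    · rw [h1, ← ht.2.1, ← gc_word_rep]; exact (gcWord w0).symm_apply_apply _
    · rw [h2, ← ht.2.2.1, ← gc_word_rep]; exact (gcWord w0).symm_apply_apply _
    · rw [h3, ← ht.2.2.2.1, ← gc_word_rep]; exact (gcWord w0).symm_apply_apply _
    · rw [h4, ← ht.2.2.2.2, ← gc_word_rep]; exact (gcWord w0).symm_apply_apply _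
  obtain ⟨u, v, huv, he⟩ := gc_g5_word h1' h2'
  refine ⟨u, v, huv, ?_⟩
  rw [gc_word_append, ← he]
  group

theorem gc_conj_apply (k s : Equiv.Perm Cfsg.GolayPt) (q : Cfsg.GolayPt) :
    (k * s * k⁻¹) (k q) = k (s q) := by
  rw [Equiv.Perm.mul_apply, Equiv.Perm.mul_apply]
  show k (s (k.symm (k q))) = k (s q)
  rw [Equiv.symm_apply_apply]

theorem gc_word_eval_eq {W W' : List ℕ} (h : gcWord W = gcWord W') (a : Fin 24) :
    gcEval W a = gcEval W' a := by
  apply gcEquiv.injective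
  show gcPt _ = gcPt _
  rw [← gc_word_rep, ← gc_word_rep, h]

/-- the number of fixed points of a conjugate of a word -/
theorem gc_fix_card_word (k g : Equiv.Perm Cfsg.GolayPt) (W : List ℕ)
    (h : k * g * k⁻¹ = gcWord W) :
    (Finset.univ.filter (fun p => g p = p)).card =
      (Finset.univ.filter (fun a : Fin 24 => gcEval W a = a)).card := by
  have key : ∀ p, gcWord W (k p) = k (g p) := by
    intro p
    rw [← h, gc_conj_apply]
  apply Finset.card_equiv (k.trans gcEquiv.symm)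
  intro p
  rw [Finset.mem_filter, Finset.mem_filter]
  simp only [Finset.mem_univ, true_and]
  show g p = p ↔ gcEval W (gcIdx (k p)) = gcIdx (k p)
  have h1 : gcPt (gcEval W (gcIdx (k p))) = k (g p) := by rw [← gc_word_rep, gc_pt_idx, key]
  constructor
  · intro hp
    apply gcEquiv.injective
    show gcPt _ = gcPt _
    rw [h1, hp, gc_pt_idx]
  · intro hp
    rw [hp, gc_pt_idx] at h1
    exact (k.injective h1).symm

/-- an involution with two fixed points has eight -/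
theorem gc_invol_fix {s : Equiv.Perm Cfsg.GolayPt} (hs : s ∈ Cfsg.M24) (h2 : s * s = 1)
    (hs1 : s ≠ 1) (a b : Cfsg.GolayPt) (hab : a ≠ b) (ha : s a = a) (hb : s b = b) :
    (Finset.univ.filter (fun p => s p = p)).card = 8 := by
  classical
  have hss : ∀ p, s (s p) = p := fun p =>
    congrArg (fun f : Equiv.Perm Cfsg.GolayPt => f p) h2
  obtain ⟨c, hc⟩ : ∃ c, s c ≠ c := by
    by_contra hcon
    push Not at hcon
    exact hs1 (Equiv.ext hcon)
  obtain ⟨d, hd, hdc, hdc'⟩ : ∃ d, s d ≠ d ∧ d ≠ c ∧ d ≠ s c := by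
    by_contra hcon
    push Not at hcon
    apply hs1
    apply gc_fix13 hs ((Finset.univ : Finset Cfsg.GolayPt) \ {c, s c})
    · rw [Finset.card_sdiff_of_subset (Finset.subset_univ _), Finset.card_univ, gc_card_pt]
      have := Finset.card_le_two (a := c) (b := s c)
      omega
    · intro p hp
      rw [Finset.mem_sdiff, Finset.mem_insert, Finset.mem_singleton, not_or] at hp
      by_contra hne
      exact hp.2.2 (hcon p hne hp.2.1)
  have hfm : ∀ f m, s f = f → s m ≠ m → f ≠ m ∧ f ≠ s m := by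
    intro f m hf hm
    constructor
    · rintro rfl
      exact hm hf
    · intro h
      have h1 : s f = m := by rw [h, hss]
      rw [hf] at h1
      exact hm (by rw [← h1]; exact hf)
  obtain ⟨hac, hac'⟩ := hfm a c ha hc
  obtain ⟨had, had'⟩ := hfm a d ha hd
  obtain ⟨hbc, hbc'⟩ := hfm b c hb hc
  obtain ⟨hbd, hbd'⟩ := hfm b d hb hd
  have hcd' : c ≠ s d := by
    intro h
    have h1 : s c = d := by rw [h, hss]
    exact hdc' h1.symm
  have hc'd' : s c ≠ s d := fun h => hdc (s.injective h).symm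
  have hnd : [a, b, c, s c, d].Nodup := by
    simp only [List.nodup_cons, List.mem_cons, List.not_mem_nil, or_false, not_or,
      List.nodup_nil, and_true, not_false_eq_true]
    exact ⟨⟨hab, hac, hac', had⟩, ⟨hbc, hbc', hbd⟩, ⟨Ne.symm hc, Ne.symm hdc⟩, Ne.symm hdc'⟩
  obtain ⟨x5, hx0, hx1, hx2, hx3, hx4⟩ := gc_emb5 a b c (s c) d hnd
  have hy : ∀ i, s d ≠ x5 i := by
    refine gc_forall5 ?_ ?_ ?_ ?_ ?_
    · rw [hx0]; exact Ne.symm had'
    · rw [hx1]; exact Ne.symm hbd'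
    · rw [hx2]; exact Ne.symm hcd'
    · rw [hx3]; exact Ne.symm hc'd'
    · rw [hx4]; exact hd
  obtain ⟨k, hk, hkx, hky⟩ := gc_six_norm x5 (s d) hy
  have hk0 : k a = gcPt (gcBase 0) := by rw [← hx0]; exact hkx 0
  have hk1 : k b = gcPt (gcBase 1) := by rw [← hx1]; exact hkx 1
  have hk2 : k c = gcPt (gcBase 2) := by rw [← hx2]; exact hkx 2
  have hk3 : k (s c) = gcPt (gcBase 3) := by rw [← hx3]; exact hkx 3
  have hk4 : k d = gcPt (gcBase 4) := by rw [← hx4]; exact hkx 4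
  have hmem : k * s * k⁻¹ ∈ Cfsg.M24 := mul_mem (mul_mem hk hs) (inv_mem hk)
  have hsq : (k * s * k⁻¹) * (k * s * k⁻¹) = 1 := by
    have : (k * s * k⁻¹) * (k * s * k⁻¹) = k * (s * s) * k⁻¹ := by group
    rw [this, h2]
    group
  have e0 : (k * s * k⁻¹) (gcPt (gcBase 0)) = gcPt (gcBase 0) := by
    rw [← hk0, gc_conj_apply, ha]
  have e1 : (k * s * k⁻¹) (gcPt (gcBase 1)) = gcPt (gcBase 1) := by
    rw [← hk1, gc_conj_apply, hb]
  have e2 : (k * s * k⁻¹) (gcPt (gcBase 2)) = gcPt (gcBase 3) := by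
    rw [← hk2, gc_conj_apply]; exact hk3
  have e3 : (k * s * k⁻¹) (gcPt (gcBase 3)) = gcPt (gcBase 2) := by
    rw [← hk3, gc_conj_apply, hss]; exact hk2
  have main : ∀ (w0 : List ℕ) (y0 : Fin 24),
      (gcEval w0 (gcBase 0) = gcBase 0 ∧ gcEval w0 (gcBase 1) = gcBase 1 ∧
        gcEval w0 (gcBase 2) = gcBase 3 ∧ gcEval w0 (gcBase 3) = gcBase 2 ∧
        gcEval w0 (gcBase 4) = y0) →
      (∀ u v : Fin 24, gcO0.testBit u.val = true → gcF5.testBit u.val = false →
        gcO0.testBit v.val = false →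
        (∀ a : Fin 24, gcEval (w0 ++ gcW48 u.val v.val) (gcEval (w0 ++ gcW48 u.val v.val) a) = a) →
        (Finset.univ.filter (fun a : Fin 24 => gcEval (w0 ++ gcW48 u.val v.val) a = a)).card
          = 8) →
      k (s d) = gcPt y0 → (Finset.univ.filter (fun p => s p = p)).card = 8 := by
    intro w0 y0 ht htab hy0
    have e4 : (k * s * k⁻¹) (gcPt (gcBase 4)) = gcPt y0 := by
      rw [← hk4, gc_conj_apply]; exact hy0
    obtain ⟨u, v, ⟨hu1, hu2, hv⟩, he⟩ := gc_coset_word5 hmem w0 _ _ _ _ _ ht e0 e1 e2 e3 e4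
    have hinv : ∀ a : Fin 24, gcEval (w0 ++ gcW48 u.val v.val)
        (gcEval (w0 ++ gcW48 u.val v.val) a) = a := by
      intro a
      have h5 : gcWord ((w0 ++ gcW48 u.val v.val) ++ (w0 ++ gcW48 u.val v.val)) = gcWord [] := by
        rw [gc_word_append, ← he, hsq]
        rfl
      have h6 := gc_word_eval_eq h5 a
      rw [gc_eval_append] at h6
      exact h6
    rw [gc_fix_card_word k s _ he]
    exact htab u v hu1 hu2 hv hinv
  rcases hky with h | h
  · exact main gcWI5 5 gc_wi5_tab gc_inv_tab5 h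
  · exact main gcWI4 4 gc_wi4_tab gc_inv_tab4 h

/-- an element of order three with a fixed point has six -/
theorem gc_ord3_fix {x : Equiv.Perm Cfsg.GolayPt} (hx : x ∈ Cfsg.M24) (h3 : x * x * x = 1)
    (hx1 : x ≠ 1) (a0 : Cfsg.GolayPt) (ha0 : x a0 = a0) :
    (Finset.univ.filter (fun p => x p = p)).card = 6 := by
  classical
  have hxxx : ∀ p, x (x (x p)) = p := fun p =>
    congrArg (fun f : Equiv.Perm Cfsg.GolayPt => f p) h3
  haveI : Fact (Nat.Prime 3) := ⟨by norm_num⟩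
  have h1 := Equiv.Perm.card_compl_support_modEq (p := 3) (n := 1) (σ := x)
    (by rw [pow_one, pow_succ, pow_succ, pow_one]; exact h3)
  rw [gc_card_pt] at h1
  have h5 : x.supportᶜ.card % 3 = 0 := h1
  have ha0' : a0 ∈ x.supportᶜ := by
    rw [Finset.mem_compl, Equiv.Perm.notMem_support]; exact ha0
  have h6 : 2 < x.supportᶜ.card := by
    have := Finset.card_pos.mpr ⟨a0, ha0'⟩
    omega
  obtain ⟨a, ha, b, hb, c, hc, hab, hac, hbc⟩ := Finset.two_lt_card.mp h6
  rw [Finset.mem_compl, Equiv.Perm.notMem_support] at ha hb hc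
  obtain ⟨d, hd⟩ : ∃ d, x d ≠ d := by
    by_contra hcon
    push Not at hcon
    exact hx1 (Equiv.ext hcon)
  have hd' : x (x d) ≠ x d := fun h => hd (x.injective h)
  have hd'' : x (x d) ≠ d := by
    intro h
    have h7 := hxxx d
    rw [h] at h7
    exact hd h7
  have hfm : ∀ f, x f = f → f ≠ d ∧ f ≠ x d ∧ f ≠ x (x d) := by
    intro f hf
    refine ⟨?_, ?_, ?_⟩
    · rintro rfl
      exact hd hf
    · intro h
      rw [h] at hf
      exact hd' hf
    · intro h
      rw [h, hxxx] at hf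
      exact hd'' hf.symm
  obtain ⟨had, had', had''⟩ := hfm a ha
  obtain ⟨hbd, hbd', hbd''⟩ := hfm b hb
  obtain ⟨hcd, hcd', hcd''⟩ := hfm c hc
  have hnd : [a, b, c, d, x d].Nodup := by
    simp only [List.nodup_cons, List.mem_cons, List.not_mem_nil, or_false, not_or,
      List.nodup_nil, and_true, not_false_eq_true]
    exact ⟨⟨hab, hac, had, had'⟩, ⟨hbc, hbd, hbd'⟩, ⟨hcd, hcd'⟩, Ne.symm hd⟩
  obtain ⟨x5, hx0, hx1', hx2, hx3, hx4⟩ := gc_emb5 a b c d (x d) hnd
  have hy : ∀ i, x (x d) ≠ x5 i := by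
    refine gc_forall5 ?_ ?_ ?_ ?_ ?_
    · rw [hx0]; exact Ne.symm had''
    · rw [hx1']; exact Ne.symm hbd''
    · rw [hx2]; exact Ne.symm hcd''
    · rw [hx3]; exact hd''
    · rw [hx4]; exact hd'
  obtain ⟨k, hk, hkx, hky⟩ := gc_six_norm x5 (x (x d)) hy
  have hk0 : k a = gcPt (gcBase 0) := by rw [← hx0]; exact hkx 0
  have hk1 : k b = gcPt (gcBase 1) := by rw [← hx1']; exact hkx 1
  have hk2 : k c = gcPt (gcBase 2) := by rw [← hx2]; exact hkx 2
  have hk3 : k d = gcPt (gcBase 3) := by rw [← hx3]; exact hkx 3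
  have hk4 : k (x d) = gcPt (gcBase 4) := by rw [← hx4]; exact hkx 4
  have hmem : k * x * k⁻¹ ∈ Cfsg.M24 := mul_mem (mul_mem hk hx) (inv_mem hk)
  have hcube : (k * x * k⁻¹) * (k * x * k⁻¹) * (k * x * k⁻¹) = 1 := by
    have : (k * x * k⁻¹) * (k * x * k⁻¹) * (k * x * k⁻¹) = k * (x * x * x) * k⁻¹ := by group
    rw [this, h3]
    group
  have e0 : (k * x * k⁻¹) (gcPt (gcBase 0)) = gcPt (gcBase 0) := by
    rw [← hk0, gc_conj_apply, ha]
  have e1 : (k * x * k⁻¹) (gcPt (gcBase 1)) = gcPt (gcBase 1) := by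
    rw [← hk1, gc_conj_apply, hb]
  have e2 : (k * x * k⁻¹) (gcPt (gcBase 2)) = gcPt (gcBase 2) := by
    rw [← hk2, gc_conj_apply, hc]
  have e3 : (k * x * k⁻¹) (gcPt (gcBase 3)) = gcPt (gcBase 4) := by
    rw [← hk3, gc_conj_apply]; exact hk4
  have main : ∀ (w0 : List ℕ) (y0 : Fin 24),
      (gcEval w0 (gcBase 0) = gcBase 0 ∧ gcEval w0 (gcBase 1) = gcBase 1 ∧
        gcEval w0 (gcBase 2) = gcBase 2 ∧ gcEval w0 (gcBase 3) = gcBase 4 ∧
        gcEval w0 (gcBase 4) = y0) →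
      (∀ u v : Fin 24, gcO0.testBit u.val = true → gcF5.testBit u.val = false →
        gcO0.testBit v.val = false →
        (∀ a : Fin 24, gcEval (w0 ++ gcW48 u.val v.val) (gcEval (w0 ++ gcW48 u.val v.val)
          (gcEval (w0 ++ gcW48 u.val v.val) a)) = a) →
        (Finset.univ.filter (fun a : Fin 24 => gcEval (w0 ++ gcW48 u.val v.val) a = a)).card
          = 6) →
      k (x (x d)) = gcPt y0 → (Finset.univ.filter (fun p => x p = p)).card = 6 := by
    intro w0 y0 ht htab hy0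
    have e4 : (k * x * k⁻¹) (gcPt (gcBase 4)) = gcPt y0 := by
      rw [← hk4, gc_conj_apply]; exact hy0
    obtain ⟨u, v, ⟨hu1, hu2, hv⟩, he⟩ := gc_coset_word5 hmem w0 _ _ _ _ _ ht e0 e1 e2 e3 e4
    have hinv : ∀ a : Fin 24, gcEval (w0 ++ gcW48 u.val v.val)
        (gcEval (w0 ++ gcW48 u.val v.val) (gcEval (w0 ++ gcW48 u.val v.val) a)) = a := by
      intro a
      have h5 : gcWord (((w0 ++ gcW48 u.val v.val) ++ (w0 ++ gcW48 u.val v.val)) ++
          (w0 ++ gcW48 u.val v.val)) = gcWord [] := by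
        rw [gc_word_append, gc_word_append, ← he, hcube]
        rfl
      have h6 := gc_word_eval_eq h5 a
      rw [gc_eval_append, gc_eval_append] at h6
      exact h6
    rw [gc_fix_card_word k x _ he]
    exact htab u v hu1 hu2 hv hinv
  rcases hky with h | h
  · exact main gcWT5 5 gc_wt5_tab gc_tri_tab5 h
  · exact main gcWT4 4 gc_wt4_tab gc_tri_tab4 h

end Cfsg.Agent.Lib.Helper7
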