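import Mathlib
import Cfsg.Prelude
import Cfsg.Agent.Lib.Helper7.GolayC49

set_option autoImplicit false

namespace Cfsg.Agent.Lib.Helper7

open scoped Pointwise

/-- a fixed-point-free involution does not commute with an element having exactly six fixed
points -/
theorem gc_comm_excl {x s : Equiv.Perm Cfsg.GolayPt} (hx : x ∈ Cfsg.M24) (hs : s ∈ Cfsg.M24)
    (hx1 : x ≠ 1) (h2 : s * s = 1) (hc : x * s = s * x)
    (h6 : (Finset.univ.filter (fun p => x p = p)).card = 6) (h0 : ∀ p, s p ≠ p) : False := by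
  classical
  have hss : ∀ p, s (s p) = p := fun p =>
    congrArg (fun f : Equiv.Perm Cfsg.GolayPt => f p) h2
  have hxs : ∀ p, x (s p) = s (x p) := fun p =>
    congrArg (fun f : Equiv.Perm Cfsg.GolayPt => f p) hc
  obtain ⟨U, hU⟩ : ∃ U : Finset Cfsg.GolayPt, U = Finset.univ.filter (fun p => x p = p) :=
    ⟨_, rfl⟩
  have hUm : ∀ p, p ∈ U ↔ x p = p := by
    intro p
    rw [hU, Finset.mem_filter]
    simp
  have hUc : U.card = 6 := by rw [hU]; exact h6
  have hsU : ∀ p, p ∈ U → s p ∈ U := by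
    intro p hp
    rw [hUm] at hp ⊢
    rw [hxs, hp]
  obtain ⟨a, haU⟩ : U.Nonempty := Finset.card_pos.mp (by omega)
  have ha' := hsU a haU
  have hb1 : (U \ {a, s a}).Nonempty := by
    rw [← Finset.card_pos]
    have h1 := Finset.le_card_sdiff ({a, s a} : Finset Cfsg.GolayPt) U
    have h2 := Finset.card_le_two (a := a) (b := s a)
    omega
  obtain ⟨b, hb⟩ := hb1
  rw [Finset.mem_sdiff, Finset.mem_insert, Finset.mem_singleton, not_or] at hb
  obtain ⟨hbU, hba, hba'⟩ := hb
  have hb' := hsU b hbU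
  have hc1 : (U \ {a, s a, b, s b}).Nonempty := by
    rw [← Finset.card_pos]
    have h1 := Finset.le_card_sdiff ({a, s a, b, s b} : Finset Cfsg.GolayPt) U
    have h2 : ({a, s a, b, s b} : Finset Cfsg.GolayPt).card ≤ 4 := Finset.card_le_four
    omega
  obtain ⟨c, hcm⟩ := hc1
  rw [Finset.mem_sdiff] at hcm
  simp only [Finset.mem_insert, Finset.mem_singleton, not_or] at hcm
  obtain ⟨hcU, hca, hca', hcb, hcb'⟩ := hcm
  have hc' := hsU c hcU
  have n1 : a ≠ s a := (h0 a).symm
  have n2 : a ≠ b := Ne.symm hba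
  have n3 : a ≠ s b := by
    intro h
    apply hba'
    rw [h, hss]
  have n4 : a ≠ c := Ne.symm hca
  have n5 : s a ≠ b := Ne.symm hba'
  have n6 : s a ≠ s b := fun h => n2 (s.injective h)
  have n7 : s a ≠ c := Ne.symm hca'
  have n8 : b ≠ s b := (h0 b).symm
  have n9 : b ≠ c := Ne.symm hcb
  have n10 : s b ≠ c := Ne.symm hcb'
  have m1 : s c ≠ a := by
    intro h
    apply hca'
    rw [← h, hss]
  have m2 : s c ≠ s a := fun h => hca (s.injective h)
  have m3 : s c ≠ b := by
    intro h
    apply hcb'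
    rw [← h, hss]
  have m4 : s c ≠ s b := fun h => hcb (s.injective h)
  have m5 : s c ≠ c := h0 c
  have hnd6 : ([a, s a, b, s b, c] ++ [s c]).Nodup := by
    simp only [List.cons_append, List.nil_append, List.nodup_cons, List.mem_cons,
      List.not_mem_nil, or_false, not_or, List.nodup_nil, and_true, not_false_eq_true]
    exact ⟨⟨n1, n2, n3, n4, Ne.symm m1⟩, ⟨n5, n6, n7, Ne.symm m2⟩, ⟨n8, n9, Ne.symm m3⟩,
      ⟨n10, Ne.symm m4⟩, Ne.symm m5⟩
  have hnd : [a, s a, b, s b, c].Nodup := (List.nodup_append.mp hnd6).1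
  obtain ⟨x5, hx0, hx1', hx2, hx3, hx4⟩ := gc_emb5 a (s a) b (s b) c hnd
  have hy : ∀ i, s c ≠ x5 i := by
    refine gc_forall5 ?_ ?_ ?_ ?_ ?_
    · rw [hx0]; exact m1
    · rw [hx1']; exact m2
    · rw [hx2]; exact m3
    · rw [hx3]; exact m4
    · rw [hx4]; exact m5
  obtain ⟨k, hk, hkx, hky⟩ := gc_six_norm x5 (s c) hy
  have hk0 : k a = gcPt (gcBase 0) := by rw [← hx0]; exact hkx 0
  have hk1 : k (s a) = gcPt (gcBase 1) := by rw [← hx1']; exact hkx 1
  have hk2 : k b = gcPt (gcBase 2) := by rw [← hx2]; exact hkx 2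
  have hk3 : k (s b) = gcPt (gcBase 3) := by rw [← hx3]; exact hkx 3
  have hk4 : k c = gcPt (gcBase 4) := by rw [← hx4]; exact hkx 4
  have hy4 : k (s c) = gcPt 4 := by
    rcases hky with h | h
    · exfalso
      have h1 := (gc_six_octad x5 (s c) hk hkx).mp (by rw [h]; exact gc_five_in)
      obtain ⟨o, ho, hxo, hyo⟩ := h1
      have hE : ([a, s a, b, s b, c] ++ [s c]).toFinset.card = 6 :=
        (List.toFinset_card_of_nodup hnd6).trans rfl
      have hEo : ([a, s a, b, s b, c] ++ [s c]).toFinset ⊆ o := by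
        intro p hp
        rw [List.mem_toFinset] at hp
        simp only [List.cons_append, List.nil_append, List.mem_cons, List.not_mem_nil,
          or_false] at hp
        rcases hp with rfl | rfl | rfl | rfl | rfl | rfl
        · rw [← hx0]; exact hxo 0
        · rw [← hx1']; exact hxo 1
        · rw [← hx2]; exact hxo 2
        · rw [← hx3]; exact hxo 3
        · rw [← hx4]; exact hxo 4
        · exact hyo
      have hfix : ∀ p ∈ ([a, s a, b, s b, c] ++ [s c]).toFinset, x p = p := by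
        intro p hp
        rw [List.mem_toFinset] at hp
        simp only [List.cons_append, List.nil_append, List.mem_cons, List.not_mem_nil,
          or_false] at hp
        rcases hp with rfl | rfl | rfl | rfl | rfl | rfl
        · exact (hUm _).mp haU
        · exact (hUm _).mp ha'
        · exact (hUm _).mp hbU
        · exact (hUm _).mp hb'
        · exact (hUm _).mp hcU
        · exact (hUm _).mp hc'
      have h7 := gc_six_fix_octad _ hE o ho hEo hx hfix
      have h8 : o ⊆ U := fun p hp => (hUm p).mpr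
        ((mem_fixingSubgroup_iff _).mp (Subgroup.mem_inf.mp h7).2 p (Finset.mem_coe.mpr hp))
      have h9 := Finset.card_le_card h8
      rw [gc_octad_card ho, hUc] at h9
      omega
    · exact h
  have hmem : k * s * k⁻¹ ∈ Cfsg.M24 := mul_mem (mul_mem hk hs) (inv_mem hk)
  have hxmem : k * x * k⁻¹ ∈ Cfsg.M24 := mul_mem (mul_mem hk hx) (inv_mem hk)
  have hsq : (k * s * k⁻¹) * (k * s * k⁻¹) = 1 := by
    have : (k * s * k⁻¹) * (k * s * k⁻¹) = k * (s * s) * k⁻¹ := by group
    rw [this, h2]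
    group
  have e0 : (k * s * k⁻¹) (gcPt (gcBase 0)) = gcPt (gcBase 1) := by
    rw [← hk0, gc_conj_apply]; exact hk1
  have e1 : (k * s * k⁻¹) (gcPt (gcBase 1)) = gcPt (gcBase 0) := by
    rw [← hk1, gc_conj_apply, hss]; exact hk0
  have e2 : (k * s * k⁻¹) (gcPt (gcBase 2)) = gcPt (gcBase 3) := by
    rw [← hk2, gc_conj_apply]; exact hk3
  have e3 : (k * s * k⁻¹) (gcPt (gcBase 3)) = gcPt (gcBase 2) := by
    rw [← hk3, gc_conj_apply, hss]; exact hk2
  have e4 : (k * s * k⁻¹) (gcPt (gcBase 4)) = gcPt 4 := by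
    rw [← hk4, gc_conj_apply]; exact hy4
  obtain ⟨u, v, ⟨hu1, hu2, hv⟩, he⟩ :=
    gc_coset_word5 hmem gcWS _ _ _ _ _ gc_ws_tab e0 e1 e2 e3 e4
  have f0 : (k * x * k⁻¹) (gcPt (gcBase 0)) = gcPt (gcBase 0) := by
    rw [← hk0, gc_conj_apply, (hUm _).mp haU]
  have f1 : (k * x * k⁻¹) (gcPt (gcBase 1)) = gcPt (gcBase 1) := by
    rw [← hk1, gc_conj_apply, (hUm _).mp ha']
  have f2 : (k * x * k⁻¹) (gcPt (gcBase 2)) = gcPt (gcBase 2) := by
    rw [← hk2, gc_conj_apply, (hUm _).mp hbU]
  have f3 : (k * x * k⁻¹) (gcPt (gcBase 3)) = gcPt (gcBase 3) := by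
    rw [← hk3, gc_conj_apply, (hUm _).mp hb']
  have f4 : (k * x * k⁻¹) (gcPt (gcBase 4)) = gcPt (gcBase 4) := by
    rw [← hk4, gc_conj_apply, (hUm _).mp hcU]
  have f5 : (k * x * k⁻¹) (gcPt 4) = gcPt 4 := by
    rw [← hy4, gc_conj_apply, (hUm _).mp hc']
  have hfix5 : ∀ j < 5, (k * x * k⁻¹) (gcPt (gcBase j)) = gcPt (gcBase j) := by
    intro j hj
    interval_cases j
    · exact f0
    · exact f1
    · exact f2
    · exact f3
    · exact f4
  obtain ⟨u', v', ⟨hu1', hu2', hv'⟩, he'⟩ := gc_g5_word hxmem hfix5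
  obtain ⟨t1, t2, t3⟩ := gc_w48_tab u' v' hu1' hu2' hv'
  have hv4 : v' = 4 := by
    have h7 : gcWord (gcW48 u'.val v'.val) (gcPt 4) = gcPt 4 := by rw [← he']; exact f5
    rw [gc_word_rep, t3] at h7
    exact gcEquiv.injective h7
  have hv4n : v'.val = 4 := by rw [hv4]; rfl
  rw [hv4n] at he' t2
  have hu5 : u' ≠ 5 := by
    intro hu'
    rw [hu'] at he' t2
    apply hx1
    have h8 : k * x * k⁻¹ = 1 := by
      apply gc_base7 _ hxmem
      intro a1 ha1
      rcases gc_f1_cases a1 ha1 with h | rfl | rfl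
      · exact gc_fix5 hfix5 a1 h
      · rw [he', gc_word_rep, t2]
      · exact f5
    have h9 : x = k⁻¹ * (k * x * k⁻¹) * k := by group
    rw [h9, h8]
    group
  refine gc_comm_tab u v u' hu1 hu2 hv hu1' hu2' hu5 ?_ ?_ ?_
  · intro a0
    have h5 : gcWord ((gcWS ++ gcW48 u.val v.val) ++ (gcWS ++ gcW48 u.val v.val)) =
        gcWord [] := by
      rw [gc_word_append, ← he, hsq]
      rfl
    have h6 := gc_word_eval_eq h5 a0
    rw [gc_eval_append] at h6
    exact h6
  · intro a0 hfa
    have h9 : (k * s * k⁻¹) (gcPt a0) = gcPt a0 := by rw [he, gc_word_rep, hfa]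
    apply h0 (k⁻¹ (gcPt a0))
    have h10 := gc_conj_apply k s (k⁻¹ (gcPt a0))
    have h11 : k (k⁻¹ (gcPt a0)) = gcPt a0 := k.apply_symm_apply _
    rw [h11, h9] at h10
    apply k.injective
    rw [← h10, h11]
  · intro a0
    have hcomm : (k * s * k⁻¹) * (k * x * k⁻¹) = (k * x * k⁻¹) * (k * s * k⁻¹) := by
      have e1 : (k * s * k⁻¹) * (k * x * k⁻¹) = k * (s * x) * k⁻¹ := by group
      have e2 : (k * x * k⁻¹) * (k * s * k⁻¹) = k * (x * s) * k⁻¹ := by group
      rw [e1, e2, hc]
    rw [he, he', ← gc_word_append, ← gc_word_append] at hcomm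
    have h6 := gc_word_eval_eq hcomm a0
    rw [gc_eval_append (gcWS ++ gcW48 u.val v.val) (gcW48 u'.val 4),
      gc_eval_append (gcW48 u'.val 4) (gcWS ++ gcW48 u.val v.val)] at h6
    exact h6

/-- an element of order three commuting with an involution with eight fixed points has a fixed
point -/
theorem gc_ord3_fixed_in {x s : Equiv.Perm Cfsg.GolayPt} (h3 : x * x * x = 1)
    (hc : x * s = s * x) (h8 : (Finset.univ.filter (fun p => s p = p)).card = 8) :
    ∃ p, x p = p := by
  have hxs : ∀ p, x (s p) = s (x p) := fun p =>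
    congrArg (fun f : Equiv.Perm Cfsg.GolayPt => f p) hc
  have hinv : ∀ p, x p ∈ Finset.univ.filter (fun p => s p = p) ↔
      p ∈ Finset.univ.filter (fun p => s p = p) := by
    intro p
    rw [Finset.mem_filter, Finset.mem_filter]
    simp only [Finset.mem_univ, true_and]
    constructor
    · intro h
      rw [← hxs] at h
      exact x.injective h
    · intro h
      rw [← hxs, h]
  haveI : Fact (Nat.Prime 3) := ⟨by norm_num⟩
  have hσ : (x.subtypePerm hinv) ^ 3 ^ 1 = 1 := by
    rw [pow_one, pow_succ, pow_succ, pow_one]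
    apply Equiv.ext
    intro q
    apply Subtype.ext
    show x (x (x q.val)) = q.val
    exact congrArg (fun f : Equiv.Perm Cfsg.GolayPt => f q.val) h3
  have hcard : ¬ 3 ∣ Fintype.card ↥(Finset.univ.filter (fun p => s p = p)) := by
    rw [Fintype.card_coe, h8]
    norm_num
  obtain ⟨a, ha⟩ := Equiv.Perm.exists_fixed_point_of_prime hcard hσ
  exact ⟨a.val, congrArg Subtype.val ha⟩

theorem gc_s5608 (x s : Equiv.Perm Cfsg.GolayPt) (hx : x ∈ Cfsg.M24) (hs : s ∈ Cfsg.M24)
    (h₃ : orderOf x = 3) (h₂ : orderOf s = 2) (hc : Commute x s) :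
    ((Finset.univ.filter fun p => x p = p).card = 6 ∧
      (Finset.univ.filter fun p => s p = p).card = 8) ∨
    ((Finset.univ.filter fun p => x p = p).card = 0 ∧
      (Finset.univ.filter fun p => s p = p).card = 0) := by
  have hx3 : x * x * x = 1 := by
    have := pow_orderOf_eq_one x
    rw [h₃, pow_succ, pow_succ, pow_one] at this
    exact this
  have hs2 : s * s = 1 := by
    have := pow_orderOf_eq_one s
    rw [h₂, pow_succ, pow_one] at this
    exact this
  have hx1 : x ≠ 1 := by
    rintro rfl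
    rw [orderOf_one] at h₃
    exact absurd h₃ (by norm_num)
  have hs1 : s ≠ 1 := by
    rintro rfl
    rw [orderOf_one] at h₂
    exact absurd h₂ (by norm_num)
  have hc' : x * s = s * x := hc
  have hfs : (Finset.univ.filter fun p => s p = p).card = 8 ∨
      (Finset.univ.filter fun p => s p = p).card = 0 := by
    by_cases h : 1 < (Finset.univ.filter fun p => s p = p).card
    · obtain ⟨a, ha, b, hb, hab⟩ := Finset.one_lt_card.mp h
      rw [Finset.mem_filter] at ha hb
      exact Or.inl (gc_invol_fix hs hs2 hs1 a b hab ha.2 hb.2)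
    · right
      haveI : Fact (Nat.Prime 2) := ⟨by norm_num⟩
      have h1 := Equiv.Perm.card_compl_support_modEq (p := 2) (n := 1) (σ := s)
        (by rw [pow_one, pow_succ, pow_one]; exact hs2)
      rw [gc_card_pt] at h1
      have e : s.supportᶜ = Finset.univ.filter fun p => s p = p := by
        ext p
        rw [Finset.mem_compl, Equiv.Perm.notMem_support, Finset.mem_filter]
        simp
      rw [e] at h1
      have h5 : (Finset.univ.filter fun p => s p = p).card % 2 = 0 := h1
      omega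
  have hfx : (Finset.univ.filter fun p => x p = p).card = 6 ∨
      (Finset.univ.filter fun p => x p = p).card = 0 := by
    by_cases h : 0 < (Finset.univ.filter fun p => x p = p).card
    · obtain ⟨a, ha⟩ := Finset.card_pos.mp h
      rw [Finset.mem_filter] at ha
      exact Or.inl (gc_ord3_fix hx hx3 hx1 a ha.2)
    · right
      omega
  rcases hfx with h6 | h0 <;> rcases hfs with h8 | h0'
  · exact Or.inl ⟨h6, h8⟩
  · exfalso
    apply gc_comm_excl hx hs hx1 hs2 hc' h6
    intro p hp
    have h9 : p ∈ Finset.univ.filter fun p => s p = p := by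
      rw [Finset.mem_filter]
      exact ⟨Finset.mem_univ _, hp⟩
    rw [Finset.card_eq_zero.mp h0'] at h9
    exact absurd h9 (Finset.notMem_empty _)
  · exfalso
    obtain ⟨p, hp⟩ := gc_ord3_fixed_in hx3 hc' h8
    have h9 : p ∈ Finset.univ.filter fun p => x p = p := by
      rw [Finset.mem_filter]
      exact ⟨Finset.mem_univ _, hp⟩
    rw [Finset.card_eq_zero.mp h0] at h9
    exact absurd h9 (Finset.notMem_empty _)
  · exact Or.inr ⟨h0, h0'⟩

end Cfsg.Agent.Lib.Helper7
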