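import Mathlib
import Cfsg.Prelude
import Cfsg.Agent.Lib.Helper7.GolayC50

set_option autoImplicit false

namespace Cfsg.Agent.Lib.Helper7

open scoped Pointwise

/-- a word sending the base points to `b1, b2, b0, b4, 4` -/
def gcWF4 : List ℕ := [0, 1, 0, 2, 0, 0, 2, 2, 0, 2, 2, 2, 2, 0, 2, 2, 1, 2, 2, 0, 1, 1, 2, 0, 0, 0, 0, 0, 2, 0, 2, 0, 0, 0, 0, 0, 2]

/-- a word sending the base points to `b1, b2, b0, b4, 5` -/
def gcWF5 : List ℕ := [2, 0, 0, 0, 1, 2, 0, 2, 0, 0, 1, 2, 0, 1, 2, 2, 0, 1, 0, 2, 0, 0, 1, 0, 2, 0, 2, 0, 2, 2, 2, 0, 2, 0, 2]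

/-- conjugating words -/
def gcCJ (u : ℕ) : List ℕ :=
  if u = 5 then [1, 1]
  else if u = 14 then [1, 0, 2, 0, 2, 0, 0, 1, 0, 2, 0, 2, 0, 2, 0, 1, 0, 2, 0, 2, 0, 2, 0, 0, 2, 0, 2, 0, 2]
  else [2, 2, 0, 2, 2, 0, 2, 2, 0, 2, 0, 0, 0, 2, 0, 2, 2, 2, 2, 0, 2, 0, 0, 1, 2, 0, 2, 0, 2, 0, 1, 2, 0, 0, 0]

/-- the reference fixed-point-free element of order three -/
def gcX0w : List ℕ := gcWF4 ++ gcW48 5 10

/-- the reference element of order three with six fixed points -/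
def gcX6w : List ℕ := gcW48 14 4

theorem gc_wf4_tab : gcEval gcWF4 (gcBase 0) = gcBase 1 ∧ gcEval gcWF4 (gcBase 1) = gcBase 2 ∧
    gcEval gcWF4 (gcBase 2) = gcBase 0 ∧ gcEval gcWF4 (gcBase 3) = gcBase 4 ∧
    gcEval gcWF4 (gcBase 4) = 4 := by
  decide +kernel

theorem gc_wf5_tab : gcEval gcWF5 (gcBase 0) = gcBase 1 ∧ gcEval gcWF5 (gcBase 1) = gcBase 2 ∧
    gcEval gcWF5 (gcBase 2) = gcBase 0 ∧ gcEval gcWF5 (gcBase 3) = gcBase 4 ∧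
    gcEval gcWF5 (gcBase 4) = 5 := by
  decide +kernel

theorem gc_fpf_tab5 : ∀ u v : Fin 24, gcO0.testBit u.val = true → gcF5.testBit u.val = false →
    gcO0.testBit v.val = false →
    (∀ a : Fin 24, gcEval (gcWF5 ++ gcW48 u.val v.val) (gcEval (gcWF5 ++ gcW48 u.val v.val)
      (gcEval (gcWF5 ++ gcW48 u.val v.val) a)) = a) →
    ¬ (∀ a : Fin 24, gcEval (gcWF5 ++ gcW48 u.val v.val) a ≠ a) := by
  decide +kernel

theorem gc_fpf_tab4 : ∀ u v : Fin 24, gcO0.testBit u.val = true → gcF5.testBit u.val = false →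
    gcO0.testBit v.val = false →
    (∀ a : Fin 24, gcEval (gcWF4 ++ gcW48 u.val v.val) (gcEval (gcWF4 ++ gcW48 u.val v.val)
      (gcEval (gcWF4 ++ gcW48 u.val v.val) a)) = a) →
    (∀ a : Fin 24, gcEval (gcWF4 ++ gcW48 u.val v.val) a ≠ a) →
    ∀ a : Fin 24, gcEval (gcCJ u.val ++ (gcWF4 ++ gcW48 u.val v.val)) a =
      gcEval (gcX0w ++ gcCJ u.val) a := by
  decide +kernel

theorem gc_x0_tab : (∀ a : Fin 24, gcEval gcX0w (gcEval gcX0w (gcEval gcX0w a)) = a) ∧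
    (∀ a : Fin 24, gcEval gcX0w a ≠ a) := by
  decide +kernel

theorem gc_x6_tab : (∀ a : Fin 24, gcEval gcX6w (gcEval gcX6w (gcEval gcX6w a)) = a) ∧
    (Finset.univ.filter (fun a : Fin 24 => gcEval gcX6w a = a)).card = 6 := by
  decide +kernel

end Cfsg.Agent.Lib.Helper7
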