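import Mathlib
import Cfsg.Prelude
import Cfsg.Agent.Lib.Helper7.GolayC51
import Cfsg.Agent.Lib.Helper7.Compl

set_option autoImplicit false

namespace Cfsg.Agent.Lib.Helper7

open scoped Pointwise

theorem gc_word_eq_of_eval {W W' : List ℕ} (h : ∀ a : Fin 24, gcEval W a = gcEval W' a) :
    gcWord W = gcWord W' := by
  apply Equiv.ext
  intro p
  obtain ⟨a, rfl⟩ := gcEquiv.surjective p
  show gcWord W (gcPt a) = gcWord W' (gcPt a)
  rw [gc_word_rep, gc_word_rep, h]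

theorem gc_word_cube {W : List ℕ}
    (h : ∀ a : Fin 24, gcEval W (gcEval W (gcEval W a)) = a) :
    gcWord W * gcWord W * gcWord W = 1 := by
  rw [← gc_word_append, ← gc_word_append]
  have e : gcWord (W ++ W ++ W) = gcWord [] := by
    apply gc_word_eq_of_eval
    intro a
    rw [gc_eval_append (W ++ W) W, gc_eval_append W W]
    exact h a
  rw [e]
  rfl

theorem gc_conj_zpowers {G : Type*} [Group G] [Finite G] (x y κ : G)
    (hcard : Nat.card (Subgroup.zpowers y) ≤ Nat.card (Subgroup.zpowers x))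
    (h : κ * x * κ⁻¹ ∈ Subgroup.zpowers y) :
    MulAut.conj κ • Subgroup.zpowers x = Subgroup.zpowers y := by
  apply Subgroup.eq_of_le_of_card_ge
  · intro z hz
    rw [mem_conj_smul_iff] at hz
    obtain ⟨n, hn⟩ := Subgroup.mem_zpowers_iff.mp hz
    have e : z = (κ * x * κ⁻¹) ^ n := by
      rw [conj_zpow, hn]
      group
    rw [e]
    exact Subgroup.zpow_mem _ h n
  · rw [card_conj_smul]
    exact hcard

/-- the fixed points of a cyclic subgroup -/
theorem gc_fix_zpowers (g : Equiv.Perm Cfsg.GolayPt) (hg : g ∈ Cfsg.M24) :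
    {p : Cfsg.GolayPt | ∀ y ∈ Subgroup.zpowers (⟨g, hg⟩ : ↥Cfsg.M24),
      ((y : ↥Cfsg.M24) : Equiv.Perm Cfsg.GolayPt) p = p}.ncard =
      (Finset.univ.filter (fun p => g p = p)).card := by
  have e : {p : Cfsg.GolayPt | ∀ y ∈ Subgroup.zpowers (⟨g, hg⟩ : ↥Cfsg.M24),
      ((y : ↥Cfsg.M24) : Equiv.Perm Cfsg.GolayPt) p = p} =
      ↑(Finset.univ.filter (fun p => g p = p)) := by
    ext p
    rw [Set.mem_setOf_eq, Finset.mem_coe, Finset.mem_filter]
    simp only [Finset.mem_univ, true_and]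
    constructor
    · intro h
      exact h ⟨g, hg⟩ (Subgroup.mem_zpowers _)
    · intro h y hy
      obtain ⟨n, rfl⟩ := Subgroup.mem_zpowers_iff.mp hy
      rw [Subgroup.coe_zpow]
      exact Equiv.Perm.zpow_apply_eq_self_of_apply_eq_self h n
  rw [e, Set.ncard_coe_finset]

theorem gc_zpowers_card3 (g : Equiv.Perm Cfsg.GolayPt) (hg : g ∈ Cfsg.M24) (h1 : g ≠ 1)
    (h3 : g * g * g = 1) : Nat.card (Subgroup.zpowers (⟨g, hg⟩ : ↥Cfsg.M24)) = 3 := by
  rw [Nat.card_zpowers]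
  apply orderOf_eq_prime
  · apply Subtype.ext
    rw [pow_succ, pow_succ, pow_one]
    exact h3
  · intro h
    exact h1 (congrArg Subtype.val h)

/-- a generator of a subgroup of order three -/
theorem gc_sub3_gen (X : Subgroup ↥Cfsg.M24) (hX : Nat.card X = 3) :
    ∃ (x : Equiv.Perm Cfsg.GolayPt) (hx : x ∈ Cfsg.M24), x ≠ 1 ∧ x * x * x = 1 ∧
      X = Subgroup.zpowers (⟨x, hx⟩ : ↥Cfsg.M24) := by
  haveI : Fact (Nat.Prime 3) := ⟨by norm_num⟩
  haveI : Nontrivial ↥X := Finite.one_lt_card_iff_nontrivial.mp (by rw [hX]; norm_num)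
  obtain ⟨u, hu⟩ := exists_ne (1 : ↥X)
  have hzp := zpowers_eq_top_of_prime_card hX hu
  have hu3 : u ^ 3 = 1 := by
    have := pow_card_eq_one' (G := ↥X) (x := u)
    rwa [hX] at this
  refine ⟨((u : ↥Cfsg.M24) : Equiv.Perm Cfsg.GolayPt), (u : ↥Cfsg.M24).2, ?_, ?_, ?_⟩
  · intro h
    exact hu (Subtype.ext (Subtype.ext h))
  · have h1 := congrArg (fun z : ↥X => ((z : ↥Cfsg.M24) : Equiv.Perm Cfsg.GolayPt)) hu3
    rw [pow_succ, pow_succ, pow_one] at h1
    exact h1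
  · apply le_antisymm
    · intro y hy
      have h1 : (⟨y, hy⟩ : ↥X) ∈ Subgroup.zpowers u := by rw [hzp]; exact Subgroup.mem_top _
      obtain ⟨n, hn⟩ := Subgroup.mem_zpowers_iff.mp h1
      rw [Subgroup.mem_zpowers_iff]
      refine ⟨n, ?_⟩
      have h2 := congrArg (fun z : ↥X => (z : ↥Cfsg.M24)) hn
      simpa using h2
    · rw [Subgroup.zpowers_le]
      exact u.2

/-- a fixed-point-free element of order three is conjugate to the reference one -/
theorem gc_fpf3_conj {x : Equiv.Perm Cfsg.GolayPt} (hx : x ∈ Cfsg.M24) (h3 : x * x * x = 1)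
    (h0 : ∀ p, x p ≠ p) : ∃ κ ∈ Cfsg.M24, κ * x * κ⁻¹ = gcWord gcX0w := by
  classical
  have hxxx : ∀ p, x (x (x p)) = p := fun p =>
    congrArg (fun f : Equiv.Perm Cfsg.GolayPt => f p) h3
  obtain ⟨a⟩ : Nonempty Cfsg.GolayPt := ⟨none⟩
  have hlt : ({a, x a, x (x a)} : Finset Cfsg.GolayPt).card <
      (Finset.univ : Finset Cfsg.GolayPt).card := by
    rw [Finset.card_univ, gc_card_pt]
    exact lt_of_le_of_lt Finset.card_le_three (by norm_num)
  obtain ⟨b, _, hb⟩ := Finset.exists_mem_notMem_of_card_lt_card hlt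
  simp only [Finset.mem_insert, Finset.mem_singleton, not_or] at hb
  obtain ⟨hba, hba', hba''⟩ := hb
  have hne2 : ∀ p, p ≠ x (x p) := by
    intro p h
    have h1 := hxxx p
    rw [← h] at h1
    exact h0 p h1
  have n1 : a ≠ x a := (h0 a).symm
  have n2 : a ≠ x (x a) := hne2 a
  have n3 : a ≠ b := Ne.symm hba
  have n4 : a ≠ x b := by
    intro h
    apply hba''
    rw [h, hxxx]
  have n5 : x a ≠ x (x a) := fun h => n1 (x.injective h)
  have n6 : x a ≠ b := Ne.symm hba'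
  have n7 : x a ≠ x b := fun h => n3 (x.injective h)
  have n8 : x (x a) ≠ b := Ne.symm hba''
  have n9 : x (x a) ≠ x b := fun h => n6 (x.injective h)
  have n10 : b ≠ x b := (h0 b).symm
  have m1 : x (x b) ≠ a := by
    intro h
    apply hba'
    rw [← h, hxxx]
  have m2 : x (x b) ≠ x a := fun h => n4 (x.injective h).symm
  have m3 : x (x b) ≠ x (x a) := fun h => n3 (x.injective (x.injective h)).symm
  have m4 : x (x b) ≠ b := (hne2 b).symm
  have m5 : x (x b) ≠ x b := fun h => n10 (x.injective h).symm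
  have hnd : [a, x a, x (x a), b, x b].Nodup := by
    simp only [List.nodup_cons, List.mem_cons, List.not_mem_nil, or_false, not_or,
      List.nodup_nil, and_true, not_false_eq_true]
    exact ⟨⟨n1, n2, n3, n4⟩, ⟨n5, n6, n7⟩, ⟨n8, n9⟩, n10⟩
  obtain ⟨x5, hx0, hx1', hx2, hx3, hx4⟩ := gc_emb5 a (x a) (x (x a)) b (x b) hnd
  have hy : ∀ i, x (x b) ≠ x5 i := by
    refine gc_forall5 ?_ ?_ ?_ ?_ ?_
    · rw [hx0]; exact m1
    · rw [hx1']; exact m2
    · rw [hx2]; exact m3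
    · rw [hx3]; exact m4
    · rw [hx4]; exact m5
  obtain ⟨k, hk, hkx, hky⟩ := gc_six_norm x5 (x (x b)) hy
  have hk0 : k a = gcPt (gcBase 0) := by rw [← hx0]; exact hkx 0
  have hk1 : k (x a) = gcPt (gcBase 1) := by rw [← hx1']; exact hkx 1
  have hk2 : k (x (x a)) = gcPt (gcBase 2) := by rw [← hx2]; exact hkx 2
  have hk3 : k b = gcPt (gcBase 3) := by rw [← hx3]; exact hkx 3
  have hk4 : k (x b) = gcPt (gcBase 4) := by rw [← hx4]; exact hkx 4
  have hmem : k * x * k⁻¹ ∈ Cfsg.M24 := mul_mem (mul_mem hk hx) (inv_mem hk)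
  have hcube : (k * x * k⁻¹) * (k * x * k⁻¹) * (k * x * k⁻¹) = 1 := by
    have : (k * x * k⁻¹) * (k * x * k⁻¹) * (k * x * k⁻¹) = k * (x * x * x) * k⁻¹ := by group
    rw [this, h3]
    group
  have e0 : (k * x * k⁻¹) (gcPt (gcBase 0)) = gcPt (gcBase 1) := by
    rw [← hk0, gc_conj_apply]; exact hk1
  have e1 : (k * x * k⁻¹) (gcPt (gcBase 1)) = gcPt (gcBase 2) := by
    rw [← hk1, gc_conj_apply]; exact hk2
  have e2 : (k * x * k⁻¹) (gcPt (gcBase 2)) = gcPt (gcBase 0) := by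
    rw [← hk2, gc_conj_apply, hxxx]; exact hk0
  have e3 : (k * x * k⁻¹) (gcPt (gcBase 3)) = gcPt (gcBase 4) := by
    rw [← hk3, gc_conj_apply]; exact hk4
  have hfpf : ∀ q, (k * x * k⁻¹) q ≠ q := by
    intro q hq
    apply h0 (k⁻¹ q)
    have h10 := gc_conj_apply k x (k⁻¹ q)
    have h11 : k (k⁻¹ q) = q := k.apply_symm_apply _
    rw [h11, hq] at h10
    apply k.injective
    rw [← h10, h11]
  have cubeW : ∀ W : List ℕ, k * x * k⁻¹ = gcWord W →
      ∀ a : Fin 24, gcEval W (gcEval W (gcEval W a)) = a := by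
    intro W he a1
    have h5 : gcWord ((W ++ W) ++ W) = gcWord [] := by
      rw [gc_word_append, gc_word_append, ← he, hcube]
      rfl
    have h6 := gc_word_eval_eq h5 a1
    rw [gc_eval_append (W ++ W) W, gc_eval_append W W] at h6
    exact h6
  have fpfW : ∀ W : List ℕ, k * x * k⁻¹ = gcWord W → ∀ a : Fin 24, gcEval W a ≠ a := by
    intro W he a1 h
    apply hfpf (gcPt a1)
    rw [he, gc_word_rep, h]
  rcases hky with h | h
  · exfalso
    have e4 : (k * x * k⁻¹) (gcPt (gcBase 4)) = gcPt 5 := by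
      rw [← hk4, gc_conj_apply]; exact h
    obtain ⟨u, v, ⟨hu1, hu2, hv⟩, he⟩ :=
      gc_coset_word5 hmem gcWF5 _ _ _ _ _ gc_wf5_tab e0 e1 e2 e3 e4
    exact gc_fpf_tab5 u v hu1 hu2 hv (cubeW _ he) (fpfW _ he)
  · have e4 : (k * x * k⁻¹) (gcPt (gcBase 4)) = gcPt 4 := by
      rw [← hk4, gc_conj_apply]; exact h
    obtain ⟨u, v, ⟨hu1, hu2, hv⟩, he⟩ :=
      gc_coset_word5 hmem gcWF4 _ _ _ _ _ gc_wf4_tab e0 e1 e2 e3 e4
    have h7 := gc_word_eq_of_eval (gc_fpf_tab4 u v hu1 hu2 hv (cubeW _ he) (fpfW _ he))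
    rw [gc_word_append, gc_word_append gcX0w, ← he] at h7
    refine ⟨gcWord (gcCJ u.val) * k, mul_mem (gc_word_mem _) hk, ?_⟩
    have h8 : gcWord (gcCJ u.val) * k * x * (gcWord (gcCJ u.val) * k)⁻¹ =
        gcWord (gcCJ u.val) * (k * x * k⁻¹) * (gcWord (gcCJ u.val))⁻¹ := by group
    rw [h8, h7]
    group

/-- an element with exactly six fixed points is conjugate into the standard group of order 3 -/
theorem gc_fix6_conj {x : Equiv.Perm Cfsg.GolayPt} (hx : x ∈ Cfsg.M24)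
    (h6 : (Finset.univ.filter (fun p => x p = p)).card = 6) :
    ∃ κ ∈ Cfsg.M24, κ * x * κ⁻¹ ∈ Cfsg.M24 ⊓ fixingSubgroup (Equiv.Perm Cfsg.GolayPt)
      ((gcSet gcF6b : Finset Cfsg.GolayPt) : Set Cfsg.GolayPt) := by
  have hfixU : ∀ p ∈ Finset.univ.filter (fun p => x p = p), x p = p :=
    fun p hp => (Finset.mem_filter.mp hp).2
  have e : Fin 6 ≃ ↥(Finset.univ.filter (fun p => x p = p)) := (Finset.equivFinOfCardEq h6).symm
  obtain ⟨x5, y6, _, _, hne, hmem⟩ := gc_six_enum _ e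
  obtain ⟨k, hk, hkx, hky⟩ := gc_six_norm x5 y6 hne
  have h1 := (gc_six_octad x5 y6 hk hkx).trans (gc_six_iff _ x5 y6 hmem)
  have hno : ¬ ∃ o ∈ Cfsg.octads, Finset.univ.filter (fun p => x p = p) ⊆ o := by
    rintro ⟨o, ho, hUo⟩
    have h7 := gc_six_fix_octad _ h6 o ho hUo hx hfixU
    have h8 : o ⊆ Finset.univ.filter (fun p => x p = p) := fun p hp =>
      Finset.mem_filter.mpr ⟨Finset.mem_univ _,
        (mem_fixingSubgroup_iff _).mp (Subgroup.mem_inf.mp h7).2 p (Finset.mem_coe.mpr hp)⟩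
    have h9 := Finset.card_le_card h8
    rw [gc_octad_card ho, h6] at h9
    omega
  have h4 : k y6 = gcPt 4 := by
    rcases hky with h | h
    · rw [h] at h1
      exact absurd (h1.mp gc_five_in) hno
    · exact h
  have h3 := gc_six_image x5 y6 k hkx 4 h4 _ hmem gcF6b gc_f6b_tab
  have hxU : x ∈ Cfsg.M24 ⊓ fixingSubgroup (Equiv.Perm Cfsg.GolayPt)
      ((Finset.univ.filter (fun p => x p = p) : Finset Cfsg.GolayPt) : Set Cfsg.GolayPt) :=
    Subgroup.mem_inf.mpr ⟨hx, (mem_fixingSubgroup_iff _).mpr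
      (fun p hp => hfixU p (Finset.mem_coe.mp hp))⟩
  have hk' : k⁻¹ • gcSet gcF6b = Finset.univ.filter (fun p => x p = p) := by
    rw [← h3, inv_smul_smul]
  have h6' := gc_fix_conj (inv_mem hk) (gcSet gcF6b) _ hk' hxU
  rw [inv_inv] at h6'
  exact ⟨k, hk, h6'⟩

/-- two elements of order three with the same number of fixed points generate conjugate
subgroups -/
theorem gc_ord3_conj {x y : Equiv.Perm Cfsg.GolayPt} (hx : x ∈ Cfsg.M24) (hy : y ∈ Cfsg.M24)
    (hx1 : x ≠ 1) (hy1 : y ≠ 1) (hx3 : x * x * x = 1) (hy3 : y * y * y = 1)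
    (hc : (Finset.univ.filter (fun p => x p = p)).card =
      (Finset.univ.filter (fun p => y p = p)).card) :
    ∃ κ ∈ Cfsg.M24, ∃ n : ℤ, κ * x * κ⁻¹ = y ^ n := by
  by_cases h : 0 < (Finset.univ.filter (fun p => x p = p)).card
  · obtain ⟨a, ha⟩ := Finset.card_pos.mp h
    have h6 := gc_ord3_fix hx hx3 hx1 a (Finset.mem_filter.mp ha).2
    have h6' : (Finset.univ.filter (fun p => y p = p)).card = 6 := by rw [← hc, h6]
    obtain ⟨κ1, hκ1, hg1⟩ := gc_fix6_conj hx h6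
    obtain ⟨κ2, hκ2, hg2⟩ := gc_fix6_conj hy h6'
    haveI : Fact (Nat.Prime 3) := ⟨by norm_num⟩
    have hne : (⟨κ2 * y * κ2⁻¹, hg2⟩ : ↥(Cfsg.M24 ⊓ fixingSubgroup (Equiv.Perm Cfsg.GolayPt)
        ((gcSet gcF6b : Finset Cfsg.GolayPt) : Set Cfsg.GolayPt))) ≠ 1 := by
      intro h1
      have h2 : κ2 * y * κ2⁻¹ = 1 := congrArg Subtype.val h1
      apply hy1
      have h3 : y = κ2⁻¹ * (κ2 * y * κ2⁻¹) * κ2 := by group
      rw [h3, h2]
      group
    have hzp := zpowers_eq_top_of_prime_card gc_f6b_fix_card hne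
    have hmem : (⟨κ1 * x * κ1⁻¹, hg1⟩ : ↥(Cfsg.M24 ⊓ fixingSubgroup (Equiv.Perm Cfsg.GolayPt)
        ((gcSet gcF6b : Finset Cfsg.GolayPt) : Set Cfsg.GolayPt))) ∈
        Subgroup.zpowers (⟨κ2 * y * κ2⁻¹, hg2⟩ : ↥(Cfsg.M24 ⊓
          fixingSubgroup (Equiv.Perm Cfsg.GolayPt)
          ((gcSet gcF6b : Finset Cfsg.GolayPt) : Set Cfsg.GolayPt))) := by
      rw [hzp]
      exact Subgroup.mem_top _
    obtain ⟨n, hn⟩ := Subgroup.mem_zpowers_iff.mp hmem
    have hn' : (κ2 * y * κ2⁻¹) ^ n = κ1 * x * κ1⁻¹ := by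
      have := congrArg Subtype.val hn
      rwa [Subgroup.coe_zpow] at this
    refine ⟨κ2⁻¹ * κ1, mul_mem (inv_mem hκ2) hκ1, n, ?_⟩
    have e1 : κ2⁻¹ * κ1 * x * (κ2⁻¹ * κ1)⁻¹ = κ2⁻¹ * (κ1 * x * κ1⁻¹) * κ2 := by group
    rw [e1, ← hn', conj_zpow]
    group
  · have h0 : (Finset.univ.filter (fun p => x p = p)).card = 0 := by omega
    have h0' : (Finset.univ.filter (fun p => y p = p)).card = 0 := by rw [← hc, h0]
    have hfx : ∀ p, x p ≠ p := by
      intro p hp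
      have h9 : p ∈ Finset.univ.filter fun p => x p = p := by
        rw [Finset.mem_filter]
        exact ⟨Finset.mem_univ _, hp⟩
      rw [Finset.card_eq_zero.mp h0] at h9
      exact absurd h9 (Finset.notMem_empty _)
    have hfy : ∀ p, y p ≠ p := by
      intro p hp
      have h9 : p ∈ Finset.univ.filter fun p => y p = p := by
        rw [Finset.mem_filter]
        exact ⟨Finset.mem_univ _, hp⟩
      rw [Finset.card_eq_zero.mp h0'] at h9
      exact absurd h9 (Finset.notMem_empty _)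
    obtain ⟨κ1, hκ1, hg1⟩ := gc_fpf3_conj hx hx3 hfx
    obtain ⟨κ2, hκ2, hg2⟩ := gc_fpf3_conj hy hy3 hfy
    refine ⟨κ2⁻¹ * κ1, mul_mem (inv_mem hκ2) hκ1, 1, ?_⟩
    have e1 : κ2⁻¹ * κ1 * x * (κ2⁻¹ * κ1)⁻¹ = κ2⁻¹ * (κ1 * x * κ1⁻¹) * κ2 := by group
    rw [e1, hg1, ← hg2, zpow_one]
    group

theorem gc_s5601 : (∀ X : Subgroup ↥Cfsg.M24, Nat.card X = 3 → {p : Cfsg.GolayPt | ∀ x ∈ X, ((x : ↥Cfsg.M24) : Equiv.Perm Cfsg.GolayPt) p = p}.ncard = 6 ∨ {p : Cfsg.GolayPt | ∀ x ∈ X, ((x : ↥Cfsg.M24) : Equiv.Perm Cfsg.GolayPt) p = p}.ncard = 0) ∧ (∃ X : Subgroup ↥Cfsg.M24, Nat.card X = 3 ∧ {p : Cfsg.GolayPt | ∀ x ∈ X, ((x : ↥Cfsg.M24) : Equiv.Perm Cfsg.GolayPt) p = p}.ncard = 6) ∧ (∃ X : Subgroup ↥Cfsg.M24, Nat.card X = 3 ∧ {p : Cfsg.GolayPt | ∀ x ∈ X, ((x : ↥Cfsg.M24) : Equiv.Perm Cfsg.GolayPt) p = p}.ncard = 0) ∧ ∀ X Y : Subgroup ↥Cfsg.M24, Nat.card X = 3 → Nat.card Y = 3 → {p : Cfsg.GolayPt | ∀ x ∈ X, ((x : ↥Cfsg.M24)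 : Equiv.Perm Cfsg.GolayPt) p = p}.ncard = {p : Cfsg.GolayPt | ∀ x ∈ Y, ((x : ↥Cfsg.M24) : Equiv.Perm Cfsg.GolayPt) p = p}.ncard → ∃ k : ↥Cfsg.M24, MulAut.conj k • X = Y := by
  refine ⟨?_, ?_, ?_, ?_⟩
  · intro X hX
    obtain ⟨x, hx, hx1, hx3, rfl⟩ := gc_sub3_gen X hX
    rw [gc_fix_zpowers]
    by_cases h : 0 < (Finset.univ.filter (fun p => x p = p)).card
    · obtain ⟨a, ha⟩ := Finset.card_pos.mp h
      exact Or.inl (gc_ord3_fix hx hx3 hx1 a (Finset.mem_filter.mp ha).2)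
    · right
      omega
  · have h3 := gc_word_cube gc_x6_tab.1
    have hfix : (Finset.univ.filter (fun p => gcWord gcX6w p = p)).card = 6 := by
      rw [gc_fix_card_word 1 (gcWord gcX6w) gcX6w (by group)]
      exact gc_x6_tab.2
    have h1 : gcWord gcX6w ≠ 1 := by
      intro h
      rw [h] at hfix
      have : (Finset.univ.filter (fun p : Cfsg.GolayPt => (1 : Equiv.Perm Cfsg.GolayPt) p = p)) =
          Finset.univ := by
        ext p
        simp
      rw [this, Finset.card_univ, gc_card_pt] at hfix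
      omega
    refine ⟨Subgroup.zpowers (⟨gcWord gcX6w, gc_word_mem _⟩ : ↥Cfsg.M24),
      gc_zpowers_card3 _ _ h1 h3, ?_⟩
    rw [gc_fix_zpowers]
    exact hfix
  · have h3 := gc_word_cube gc_x0_tab.1
    have hfix : (Finset.univ.filter (fun p => gcWord gcX0w p = p)).card = 0 := by
      rw [gc_fix_card_word 1 (gcWord gcX0w) gcX0w (by group), Finset.card_eq_zero,
        Finset.filter_eq_empty_iff]
      intro a _
      exact gc_x0_tab.2 a
    have h1 : gcWord gcX0w ≠ 1 := by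
      intro h
      rw [h] at hfix
      have : (Finset.univ.filter (fun p : Cfsg.GolayPt => (1 : Equiv.Perm Cfsg.GolayPt) p = p)) =
          Finset.univ := by
        ext p
        simp
      rw [this, Finset.card_univ, gc_card_pt] at hfix
      omega
    refine ⟨Subgroup.zpowers (⟨gcWord gcX0w, gc_word_mem _⟩ : ↥Cfsg.M24),
      gc_zpowers_card3 _ _ h1 h3, ?_⟩
    rw [gc_fix_zpowers]
    exact hfix
  · intro X Y hX hY hXY
    obtain ⟨x, hx, hx1, hx3, rfl⟩ := gc_sub3_gen X hX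
    obtain ⟨y, hy, hy1, hy3, rfl⟩ := gc_sub3_gen Y hY
    rw [gc_fix_zpowers, gc_fix_zpowers] at hXY
    obtain ⟨κ, hκ, n, hn⟩ := gc_ord3_conj hx hy hx1 hy1 hx3 hy3 hXY
    refine ⟨⟨κ, hκ⟩, gc_conj_zpowers _ _ _ (by rw [hX, hY]) ?_⟩
    rw [Subgroup.mem_zpowers_iff]
    refine ⟨n, Subtype.ext ?_⟩
    rw [Subgroup.coe_zpow]
    exact hn.symm

end Cfsg.Agent.Lib.Helper7
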