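import Mathlib

set_option autoImplicit false

namespace Cfsg.Agent.Lib.Helper7

/-- a group of order 72 acting on 9 points so that only the identity fixes two points, with
quaternion point stabilisers -/
theorem s2_main {G X : Type*} [Group G] [Finite G] [Fintype X] [MulAction G X]
    (hG : Nat.card G = 72) (hX : Fintype.card X = 9)
    (h1 : ∀ (g : G) (x y : X), x ≠ y → g • x = x → g • y = y → g = 1)
    (h3 : ∀ x : X, ∃ ψ : QuaternionGroup 2 →* ↥(MulAction.stabilizer G x),
      Function.Injective ψ) :
    (∀ Q : Sylow 3 G, (Q : Subgroup G).Normal ∧ Nat.card Q = 9 ∧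
      ∀ x ∈ (Q : Subgroup G), x ^ 3 = 1) ∧
    (∀ P : Sylow 2 G, Nonempty (↥P ≃* QuaternionGroup 2)) := by
  classical
  haveI : Fintype G := Fintype.ofFinite G
  have hGc : Fintype.card G = 72 := by rw [← Nat.card_eq_fintype_card]; exact hG
  have hXn : Nat.card X = 9 := by rw [Nat.card_eq_fintype_card]; exact hX
  -- point stabilisers have order 8 and the action is transitive
  have hstab_le : ∀ x : X, Nat.card (MulAction.stabilizer G x) ≤ 8 := by
    intro x
    obtain ⟨y, hy⟩ : ∃ y, y ≠ x := by
      by_contra hcon
      push Not at hcon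
      have : Fintype.card X ≤ 1 :=
        Fintype.card_le_one_iff.mpr (fun a b => (hcon a).trans (hcon b).symm)
      omega
    have hle := Finset.card_le_card_of_injOn
      (s := (Finset.univ : Finset (MulAction.stabilizer G x)))
      (t := (Finset.univ : Finset X).erase x)
      (fun h : MulAction.stabilizer G x => (h : G) • y)
      (fun h _ => by
        rw [Finset.mem_coe, Finset.mem_erase]
        refine ⟨fun hh => hy ?_, Finset.mem_univ _⟩
        have h2 : (h : G) • x = x := h.2
        have h3 : (h : G) • y = (h : G) • x := hh.trans h2.symm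
        exact smul_left_cancel _ h3)
      (fun h _ h' _ hh => by
        have hh' : (h : G) • y = (h' : G) • y := hh
        have e1 : ((h' : G)⁻¹ * (h : G)) • y = y := by
          rw [mul_smul, hh', inv_smul_smul]
        have e2 : ((h' : G)⁻¹ * (h : G)) • x = x := by
          have a1 : (h : G) • x = x := h.2
          have a2 : (h' : G) • x = x := h'.2
          rw [mul_smul, a1, inv_smul_eq_iff, a2]
        have e3 := h1 _ y x hy e1 e2
        have e4 : (h : G) = (h' : G) := by
          have := congrArg (fun t => (h' : G) * t) e3
          simpa using this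
        exact Subtype.ext e4)
    rw [Finset.card_erase_of_mem (Finset.mem_univ _), Finset.card_univ, Finset.card_univ, hX] at hle
    rw [Nat.card_eq_fintype_card]
    exact hle
  have horb : ∀ x : X, Nat.card (MulAction.stabilizer G x) = 8 ∧
      (MulAction.orbit G x).ncard = 9 := by
    intro x
    have e1 := Subgroup.card_mul_index (MulAction.stabilizer G x)
    rw [MulAction.index_stabilizer, hG] at e1
    have e2 : (MulAction.orbit G x).ncard ≤ 9 := by
      rw [← hXn, ← Set.ncard_univ]
      exact Set.ncard_le_ncard (Set.subset_univ _) Set.finite_univ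
    have e3 := hstab_le x
    obtain ⟨a, ha⟩ : ∃ a, a = Nat.card (MulAction.stabilizer G x) := ⟨_, rfl⟩
    obtain ⟨b, hb⟩ : ∃ b, b = (MulAction.orbit G x).ncard := ⟨_, rfl⟩
    rw [← ha, ← hb] at e1
    rw [← ha] at e3 ⊢
    rw [← hb] at e2 ⊢
    have h8 : a = 8 := by
      interval_cases a <;> omega
    subst h8
    exact ⟨rfl, by omega⟩
  have htrans : ∀ x y : X, ∃ g : G, g • x = y := by
    intro x y
    have e1 : MulAction.orbit G x = Set.univ :=
      Set.eq_of_subset_of_ncard_le (Set.subset_univ _)
        (by rw [Set.ncard_univ, hXn, (horb x).2]) Set.finite_univ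
    have e2 : y ∈ MulAction.orbit G x := by rw [e1]; exact Set.mem_univ y
    obtain ⟨g, hg⟩ := e2
    exact ⟨g, hg⟩
  obtain ⟨x0⟩ : Nonempty X := by
    rw [← Fintype.card_pos_iff, hX]
    norm_num
  constructor
  · -- the Sylow 3-subgroups
    haveI : Fact (Nat.Prime 3) := ⟨by norm_num⟩
    -- the elements without fixed points
    have hA : ∀ x : X, (Finset.univ.filter (fun g : G => g ≠ 1 ∧ g • x = x)).card = 7 := by
      intro x
      have e1 : (Finset.univ.filter (fun g : G => g • x = x)).card = 8 := by
        rw [← (horb x).1, Nat.card_eq_fintype_card, Fintype.card_subtype]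
        rfl
      have e2 : Finset.univ.filter (fun g : G => g ≠ 1 ∧ g • x = x) =
          (Finset.univ.filter (fun g : G => g • x = x)).erase 1 := by
        ext g
        simp only [Finset.mem_filter, Finset.mem_univ, true_and, Finset.mem_erase]
      rw [e2, Finset.card_erase_of_mem (by simp), e1]
    have hB : ((Finset.univ : Finset X).biUnion
        (fun x => Finset.univ.filter (fun g : G => g ≠ 1 ∧ g • x = x))).card = 63 := by
      rw [Finset.card_biUnion]
      · rw [Finset.sum_congr rfl (fun x _ => hA x), Finset.sum_const, Finset.card_univ, hX]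
        rfl
      · intro x _ y _ hxy
        refine Finset.disjoint_left.mpr fun g hg hg' => ?_
        simp only [Finset.mem_filter, Finset.mem_univ, true_and] at hg hg'
        exact hg.1 (h1 g x y hxy hg.2 hg'.2)
    have hF : (Finset.univ.filter (fun g : G => ∀ x : X, g • x ≠ x)).card = 8 := by
      have e1 := Finset.card_filter_add_card_filter_not (s := (Finset.univ : Finset G))
        (fun g : G => ∀ x : X, g • x ≠ x)
      have e2 : Finset.univ.filter (fun g : G => ¬ ∀ x : X, g • x ≠ x) =
          insert 1 ((Finset.univ : Finset X).biUnion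
            (fun x => Finset.univ.filter (fun g : G => g ≠ 1 ∧ g • x = x))) := by
        ext g
        simp only [Finset.mem_filter, Finset.mem_univ, true_and, Finset.mem_insert,
          Finset.mem_biUnion]
        constructor
        · intro h
          push Not at h
          obtain ⟨x, hx⟩ := h
          by_cases hg : g = 1
          · exact Or.inl hg
          · exact Or.inr ⟨x, hg, hx⟩
        · rintro (rfl | ⟨x, _, hx⟩)
          · intro h
            exact h x0 (one_smul _ _)
          · intro h
            exact h x hx
      have e3 : (1 : G) ∉ (Finset.univ : Finset X).biUnion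
          (fun x => Finset.univ.filter (fun g : G => g ≠ 1 ∧ g • x = x)) := by
        simp
      rw [e2, Finset.card_insert_of_notMem e3, hB, Finset.card_univ, hGc] at e1
      omega
    have key : ∀ Q : Sylow 3 G, Nat.card Q = 9 ∧
        ∀ g : G, g ∈ (Q : Subgroup G) ↔ (g = 1 ∨ ∀ x : X, g • x ≠ x) := by
      intro Q
      have hQ9 : Nat.card Q = 9 := by
        obtain ⟨k, hk⟩ := IsPGroup.iff_card.mp Q.isPGroup'
        have e1 := Subgroup.card_mul_index (Q : Subgroup G)
        have e2 := Q.not_dvd_index
        rw [hG, hk] at e1
        have hk3 : k ≤ 3 := by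
          by_contra hcon
          have : 3 ^ 4 ∣ 3 ^ k := pow_dvd_pow 3 (by omega)
          have h72 : 3 ^ 4 ∣ 72 := by
            rw [← e1]
            exact this.trans (dvd_mul_right _ _)
          omega
        rw [hk]
        interval_cases k
        · exfalso
          apply e2
          omega
        · exfalso
          apply e2
          omega
        · rfl
        · omega
      have hsub : ∀ g : G, g ∈ (Q : Subgroup G) → (g = 1 ∨ ∀ x : X, g • x ≠ x) := by
        intro g hg
        by_cases hg1 : g = 1
        · exact Or.inl hg1
        · right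
          intro x hx
          apply hg1
          have o1 : orderOf g ∣ 9 := by
            have := orderOf_dvd_natCard (⟨g, hg⟩ : ↥(Q : Subgroup G))
            rwa [hQ9, Subgroup.orderOf_mk] at this
          have hx' : g ∈ MulAction.stabilizer G x := hx
          have o2 : orderOf g ∣ 8 := by
            have := orderOf_dvd_natCard (⟨g, hx'⟩ : ↥(MulAction.stabilizer G x))
            rwa [(horb x).1, Subgroup.orderOf_mk] at this
          have o3 : orderOf g ∣ Nat.gcd 9 8 := Nat.dvd_gcd o1 o2
          have o4 : Nat.gcd 9 8 = 1 := by decide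
          rw [o4] at o3
          exact orderOf_eq_one_iff.mp (Nat.dvd_one.mp o3)
      refine ⟨hQ9, fun g => ⟨hsub g, ?_⟩⟩
      intro hg
      have hsubF : Finset.univ.filter (fun g : G => g ∈ (Q : Subgroup G)) ⊆
          insert 1 (Finset.univ.filter (fun g : G => ∀ x : X, g • x ≠ x)) := by
        intro z hz
        rw [Finset.mem_filter] at hz
        rw [Finset.mem_insert, Finset.mem_filter]
        rcases hsub z hz.2 with h | h
        · exact Or.inl h
        · exact Or.inr ⟨Finset.mem_univ _, h⟩
      have hc1 : (Finset.univ.filter (fun g : G => g ∈ (Q : Subgroup G))).card = 9 := by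
        rw [← hQ9, Nat.card_eq_fintype_card, Fintype.card_subtype]
      have hc2 : (insert 1 (Finset.univ.filter (fun g : G => ∀ x : X, g • x ≠ x))).card ≤ 9 := by
        have := Finset.card_insert_le (1 : G)
          (Finset.univ.filter (fun g : G => ∀ x : X, g • x ≠ x))
        omega
      have heq := Finset.eq_of_subset_of_card_le hsubF (by rw [hc1]; exact hc2)
      have hmem : g ∈ insert 1 (Finset.univ.filter (fun g : G => ∀ x : X, g • x ≠ x)) := by
        rw [Finset.mem_insert, Finset.mem_filter]
        rcases hg with h | h
        · exact Or.inl h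
        · exact Or.inr ⟨Finset.mem_univ _, h⟩
      rw [← heq, Finset.mem_filter] at hmem
      exact hmem.2
    intro Q
    obtain ⟨hQ9, hQm⟩ := key Q
    have hnormal : (Q : Subgroup G).Normal := by
      constructor
      intro n hn g
      rw [hQm] at hn ⊢
      rcases hn with rfl | hn
      · left
        group
      · right
        intro x hx
        apply hn (g⁻¹ • x)
        rw [mul_smul, mul_smul] at hx
        have := congrArg (fun t => g⁻¹ • t) hx
        simpa using this
    refine ⟨hnormal, hQ9, ?_⟩
    intro x hx
    by_cases hx1 : x = 1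
    · rw [hx1, one_pow]
    · obtain ⟨n0, hn0⟩ := exists_prime_orderOf_dvd_card' (G := ↥(Q : Subgroup G)) 3
        (by rw [hQ9]; norm_num)
      have hn0Q : (n0 : G) ∈ (Q : Subgroup G) := n0.2
      have hn01 : (n0 : G) ≠ 1 := by
        intro h
        have : n0 = 1 := Subtype.ext h
        rw [this, orderOf_one] at hn0
        norm_num at hn0
      have hn0f : ∀ y : X, (n0 : G) • y ≠ y := by
        rcases (hQm _).mp hn0Q with h | h
        · exact absurd h hn01
        · exact h
      have hn03 : (n0 : G) ^ 3 = 1 := by
        have := pow_orderOf_eq_one n0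
        rw [hn0] at this
        have h2 := congrArg Subtype.val this
        simpa using h2
      -- the conjugates of `n0` under the stabiliser of `x0`
      have hinj : Set.InjOn (fun h : MulAction.stabilizer G x0 => (h : G) * (n0 : G) * (h : G)⁻¹)
          (Finset.univ : Finset (MulAction.stabilizer G x0)) := by
        intro h _ h' _ hh
        have hh' : (h : G) * (n0 : G) * (h : G)⁻¹ = (h' : G) * (n0 : G) * (h' : G)⁻¹ := hh
        have a1 : (h : G) • x0 = x0 := h.2
        have a2 : (h' : G) • x0 = x0 := h'.2
        have hcomm : ((h' : G)⁻¹ * (h : G)) * (n0 : G) = (n0 : G) * ((h' : G)⁻¹ * (h : G)) := by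
          have e1 : (h : G) * (n0 : G) = (h' : G) * (n0 : G) * (h' : G)⁻¹ * (h : G) := by
            rw [← hh']
            group
          calc (h' : G)⁻¹ * (h : G) * (n0 : G) = (h' : G)⁻¹ * ((h : G) * (n0 : G)) := by group
            _ = (h' : G)⁻¹ * ((h' : G) * (n0 : G) * (h' : G)⁻¹ * (h : G)) := by rw [← e1]
            _ = (n0 : G) * ((h' : G)⁻¹ * (h : G)) := by group
        have e2 : ((h' : G)⁻¹ * (h : G)) • x0 = x0 := by
          rw [mul_smul, a1, inv_smul_eq_iff, a2]
        have e3 : ((h' : G)⁻¹ * (h : G)) • ((n0 : G) • x0) = (n0 : G) • x0 := by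
          rw [← mul_smul, hcomm, mul_smul, e2]
        have e4 := h1 _ x0 ((n0 : G) • x0) (Ne.symm (hn0f x0)) e2 e3
        have e5 : (h : G) = (h' : G) := by
          have := congrArg (fun t => (h' : G) * t) e4
          simpa using this
        exact Subtype.ext e5
      have himg : (Finset.univ : Finset (MulAction.stabilizer G x0)).image
          (fun h : MulAction.stabilizer G x0 => (h : G) * (n0 : G) * (h : G)⁻¹) ⊆
          (Finset.univ.filter (fun g : G => g ∈ (Q : Subgroup G))).erase 1 := by
        intro z hz
        obtain ⟨h, _, rfl⟩ := Finset.mem_image.mp hz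
        rw [Finset.mem_erase, Finset.mem_filter]
        refine ⟨?_, Finset.mem_univ _, hnormal.conj_mem _ hn0Q _⟩
        intro hh
        apply hn01
        have := congrArg (fun t => (h : G)⁻¹ * t * (h : G)) hh
        simpa [mul_assoc] using this
      have hc1 : ((Finset.univ : Finset (MulAction.stabilizer G x0)).image
          (fun h : MulAction.stabilizer G x0 => (h : G) * (n0 : G) * (h : G)⁻¹)).card = 8 := by
        rw [Finset.card_image_of_injOn hinj, Finset.card_univ, ← Nat.card_eq_fintype_card,
          (horb x0).1]
      have hc2 : ((Finset.univ.filter (fun g : G => g ∈ (Q : Subgroup G))).erase 1).card = 8 := by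
        rw [Finset.card_erase_of_mem (by simp [one_mem]), ← Fintype.card_subtype,
          ← Nat.card_eq_fintype_card]
        have : Nat.card {g : G // g ∈ (Q : Subgroup G)} = 9 := hQ9
        rw [this]
      have heq := Finset.eq_of_subset_of_card_le himg (by rw [hc1, hc2])
      have hxm : x ∈ (Finset.univ.filter (fun g : G => g ∈ (Q : Subgroup G))).erase 1 := by
        rw [Finset.mem_erase, Finset.mem_filter]
        exact ⟨hx1, Finset.mem_univ _, hx⟩
      rw [← heq] at hxm
      obtain ⟨h, _, rfl⟩ := Finset.mem_image.mp hxm
      rw [conj_pow, hn03]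
      group
  · -- the Sylow 2-subgroups
    intro P
    haveI : Fact (Nat.Prime 2) := ⟨by norm_num⟩
    have hP8 : Nat.card P = 8 := by
      obtain ⟨k, hk⟩ := IsPGroup.iff_card.mp P.isPGroup'
      have e1 := Subgroup.card_mul_index (P : Subgroup G)
      have e2 := P.not_dvd_index
      rw [hG, hk] at e1
      have hk3 : k ≤ 3 := by
        by_contra hcon
        have : 2 ^ 4 ∣ 2 ^ k := pow_dvd_pow 2 (by omega)
        have h72 : 2 ^ 4 ∣ 72 := by
          rw [← e1]
          exact this.trans (dvd_mul_right _ _)
        omega
      rw [hk]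
      interval_cases k
      · exfalso
        apply e2
        omega
      · exfalso
        apply e2
        omega
      · exfalso
        apply e2
        omega
      · rfl
    have hfix := P.isPGroup'.card_modEq_card_fixedPoints X
    rw [hXn] at hfix
    have hne : Nat.card (MulAction.fixedPoints ↥(P : Subgroup G) X) ≠ 0 := by
      intro h
      rw [h] at hfix
      have : 9 % 2 = 0 % 2 := hfix
      omega
    obtain ⟨⟨x1, hx1⟩⟩ : Nonempty (MulAction.fixedPoints ↥(P : Subgroup G) X) := by
      by_contra hcon
      rw [not_nonempty_iff] at hcon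
      exact hne Nat.card_of_isEmpty
    have hle : (P : Subgroup G) ≤ MulAction.stabilizer G x1 := by
      intro g hg
      exact hx1 ⟨g, hg⟩
    have heq : (P : Subgroup G) = MulAction.stabilizer G x1 :=
      Subgroup.eq_of_le_of_card_ge hle (by rw [(horb x1).1]; exact hP8.ge)
    obtain ⟨ψ, hψ⟩ := h3 x1
    have hb := hψ.bijective_of_nat_card_le (by
      rw [(horb x1).1, Nat.card_eq_fintype_card, QuaternionGroup.card])
    exact ⟨(MulEquiv.subgroupCongr heq).trans (MulEquiv.ofBijective ψ hb).symm⟩

end Cfsg.Agent.Lib.Helper7
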