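import Mathlib
import Cfsg.Prelude
import Cfsg.Agent.Lib.Helper7.GolayC52
import Cfsg.Agent.Lib.Helper7.Sharp2

set_option autoImplicit false

namespace Cfsg.Agent.Lib.Helper7

open scoped Pointwise

/-- words for the powers of an element of order four fixing four points of the standard dodecad -/
def gcQAL : List (List ℕ) := [[],
  [1, 2, 0, 0, 2, 0, 0, 2, 0, 2, 0, 2, 0, 0, 0, 1, 2, 2, 2, 0, 0, 2, 0, 0, 2, 2, 0, 0, 0, 2, 2],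
  [1, 2, 0, 1, 0, 2, 2, 0, 0, 2, 0, 2, 2, 0, 2, 2, 1, 0, 2, 0, 0, 2, 1, 0, 0, 0, 2, 2, 0, 2, 2, 2, 2, 0, 0, 1, 2, 2, 2],
  [0, 0, 2, 2, 0, 0, 0, 2, 0, 1, 2, 0, 1, 0, 1, 2, 0, 2, 2, 0, 2, 0, 2, 0, 1, 2, 0, 2, 0, 2, 0, 0, 1, 0, 1]]

/-- words for the other four elements -/
def gcQXL : List (List ℕ) := [[2, 2, 2, 0, 2, 0, 0, 0, 0, 0, 0, 2, 2, 0, 2, 2, 0, 0, 2, 0, 2, 1, 2, 0, 0, 0, 1, 2, 2, 0, 1, 0, 1, 2, 0, 0, 1, 2],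
  [0, 2, 0, 0, 1, 0, 1, 2, 2, 0, 1, 0, 1, 2, 2, 0, 1, 0, 0, 0, 2, 0, 2, 1, 0, 2, 0, 1, 0, 2, 2, 2, 2, 0, 2, 0, 1, 0, 0, 0, 1, 0],
  [2, 2, 2, 0, 2, 0, 0, 0, 0, 0, 0, 2, 2, 0, 2, 2, 0, 0, 2, 0, 2, 0, 0, 0, 0, 0, 2, 2, 2, 2, 0, 0, 0, 0, 2],
  [0, 2, 0, 0, 1, 0, 0, 0, 0, 1, 2, 2, 0, 2, 2, 2, 0, 0, 2, 2, 0, 0, 1, 0, 0, 0, 0, 2, 0, 0, 0, 0, 0, 0, 0, 2, 2, 0, 2]]

def gcQA (i : ZMod (2 * 2)) : List ℕ := gcQAL.getD (ZMod.val i) []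

def gcQX (i : ZMod (2 * 2)) : List ℕ := gcQXL.getD (ZMod.val i) []

theorem gc_q8_mul_tab : ∀ i j : ZMod (2 * 2), ∀ c : Fin 24,
    gcEval (gcQA (i + j)) c = gcEval (gcQA i ++ gcQA j) c ∧
    gcEval (gcQX (j - i)) c = gcEval (gcQA i ++ gcQX j) c ∧
    gcEval (gcQX (i + j)) c = gcEval (gcQX i ++ gcQA j) c ∧
    gcEval (gcQA (((2 : ℕ) : ZMod (2 * 2)) + j - i)) c = gcEval (gcQX i ++ gcQX j) c := by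
  decide +kernel

theorem gc_q8_mem_tab : ∀ i : ZMod (2 * 2),
    ((∀ j < 4, gcEval (gcQA i) (gcBase j) = gcBase j) ∧
      (∀ c : Fin 24, gcD0.testBit (gcEval (gcQA i) c).val = gcD0.testBit c.val)) ∧
    ((∀ j < 4, gcEval (gcQX i) (gcBase j) = gcBase j) ∧
      (∀ c : Fin 24, gcD0.testBit (gcEval (gcQX i) c).val = gcD0.testBit c.val)) := by
  decide +kernel

theorem gc_q8_inj_tab : ∀ i : ZMod (2 * 2),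
    (gcEval (gcQA i) (gcBase 4) = gcBase 4 → i = 0) ∧
    gcEval (gcQX i) (gcBase 4) ≠ gcBase 4 := by
  decide +kernel

end Cfsg.Agent.Lib.Helper7
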