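import Mathlib
import Cfsg.Prelude
import Cfsg.Agent.Lib.Helper7.GolayC53

set_option autoImplicit false

namespace Cfsg.Agent.Lib.Helper7

open scoped Pointwise

/-- the words as a function on the quaternion group -/
def gcQW : QuaternionGroup 2 → List ℕ
  | QuaternionGroup.a i => gcQA i
  | QuaternionGroup.xa i => gcQX i

/-- the standard quaternion group -/
noncomputable def gcQHom : QuaternionGroup 2 →* Equiv.Perm Cfsg.GolayPt where
  toFun u := gcWord (gcQW u)
  map_one' := rfl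
  map_mul' u v := by
    rcases u with i | i <;> rcases v with j | j
    · rw [QuaternionGroup.a_mul_a]
      show gcWord (gcQA (i + j)) = gcWord (gcQA i) * gcWord (gcQA j)
      rw [← gc_word_append]
      exact gc_word_eq_of_eval (fun c => (gc_q8_mul_tab i j c).1)
    · rw [QuaternionGroup.a_mul_xa]
      show gcWord (gcQX (j - i)) = gcWord (gcQA i) * gcWord (gcQX j)
      rw [← gc_word_append]
      exact gc_word_eq_of_eval (fun c => (gc_q8_mul_tab i j c).2.1)
    · rw [QuaternionGroup.xa_mul_a]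
      show gcWord (gcQX (i + j)) = gcWord (gcQX i) * gcWord (gcQA j)
      rw [← gc_word_append]
      exact gc_word_eq_of_eval (fun c => (gc_q8_mul_tab i j c).2.2.1)
    · rw [QuaternionGroup.xa_mul_xa]
      show gcWord (gcQA (((2 : ℕ) : ZMod (2 * 2)) + j - i)) = gcWord (gcQX i) * gcWord (gcQX j)
      rw [← gc_word_append]
      exact gc_word_eq_of_eval (fun c => (gc_q8_mul_tab i j c).2.2.2)

theorem gc_qhom_mem (u : QuaternionGroup 2) : gcQHom u ∈ Cfsg.M24 := gc_word_mem _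

theorem gc_qhom_fix (u : QuaternionGroup 2) (j : ℕ) (hj : j < 4) :
    gcQHom u (gcPt (gcBase j)) = gcPt (gcBase j) := by
  show gcWord (gcQW u) (gcPt (gcBase j)) = gcPt (gcBase j)
  rw [gc_word_rep]
  rcases u with i | i
  · exact congrArg gcPt ((gc_q8_mem_tab i).1.1 j hj)
  · exact congrArg gcPt ((gc_q8_mem_tab i).2.1 j hj)

theorem gc_qhom_d0 (u : QuaternionGroup 2) : gcQHom u • gcSet gcD0 = gcSet gcD0 := by
  show gcWord (gcQW u) • gcSet gcD0 = gcSet gcD0
  rcases u with i | i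
  · exact gc_word_set _ _ _ (gc_q8_mem_tab i).1.2
  · exact gc_word_set _ _ _ (gc_q8_mem_tab i).2.2

theorem gc_qhom_inj : Function.Injective gcQHom := by
  rw [injective_iff_map_eq_one]
  intro u hu
  have h1 : gcWord (gcQW u) (gcPt (gcBase 4)) = gcPt (gcBase 4) := by
    have : gcQHom u (gcPt (gcBase 4)) = gcPt (gcBase 4) := by rw [hu]; rfl
    exact this
  rw [gc_word_rep] at h1
  have h2 : gcEval (gcQW u) (gcBase 4) = gcBase 4 := by
    apply gcEquiv.injective
    exact h1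
  rcases u with i | i
  · have h3 := (gc_q8_inj_tab i).1 h2
    rw [h3]
    rfl
  · exact absurd h2 (gc_q8_inj_tab i).2

/-- four points of a twelve-set extend to five -/
theorem gc_emb_four (d : Finset Cfsg.GolayPt) (h12 : d.card = 12) (p q r x : Cfsg.GolayPt)
    (hp : p ∈ d) (hq : q ∈ d) (hr : r ∈ d) (hx : x ∈ d) (hpq : p ≠ q) (hpr : p ≠ r)
    (hqr : q ≠ r) (hxp : x ≠ p) (hxq : x ≠ q) (hxr : x ≠ r) :
    ∃ e : Fin 5 ↪ Cfsg.GolayPt, e 0 = p ∧ e 1 = q ∧ e 2 = r ∧ e 3 = x ∧ ∀ i, e i ∈ d := by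
  classical
  have hlt : ({p, q, r, x} : Finset Cfsg.GolayPt).card < d.card := by
    rw [h12]
    exact lt_of_le_of_lt Finset.card_le_four (by norm_num)
  obtain ⟨z, hzd, hz⟩ := Finset.exists_mem_notMem_of_card_lt_card hlt
  simp only [Finset.mem_insert, Finset.mem_singleton, not_or] at hz
  obtain ⟨hzp, hzq, hzr, hzx⟩ := hz
  have hnd : [p, q, r, x, z].Nodup := by
    simp only [List.nodup_cons, List.mem_cons, List.not_mem_nil, or_false, not_or,
      List.nodup_nil, and_true, not_false_eq_true]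
    exact ⟨⟨hpq, hpr, Ne.symm hxp, Ne.symm hzp⟩, ⟨hqr, Ne.symm hxq, Ne.symm hzq⟩,
      ⟨Ne.symm hxr, Ne.symm hzr⟩, Ne.symm hzx⟩
  obtain ⟨e, he0, he1, he2, he3, he4⟩ := gc_emb5 p q r x z hnd
  refine ⟨e, he0, he1, he2, he3, gc_forall5 ?_ ?_ ?_ ?_ ?_⟩
  · rw [he0]; exact hp
  · rw [he1]; exact hq
  · rw [he2]; exact hr
  · rw [he3]; exact hx
  · rw [he4]; exact hzd

theorem gc_K4_stab (d : Finset Cfsg.GolayPt) (p q r : Cfsg.GolayPt) :
    ∀ g ∈ MulAction.stabilizer Cfsg.M24 d ⊓ MulAction.stabilizer Cfsg.M24 p ⊓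
      MulAction.stabilizer Cfsg.M24 q ⊓ MulAction.stabilizer Cfsg.M24 r,
      ((g : Cfsg.M24) : Equiv.Perm Cfsg.GolayPt) • (((d.erase p).erase q).erase r) =
        ((d.erase p).erase q).erase r := by
  intro g hg
  obtain ⟨hgd, hgp, hgq, hgr⟩ := (gc_mem_K4 d p q r g).mp hg
  rw [← Finset.sdiff_singleton_eq_erase, ← Finset.sdiff_singleton_eq_erase,
    ← Finset.sdiff_singleton_eq_erase, Finset.smul_finset_sdiff, Finset.smul_finset_sdiff,
    Finset.smul_finset_sdiff, hgd, Finset.smul_finset_singleton, Finset.smul_finset_singleton,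
    Finset.smul_finset_singleton, Equiv.Perm.smul_def, Equiv.Perm.smul_def, Equiv.Perm.smul_def,
    hgp, hgq, hgr]

theorem gc_s5619 (d : Finset Cfsg.GolayPt) (hd : d ∈ Cfsg.dodecads) (p q r : Cfsg.GolayPt) (hp : p ∈ d) (hq : q ∈ d) (hr : r ∈ d) (hpq : p ≠ q) (hpr : p ≠ r) (hqr : q ≠ r) : (∀ Q : Sylow 3 ↥(MulAction.stabilizer Cfsg.M24 d ⊓ MulAction.stabilizer Cfsg.M24 p ⊓ MulAction.stabilizer Cfsg.M24 q ⊓ MulAction.stabilizer Cfsg.M24 r), (Q : Subgroup ↥(MulAction.stabilizer Cfsg.M24 d ⊓ MulAction.stabilizer Cfsg.M24 p ⊓ MulAction.stabilizer Cfsg.M24 q ⊓ MulAction.stabilizer Cfsg.M24 r)).Normal ∧ Nat.card ↥Q = 9 ∧ ∀ x ∈ (Q : Subgroup ↥(MulAction.stabilizer Cfsg.M24 d ⊓ MulAction.stabilizer Cfsg.M24 p ⊓ MulAction.stabilizer Cfsg.M24 q ⊓ MulAction.stabilizer Cfsg.M24 r)), x ^ 3 = 1) ∧ ∀ P : Sylow 2 ↥(MulAction.stabilizer Cfsg.M24 d ⊓ MulAction.stabilizer Cfsg.M24 p ⊓ MulAction.stabilizer Cfsg.M24 q ⊓ MulAction.stabilizer Cfsg.M24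 r), Nonempty (↥P ≃* QuaternionGroup 2) := by
  classical
  have h12 := ((gc_dodecad_iff d).mp hd).2
  letI : MulAction ↥(MulAction.stabilizer Cfsg.M24 d ⊓ MulAction.stabilizer Cfsg.M24 p ⊓
      MulAction.stabilizer Cfsg.M24 q ⊓ MulAction.stabilizer Cfsg.M24 r)
      ↥(((d.erase p).erase q).erase r) :=
    MulAction.compHom _ (gcResK _ (((d.erase p).erase q).erase r) (gc_K4_stab d p q r))
  have hsm : ∀ (g : ↥(MulAction.stabilizer Cfsg.M24 d ⊓ MulAction.stabilizer Cfsg.M24 p ⊓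
      MulAction.stabilizer Cfsg.M24 q ⊓ MulAction.stabilizer Cfsg.M24 r))
      (y : ↥(((d.erase p).erase q).erase r)),
      ((g • y : ↥(((d.erase p).erase q).erase r)) : Cfsg.GolayPt) =
        ((g : Cfsg.M24) : Equiv.Perm Cfsg.GolayPt) (y : Cfsg.GolayPt) := fun _ _ => rfl
  have hmemT : ∀ z, z ∈ ((d.erase p).erase q).erase r ↔ z ≠ r ∧ z ≠ q ∧ z ≠ p ∧ z ∈ d := by
    intro z
    simp only [Finset.mem_erase]
  have hTc : (((d.erase p).erase q).erase r).card = 9 := by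
    rw [Finset.card_erase_of_mem (Finset.mem_erase.mpr ⟨hqr.symm, Finset.mem_erase.mpr
      ⟨hpr.symm, hr⟩⟩), Finset.card_erase_of_mem (Finset.mem_erase.mpr ⟨hpq.symm, hq⟩),
      Finset.card_erase_of_mem hp, h12]
  refine s2_main (X := ↥(((d.erase p).erase q).erase r))
    (gc_dodecad_three_card d hd p q r hp hq hr hpq hpr hqr) (by rw [Fintype.card_coe, hTc]) ?_ ?_
  · -- only the identity fixes two points
    intro g x y hxy hgx hgy
    obtain ⟨hgd, hgp, hgq, hgr⟩ := (gc_mem_K4 d p q r g).mp g.2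
    obtain ⟨hxr, hxq, hxp, hxd⟩ := (hmemT _).mp x.2
    obtain ⟨hyr, hyq, hyp, hyd⟩ := (hmemT _).mp y.2
    have hxy' : (x : Cfsg.GolayPt) ≠ y := fun h => hxy (Subtype.ext h)
    have hgx' : ((g : Cfsg.M24) : Equiv.Perm Cfsg.GolayPt) x = x := by
      have := congrArg Subtype.val hgx
      rwa [hsm] at this
    have hgy' : ((g : Cfsg.M24) : Equiv.Perm Cfsg.GolayPt) y = y := by
      have := congrArg Subtype.val hgy
      rwa [hsm] at this
    have hnd : [p, q, r, (x : Cfsg.GolayPt), (y : Cfsg.GolayPt)].Nodup := by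
      simp only [List.nodup_cons, List.mem_cons, List.not_mem_nil, or_false, not_or,
        List.nodup_nil, and_true, not_false_eq_true]
      exact ⟨⟨hpq, hpr, Ne.symm hxp, Ne.symm hyp⟩, ⟨hqr, Ne.symm hxq, Ne.symm hyq⟩,
        ⟨Ne.symm hxr, Ne.symm hyr⟩, hxy'⟩
    obtain ⟨e, he0, he1, he2, he3, he4⟩ := gc_emb5 p q r x y hnd
    have hed : ∀ i, e i ∈ d := by
      refine gc_forall5 ?_ ?_ ?_ ?_ ?_
      · rw [he0]; exact hp
      · rw [he1]; exact hq
      · rw [he2]; exact hr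
      · rw [he3]; exact hxd
      · rw [he4]; exact hyd
    have hge : ∀ i, ((g : Cfsg.M24) : Equiv.Perm Cfsg.GolayPt) (e i) = e i := by
      refine gc_forall5 ?_ ?_ ?_ ?_ ?_
      · rw [he0]; exact hgp
      · rw [he1]; exact hgq
      · rw [he2]; exact hgr
      · rw [he3]; exact hgx'
      · rw [he4]; exact hgy'
    have h1 := gc_dodecad_sharp d hd e hed (g : Cfsg.M24).2 hgd hge
    exact Subtype.ext (Subtype.ext h1)
  · -- the point stabilisers
    intro x
    obtain ⟨hxr, hxq, hxp, hxd⟩ := (hmemT _).mp x.2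
    obtain ⟨e, he0, he1, he2, he3, hed⟩ := gc_emb_four d h12 p q r x hp hq hr hxd hpq hpr hqr
      hxp hxq hxr
    obtain ⟨k, hk, hke, hkd⟩ := gc_dodecad_norm d hd e hed
    have hk0 : k p = gcPt (gcBase 0) := by rw [← he0]; exact hke 0
    have hk1 : k q = gcPt (gcBase 1) := by rw [← he1]; exact hke 1
    have hk2 : k r = gcPt (gcBase 2) := by rw [← he2]; exact hke 2
    have hk3 : k (x : Cfsg.GolayPt) = gcPt (gcBase 3) := by rw [← he3]; exact hke 3
    have hfixpt : ∀ (u : QuaternionGroup 2) (z : Cfsg.GolayPt) (j : ℕ), j < 4 →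
        k z = gcPt (gcBase j) → (k⁻¹ * gcQHom u * k) z = z := by
      intro u z j hj hz
      rw [Equiv.Perm.mul_apply, Equiv.Perm.mul_apply, hz, gc_qhom_fix u j hj, ← hz]
      exact k.symm_apply_apply z
    have hmemM : ∀ u : QuaternionGroup 2, k⁻¹ * gcQHom u * k ∈ Cfsg.M24 := fun u =>
      mul_mem (mul_mem (inv_mem hk) (gc_qhom_mem u)) hk
    have hmemK : ∀ u : QuaternionGroup 2, (⟨k⁻¹ * gcQHom u * k, hmemM u⟩ : ↥Cfsg.M24) ∈
        MulAction.stabilizer Cfsg.M24 d ⊓ MulAction.stabilizer Cfsg.M24 p ⊓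
        MulAction.stabilizer Cfsg.M24 q ⊓ MulAction.stabilizer Cfsg.M24 r := by
      intro u
      rw [gc_mem_K4]
      refine ⟨?_, hfixpt u p 0 (by norm_num) hk0, hfixpt u q 1 (by norm_num) hk1,
        hfixpt u r 2 (by norm_num) hk2⟩
      show (k⁻¹ * gcQHom u * k) • d = d
      rw [mul_smul, mul_smul, hkd, gc_qhom_d0, inv_smul_eq_iff, hkd]
    let φ : QuaternionGroup 2 →* ↥(MulAction.stabilizer Cfsg.M24 d ⊓
        MulAction.stabilizer Cfsg.M24 p ⊓ MulAction.stabilizer Cfsg.M24 q ⊓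
        MulAction.stabilizer Cfsg.M24 r) :=
      { toFun := fun u => ⟨⟨k⁻¹ * gcQHom u * k, hmemM u⟩, hmemK u⟩
        map_one' := by
          apply Subtype.ext
          apply Subtype.ext
          show k⁻¹ * gcQHom 1 * k = 1
          rw [map_one]
          group
        map_mul' := by
          intro u v
          apply Subtype.ext
          apply Subtype.ext
          show k⁻¹ * gcQHom (u * v) * k = (k⁻¹ * gcQHom u * k) * (k⁻¹ * gcQHom v * k)
          rw [map_mul]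
          group }
    have hφ : ∀ u, φ u ∈ MulAction.stabilizer ↥(MulAction.stabilizer Cfsg.M24 d ⊓
        MulAction.stabilizer Cfsg.M24 p ⊓ MulAction.stabilizer Cfsg.M24 q ⊓
        MulAction.stabilizer Cfsg.M24 r) x := by
      intro u
      rw [MulAction.mem_stabilizer_iff]
      apply Subtype.ext
      rw [hsm]
      exact hfixpt u x 3 (by norm_num) hk3
    refine ⟨φ.codRestrict _ hφ, ?_⟩
    rw [MonoidHom.injective_codRestrict]
    intro u v huv
    have h1 : k⁻¹ * gcQHom u * k = k⁻¹ * gcQHom v * k :=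
      congrArg (fun z : ↥(MulAction.stabilizer Cfsg.M24 d ⊓
        MulAction.stabilizer Cfsg.M24 p ⊓ MulAction.stabilizer Cfsg.M24 q ⊓
        MulAction.stabilizer Cfsg.M24 r) => ((z : Cfsg.M24) : Equiv.Perm Cfsg.GolayPt)) huv
    apply gc_qhom_inj
    have h2 : gcQHom u = k * (k⁻¹ * gcQHom u * k) * k⁻¹ := by group
    have h3 : gcQHom v = k * (k⁻¹ * gcQHom v * k) * k⁻¹ := by group
    rw [h2, h3, h1]

end Cfsg.Agent.Lib.Helper7
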