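import Mathlib
import Cfsg.Prelude
import Cfsg.Agent.Lib.Helper7.GolayC22

set_option autoImplicit false

namespace Cfsg.Agent.Lib.Helper7

open scoped Pointwise

/-- the punctured word -/
def gcPunct (w : Cfsg.GolayPt → ZMod 2) : ZMod 23 → ZMod 2 := fun x => w (some x)

theorem gc_punct_set : {u : ZMod 23 → ZMod 2 | ∃ w ∈ Cfsg.golayCode, ∀ x : ZMod 23,
    u x = w (some x)} = gcPunct '' (Cfsg.golayCode : Set (Cfsg.GolayPt → ZMod 2)) := by
  ext u
  constructor
  · rintro ⟨w, hw, h⟩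
    exact ⟨w, hw, (funext h).symm⟩
  · rintro ⟨w, hw, rfl⟩
    exact ⟨w, hw, fun x => rfl⟩

theorem gc_punct_norm (w : Cfsg.GolayPt → ZMod 2) :
    hammingNorm w = hammingNorm (gcPunct w) + (if w none = 0 then 0 else 1) := by
  unfold hammingNorm
  rw [Finset.card_filter, Finset.card_filter, Fintype.sum_option, add_comm]
  congr 1
  by_cases h : w none = 0
  · simp [h]
  · simp [h]

theorem gc_punct_le (w : Cfsg.GolayPt → ZMod 2) : hammingNorm (gcPunct w) ≤ hammingNorm w := by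
  rw [gc_punct_norm w]
  exact Nat.le_add_right _ _

theorem gc_punct_ge (w : Cfsg.GolayPt → ZMod 2) : hammingNorm w ≤ hammingNorm (gcPunct w) + 1 := by
  rw [gc_punct_norm w]
  split_ifs <;> omega

theorem gc_punct_sub (w w' : Cfsg.GolayPt → ZMod 2) :
    gcPunct (w - w') = gcPunct w - gcPunct w' := rfl

theorem gc_dist_norm {ι : Type*} [Fintype ι] (a b : ι → ZMod 2) :
    hammingDist a b = hammingNorm (a - b) := by
  simp_rw [hammingNorm, hammingDist, Pi.sub_apply, ne_eq, sub_eq_zero]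

theorem gc_punct_dist {w w' : Cfsg.GolayPt → ZMod 2} (hw : w ∈ Cfsg.golayCode)
    (hw' : w' ∈ Cfsg.golayCode) (h : hammingDist (gcPunct w) (gcPunct w') ≤ 6) : w = w' := by
  by_contra hne
  have h1 : w - w' ∈ Cfsg.golayCode := Submodule.sub_mem _ hw hw'
  have h2 : w - w' ≠ 0 := sub_ne_zero.mpr hne
  have h3 := gc_min _ h1 h2
  have h4 := gc_punct_ge (w - w')
  rw [gc_punct_sub, ← gc_dist_norm (gcPunct w) (gcPunct w')] at h4
  omega

theorem gc_punct_injOn : Set.InjOn gcPunct (Cfsg.golayCode : Set (Cfsg.GolayPt → ZMod 2)) := by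
  intro w hw w' hw' h
  apply gc_punct_dist hw hw'
  rw [h, hammingDist_self]
  exact Nat.zero_le _

theorem gc_punct_ncard : {u : ZMod 23 → ZMod 2 | ∃ w ∈ Cfsg.golayCode, ∀ x : ZMod 23,
    u x = w (some x)}.ncard = 4096 := by
  rw [gc_punct_set, Set.ncard_image_of_injOn gc_punct_injOn]
  rw [← Nat.card_coe_set_eq]
  exact gc_size

theorem gc_punct_min : ∀ u ∈ {u : ZMod 23 → ZMod 2 | ∃ w ∈ Cfsg.golayCode, ∀ x : ZMod 23,
    u x = w (some x)}, u ≠ 0 → 7 ≤ hammingNorm u := by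
  intro u hu hne
  rw [gc_punct_set] at hu
  obtain ⟨w, hw, rfl⟩ := hu
  have h1 : w ≠ 0 := by
    rintro rfl
    exact hne rfl
  have h2 := gc_min w hw h1
  have h3 := gc_punct_ge w
  omega

/-- the perfect code property -/
theorem gc_s1637 (u : ZMod 23 → ZMod 2) : ∃! c : ZMod 23 → ZMod 2,
    c ∈ {u : ZMod 23 → ZMod 2 | ∃ w ∈ Cfsg.golayCode, ∀ x : ZMod 23, u x = w (some x)} ∧
      hammingDist u c ≤ 3 := by
  classical
  obtain ⟨v, hv1, hv2⟩ : ∃ v : Cfsg.GolayPt → ZMod 2, gcPunct v = u ∧ ¬ 2 ∣ hammingNorm v := by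
    by_cases hpar : 2 ∣ hammingNorm u
    · refine ⟨fun p => p.elim 1 u, rfl, ?_⟩
      rw [gc_punct_norm]
      have h1 : gcPunct (fun p : Cfsg.GolayPt => p.elim (1 : ZMod 2) u) = u := rfl
      rw [h1]
      have h2 : (if (fun p : Cfsg.GolayPt => p.elim (1 : ZMod 2) u) none = 0 then 0 else 1) = 1 := by
        rw [if_neg]
        show (1 : ZMod 2) ≠ 0
        decide
      rw [h2]
      omega
    · refine ⟨fun p => p.elim 0 u, rfl, ?_⟩
      rw [gc_punct_norm]
      have h1 : gcPunct (fun p : Cfsg.GolayPt => p.elim (0 : ZMod 2) u) = u := rfl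
      rw [h1]
      have h2 : (if (fun p : Cfsg.GolayPt => p.elim (0 : ZMod 2) u) none = 0 then 0 else 1) = 0 := by
        rw [if_pos]
        rfl
      rw [h2]
      omega
  have hcos := g24g_coset gc_card_pt gc_min gc_g24.cardf v
  have hex : ∃ e : Cfsg.GolayPt → ZMod 2, hammingNorm e ≤ 3 ∧ e - v ∈ Cfsg.golayCode := by
    rcases hcos with ⟨h1, _⟩ | ⟨_, h2⟩
    · have hpos : 0 < (Finset.univ.filter (fun u : Cfsg.GolayPt → ZMod 2 =>
          hammingNorm u ≤ 3 ∧ u - v ∈ Cfsg.golayCode)).card := by omega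
      obtain ⟨e, he⟩ := Finset.card_pos.mp hpos
      exact ⟨e, (Finset.mem_filter.mp he).2⟩
    · exfalso
      have hpos : 0 < (Finset.univ.filter (fun u : Cfsg.GolayPt → ZMod 2 =>
          hammingNorm u = 4 ∧ u - v ∈ Cfsg.golayCode)).card := by omega
      obtain ⟨e, he⟩ := Finset.card_pos.mp hpos
      obtain ⟨he4, hec⟩ := (Finset.mem_filter.mp he).2
      obtain ⟨m, hm⟩ := gc_doubly_even _ hec
      have h3 := g24_norm_sub e v
      omega
  obtain ⟨e, he3, hec⟩ := hex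
  have hw : v - e ∈ Cfsg.golayCode := by
    have h1 := Submodule.neg_mem _ hec
    rwa [neg_sub] at h1
  have hd : hammingDist u (gcPunct (v - e)) ≤ 3 := by
    rw [gc_dist_norm, ← hv1, ← gc_punct_sub]
    have h1 : v - (v - e) = e := sub_sub_cancel v e
    rw [h1]
    exact le_trans (gc_punct_le e) he3
  refine ⟨gcPunct (v - e), ⟨⟨v - e, hw, fun x => rfl⟩, hd⟩, ?_⟩
  rintro c' ⟨⟨w', hw', hc'⟩, hd'⟩
  have hc'' : c' = gcPunct w' := funext hc'
  rw [hc'']
  rw [hc''] at hd'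
  have h6 : hammingDist (gcPunct w') (gcPunct (v - e)) ≤ 6 := by
    have h1 := hammingDist_triangle (gcPunct w') u (gcPunct (v - e))
    rw [hammingDist_comm (gcPunct w') u] at h1
    omega
  rw [gc_punct_dist hw' hw h6]

end Cfsg.Agent.Lib.Helper7
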