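import Mathlib
import Cfsg.Prelude
import Cfsg.Agent.Lib.Helper7.GolayC55

set_option autoImplicit false

namespace Cfsg.Agent.Lib.Helper7

open scoped Pointwise

theorem gc_z23_tab : ∀ a : Fin 24, ((8388607 : ℕ).testBit a.val = true ↔ gcPt a ≠ none) := by
  decide

theorem gc_mem_z23 (p : Cfsg.GolayPt) : p ∈ gcSet 8388607 ↔ p ≠ none := by
  obtain ⟨a, rfl⟩ := gcEquiv.surjective p
  show gcPt a ∈ gcSet 8388607 ↔ gcPt a ≠ none
  rw [gc_mem_set]
  exact gc_z23_tab a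

/-- weight of the punctured indicator -/
theorem gc_punct_ind_norm (S : Finset Cfsg.GolayPt) :
    hammingNorm (gcPunct (g24Ind S)) = (gcSet 8388607 ∩ S).card := by
  classical
  have h1 := gc_punct_norm (g24Ind S)
  rw [g24_norm_eq (g24Ind S), g24_supp_ind] at h1
  have h2 : gcSet 8388607 ∩ S = S.erase none := by
    ext p
    rw [Finset.mem_inter, gc_mem_z23, Finset.mem_erase]
  rw [h2]
  by_cases hn : none ∈ S
  · rw [Finset.card_erase_of_mem hn]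
    have h3 : g24Ind S none = 1 := by
      unfold g24Ind
      rw [if_pos hn]
    rw [h3] at h1
    have h4 : (if (1 : ZMod 2) = 0 then 0 else 1) = 1 := by decide
    rw [h4] at h1
    omega
  · rw [Finset.erase_eq_of_notMem hn]
    have h3 : g24Ind S none = 0 := by
      unfold g24Ind
      rw [if_neg hn]
    rw [h3] at h1
    have h4 : (if (0 : ZMod 2) = 0 then 0 else 1) = 0 := by decide
    rw [h4] at h1
    omega

/-- the counting condition for punctured weights -/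
def gcQP (k : ℕ) (m : ℕ) : Bool := gcPopF (8388607 &&& m) == k

theorem gc_punct_count (k : ℕ) : {u : ZMod 23 → ZMod 2 | u ∈ {u : ZMod 23 → ZMod 2 |
    ∃ w ∈ Cfsg.golayCode, ∀ x : ZMod 23, u x = w (some x)} ∧ hammingNorm u = k}.ncard =
      gcCountF (gcQP k) := by
  classical
  have hset : {u : ZMod 23 → ZMod 2 | u ∈ {u : ZMod 23 → ZMod 2 |
      ∃ w ∈ Cfsg.golayCode, ∀ x : ZMod 23, u x = w (some x)} ∧ hammingNorm u = k} =
      (fun S : Finset Cfsg.GolayPt => gcPunct (g24Ind S)) ''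
        {S | g24Ind S ∈ Cfsg.golayCode ∧ hammingNorm (gcPunct (g24Ind S)) = k} := by
    ext u
    constructor
    · rintro ⟨⟨w, hw, h⟩, hk⟩
      have hu : u = gcPunct w := funext h
      refine ⟨Cfsg.support₂ w, ⟨?_, ?_⟩, ?_⟩
      · rw [g24_ind_supp]
        exact hw
      · rw [g24_ind_supp, ← hu]
        exact hk
      · show gcPunct (g24Ind (Cfsg.support₂ w)) = u
        rw [g24_ind_supp, hu]
    · rintro ⟨S, ⟨hS, hk⟩, rfl⟩
      exact ⟨⟨g24Ind S, hS, fun x => rfl⟩, hk⟩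
  rw [hset, Set.ncard_image_of_injOn]
  · apply gc_count (fun S => g24Ind S ∈ Cfsg.golayCode ∧ hammingNorm (gcPunct (g24Ind S)) = k)
    · intro S hS
      exact hS.1
    · intro b hb
      unfold gcQP
      rw [beq_iff_eq, gc_punct_ind_norm, gc_set_inter, gc_set_cardF]
      constructor
      · rintro ⟨_, h⟩
        exact h
      · intro h
        exact ⟨gc_set_cw_mem b, h⟩
  · intro S hS S' hS' h
    apply g24_ind_inj
    exact gc_punct_injOn hS.1 hS'.1 h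

theorem gc_punct_tab : gcCountF (gcQP 7) = 253 ∧ gcCountF (gcQP 8) = 506 ∧
    gcCountF (gcQP 11) = 1288 ∧ gcCountF (gcQP 12) = 1288 ∧ gcCountF (gcQP 15) = 506 ∧
    gcCountF (gcQP 16) = 253 := by
  decide +kernel

theorem gc_s1636 : {u : ZMod 23 → ZMod 2 | ∃ w ∈ Cfsg.golayCode, ∀ x : ZMod 23, u x = w (some x)}.ncard = 4096 ∧ {u : ZMod 23 → ZMod 2 | u ∈ {u : ZMod 23 → ZMod 2 | ∃ w ∈ Cfsg.golayCode, ∀ x : ZMod 23, u x = w (some x)} ∧ hammingNorm u = 7}.ncard = 253 ∧ {u : ZMod 23 → ZMod 2 | u ∈ {u : ZMod 23 → ZMod 2 | ∃ w ∈ Cfsg.golayCode, ∀ x : ZMod 23, u x = w (some x)} ∧ hammingNorm u = 8}.ncard = 506 ∧ {u : ZMod 23 → ZMod 2 | u ∈ {u : ZMod 23 → ZMod 2 | ∃ w ∈ Cfsg.golayCode, ∀ x : ZMod 23, u x = w (some x)} ∧ hammingNorm u = 11}.ncard = 1288 ∧ {u : ZMod 23 → ZMod 2 | u ∈ {u : ZMod 23 → ZMod 2 | ∃ w ∈ Cfsg.golayCode, ∀ x : ZMod 23, u x = w (some x)} ∧ hammingNorm u = 12}.ncard = 1288 ∧ {u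 : ZMod 23 → ZMod 2 | u ∈ {u : ZMod 23 → ZMod 2 | ∃ w ∈ Cfsg.golayCode, ∀ x : ZMod 23, u x = w (some x)} ∧ hammingNorm u = 15}.ncard = 506 ∧ {u : ZMod 23 → ZMod 2 | u ∈ {u : ZMod 23 → ZMod 2 | ∃ w ∈ Cfsg.golayCode, ∀ x : ZMod 23, u x = w (some x)} ∧ hammingNorm u = 16}.ncard = 253 ∧ ∀ u ∈ {u : ZMod 23 → ZMod 2 | ∃ w ∈ Cfsg.golayCode, ∀ x : ZMod 23, u x = w (some x)}, u ≠ 0 → 7 ≤ hammingNorm u := by
  obtain ⟨t7, t8, t11, t12, t15, t16⟩ := gc_punct_tab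
  refine ⟨gc_punct_ncard, ?_, ?_, ?_, ?_, ?_, ?_, gc_punct_min⟩
  · rw [gc_punct_count, t7]
  · rw [gc_punct_count, t8]
  · rw [gc_punct_count, t11]
  · rw [gc_punct_count, t12]
  · rw [gc_punct_count, t15]
  · rw [gc_punct_count, t16]

end Cfsg.Agent.Lib.Helper7
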