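import Mathlib
import Cfsg.Prelude
import Cfsg.Agent.Lib.Helper7.GolayC22

set_option autoImplicit false

namespace Cfsg.Agent.Lib.Helper7

open scoped Pointwise

theorem gc_trio_compl {o o' : Finset Cfsg.GolayPt} (ho : o ∈ Cfsg.octads)
    (ho' : o' ∈ Cfsg.octads) (hd : Disjoint o o') : (o ∪ o')ᶜ ∈ Cfsg.octads := by
  classical
  rw [gc_octad_iff] at ho ho' ⊢
  have h1 := gc_symm_mem ho.1 ho'.1
  have h2 : (o \ o') ∪ (o' \ o) = o ∪ o' := by
    rw [Finset.sdiff_eq_self_of_disjoint hd, Finset.sdiff_eq_self_of_disjoint hd.symm]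
  rw [h2] at h1
  refine ⟨gc_compl_ind_mem h1, ?_⟩
  rw [Finset.card_compl, Finset.card_union_of_disjoint hd, ho.2, ho'.2, gc_card_pt]

theorem gc_ne_of_disj {a b : Finset Cfsg.GolayPt} (ha : a.card = 8) (hab : Disjoint a b) :
    a ≠ b := by
  intro h
  subst h
  rw [disjoint_self, Finset.bot_eq_empty] at hab
  rw [hab] at ha
  simp at ha

theorem gc_trio_mk {o o' : Finset Cfsg.GolayPt} (ho : o ∈ Cfsg.octads)
    (ho' : o' ∈ Cfsg.octads) (hd : Disjoint o o') :
    ({o, o', (o ∪ o')ᶜ} : Finset (Finset Cfsg.GolayPt)) ∈ Cfsg.trios := by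
  classical
  have hc := gc_trio_compl ho ho' hd
  have h8 : o.card = 8 := ((gc_octad_iff o).mp ho).2
  have h8' : o'.card = 8 := ((gc_octad_iff o').mp ho').2
  have hdc : Disjoint o (o ∪ o')ᶜ := by
    rw [Finset.disjoint_left]
    intro x hx hxc
    exact (Finset.mem_compl.mp hxc) (Finset.mem_union_left _ hx)
  have hdc' : Disjoint o' (o ∪ o')ᶜ := by
    rw [Finset.disjoint_left]
    intro x hx hxc
    exact (Finset.mem_compl.mp hxc) (Finset.mem_union_right _ hx)
  have h1 : o ≠ o' := gc_ne_of_disj h8 hd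
  have h2 : o ≠ (o ∪ o')ᶜ := gc_ne_of_disj h8 hdc
  have h3 : o' ≠ (o ∪ o')ᶜ := gc_ne_of_disj h8' hdc'
  refine ⟨?_, ?_, ?_⟩
  · rw [Finset.card_insert_of_notMem, Finset.card_insert_of_notMem, Finset.card_singleton]
    · rw [Finset.mem_singleton]
      exact h3
    · rw [Finset.mem_insert, Finset.mem_singleton]
      rintro (h | h)
      · exact h1 h
      · exact h2 h
  · intro a ha
    rw [Finset.mem_insert, Finset.mem_insert, Finset.mem_singleton] at ha
    rcases ha with rfl | rfl | rfl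
    · exact ho
    · exact ho'
    · exact hc
  · intro a ha b hb hab
    rw [Finset.mem_insert, Finset.mem_insert, Finset.mem_singleton] at ha hb
    rcases ha with ha | ha | ha <;> rcases hb with hb | hb | hb
    · exact absurd (ha.trans hb.symm) hab
    · rw [ha, hb]; exact hd
    · rw [ha, hb]; exact hdc
    · rw [ha, hb]; exact hd.symm
    · exact absurd (ha.trans hb.symm) hab
    · rw [ha, hb]; exact hdc'
    · rw [ha, hb]; exact hdc.symm
    · rw [ha, hb]; exact hdc'.symm
    · exact absurd (ha.trans hb.symm) hab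

theorem gc_trio_eq {T : Finset (Finset Cfsg.GolayPt)} (hT : T ∈ Cfsg.trios)
    {o o' : Finset Cfsg.GolayPt} (ho : o ∈ T) (ho' : o' ∈ T) (hne : o ≠ o') :
    T = {o, o', (o ∪ o')ᶜ} := by
  classical
  obtain ⟨h3, hoct, hdis⟩ := hT
  have hd := hdis o ho o' ho' hne
  have h8 : o.card = 8 := ((gc_octad_iff o).mp (hoct o ho)).2
  have h8' : o'.card = 8 := ((gc_octad_iff o').mp (hoct o' ho')).2
  have hlt : ({o, o'} : Finset (Finset Cfsg.GolayPt)).card < T.card := by
    rw [h3]
    exact lt_of_le_of_lt Finset.card_le_two (by norm_num)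
  obtain ⟨o'', ho'', hnot⟩ := Finset.exists_mem_notMem_of_card_lt_card hlt
  rw [Finset.mem_insert, Finset.mem_singleton, not_or] at hnot
  have hd1 := hdis o'' ho'' o ho hnot.1
  have hd2 := hdis o'' ho'' o' ho' hnot.2
  have h8'' : o''.card = 8 := ((gc_octad_iff o'').mp (hoct o'' ho'')).2
  have hsub : o'' ⊆ (o ∪ o')ᶜ := by
    intro x hx
    rw [Finset.mem_compl, Finset.mem_union, not_or]
    exact ⟨Finset.disjoint_left.mp hd1 hx, Finset.disjoint_left.mp hd2 hx⟩
  have hcc : ((o ∪ o')ᶜ).card = 8 := by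
    rw [Finset.card_compl, Finset.card_union_of_disjoint hd, h8, h8', gc_card_pt]
  have heq : o'' = (o ∪ o')ᶜ := Finset.eq_of_subset_of_card_le hsub (by rw [hcc, h8''])
  rw [← heq]
  symm
  apply Finset.eq_of_subset_of_card_le
  · intro a ha
    rw [Finset.mem_insert, Finset.mem_insert, Finset.mem_singleton] at ha
    rcases ha with rfl | rfl | rfl
    · exact ho
    · exact ho'
    · exact ho''
  · rw [h3, Finset.card_insert_of_notMem, Finset.card_insert_of_notMem, Finset.card_singleton]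
    · rw [Finset.mem_singleton]
      exact fun h => hnot.2 h.symm
    · rw [Finset.mem_insert, Finset.mem_singleton]
      rintro (h | h)
      · exact hne h
      · exact hnot.1 h.symm

theorem gc_disj_oct_card (o : Finset Cfsg.GolayPt) (ho : o ∈ Cfsg.octads) :
    (gcOct.filter (fun o' => Disjoint o o')).card = 30 := by
  classical
  have h1 := gc_cnt_inter o ho 0
  rw [gc_cnt_inter_tab.1] at h1
  rw [← h1, ← Set.ncard_coe_finset]
  congr 1
  ext o'
  rw [Finset.mem_coe, Finset.mem_filter, gc_mem_oct, Set.mem_setOf_eq, Finset.card_eq_zero,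
    Finset.disjoint_iff_inter_eq_empty]

theorem gc_trios_card : Cfsg.trios.ncard = 3795 := by
  classical
  let Tf : Finset (Finset (Finset Cfsg.GolayPt)) := Finset.univ.filter (fun T => T ∈ Cfsg.trios)
  have hTf : Cfsg.trios = (Tf : Set (Finset (Finset Cfsg.GolayPt))) := by
    ext T
    rw [Finset.mem_coe, Finset.mem_filter]
    exact ⟨fun h => ⟨Finset.mem_univ _, h⟩, fun h => h.2⟩
  let Df : Finset (Finset Cfsg.GolayPt × Finset Cfsg.GolayPt) :=
    (gcOct ×ˢ gcOct).filter (fun p => Disjoint p.1 p.2)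
  let f : Finset Cfsg.GolayPt × Finset Cfsg.GolayPt → Finset (Finset Cfsg.GolayPt) :=
    fun p => {p.1, p.2, (p.1 ∪ p.2)ᶜ}
  have hmaps : ∀ p ∈ Df, f p ∈ Tf := by
    intro p hp
    rw [Finset.mem_filter, Finset.mem_product, gc_mem_oct, gc_mem_oct] at hp
    exact Finset.mem_filter.mpr ⟨Finset.mem_univ _, gc_trio_mk hp.1.1 hp.1.2 hp.2⟩
  have h1 := Finset.card_eq_sum_card_fiberwise hmaps
  have hfib : ∀ T ∈ Tf, (Df.filter (fun p => f p = T)).card = 6 := by
    intro T hT
    have hT' : T ∈ Cfsg.trios := (Finset.mem_filter.mp hT).2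
    have heq : Df.filter (fun p => f p = T) = T.offDiag := by
      ext p
      rw [Finset.mem_filter, Finset.mem_offDiag]
      constructor
      · rintro ⟨hp, hfp⟩
        rw [Finset.mem_filter, Finset.mem_product, gc_mem_oct, gc_mem_oct] at hp
        have h8 : p.1.card = 8 := ((gc_octad_iff p.1).mp hp.1.1).2
        rw [← hfp]
        refine ⟨?_, ?_, ?_⟩
        · exact Finset.mem_insert_self _ _
        · exact Finset.mem_insert_of_mem (Finset.mem_insert_self _ _)
        · exact gc_ne_of_disj h8 hp.2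
      · rintro ⟨h1, h2, hne⟩
        have hd := hT'.2.2 p.1 h1 p.2 h2 hne
        refine ⟨?_, (gc_trio_eq hT' h1 h2 hne).symm⟩
        rw [Finset.mem_filter, Finset.mem_product, gc_mem_oct, gc_mem_oct]
        exact ⟨⟨hT'.2.1 p.1 h1, hT'.2.1 p.2 h2⟩, hd⟩
    rw [heq, Finset.offDiag_card, hT'.1]
  rw [Finset.sum_congr rfl hfib, Finset.sum_const, smul_eq_mul] at h1
  have hD : Df.card = 759 * 30 := by
    show ((gcOct ×ˢ gcOct).filter (fun p => Disjoint p.1 p.2)).card = 759 * 30
    rw [Finset.card_filter, Finset.sum_product]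
    have h2 : ∀ o ∈ gcOct, (∑ o' ∈ gcOct, if Disjoint (o, o').1 (o, o').2 then 1 else 0) = 30 := by
      intro o ho
      rw [← Finset.card_filter]
      exact gc_disj_oct_card o ((gc_mem_oct o).mp ho)
    rw [Finset.sum_congr rfl h2, Finset.sum_const, gc_oct_card, smul_eq_mul]
  rw [hTf, Set.ncard_coe_finset]
  omega

theorem gc_s1557 : (∀ o o' : Finset Cfsg.GolayPt, o ∈ Cfsg.octads → o' ∈ Cfsg.octads →
    Disjoint o o' → (o ∪ o')ᶜ ∈ Cfsg.octads) ∧ Cfsg.trios.ncard = 3795 :=
  ⟨fun _ _ ho ho' hd => gc_trio_compl ho ho' hd, gc_trios_card⟩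

end Cfsg.Agent.Lib.Helper7
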