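import Mathlib
import Cfsg.Prelude
import Cfsg.Agent.Lib.Helper7.GolayC22
import Cfsg.Agent.Lib.Helper7.Steiner

set_option autoImplicit false

namespace Cfsg.Agent.Lib.Helper7

open scoped Pointwise

/-- the octads through a set -/
noncomputable def gcThru (t : Finset Cfsg.GolayPt) : Finset (Finset Cfsg.GolayPt) :=
  gcOct.filter (fun o => t ⊆ o)

theorem gc_mem_thru (t o : Finset Cfsg.GolayPt) : o ∈ gcThru t ↔ o ∈ Cfsg.octads ∧ t ⊆ o := by
  unfold gcThru
  rw [Finset.mem_filter, gc_mem_oct]

theorem gc_thru_card (t : Finset Cfsg.GolayPt) (ht : t.card = 4) : (gcThru t).card = 5 := by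
  have h := st_lambda gc_steiner gcOct gc_mem_oct t (by rw [ht]; norm_num)
  rw [ht, gc_card_pt] at h
  have h4 : Nat.choose (8 - 4) (5 - 4) = 4 := by decide
  have h20 : Nat.choose (24 - 4) (5 - 4) = 20 := by decide
  rw [h4, h20] at h
  unfold gcThru
  omega

theorem gc_thru_inter {t o o' : Finset Cfsg.GolayPt} (ht : t.card = 4) (ho : o ∈ gcThru t)
    (ho' : o' ∈ gcThru t) (hne : o ≠ o') : o ∩ o' = t := by
  rw [gc_mem_thru] at ho ho'
  have h8 : o.card = 8 := ((gc_octad_iff o).mp ho.1).2
  have h8' : o'.card = 8 := ((gc_octad_iff o').mp ho'.1).2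
  have hsub : t ⊆ o ∩ o' := Finset.subset_inter ho.2 ho'.2
  have hle := Finset.card_le_card hsub
  have hcases := gc_octad_octad ho.1 ho'.1
  have hn8 : (o ∩ o').card ≠ 8 := by
    intro h
    exact hne (gc_eq_of_inter_card (by rw [h, h8]) (by rw [h8, h8']))
  symm
  exact Finset.eq_of_subset_of_card_le hsub (by omega)

/-- the sextet of a tetrad -/
noncomputable def gcSext (t : Finset Cfsg.GolayPt) : Finset (Finset Cfsg.GolayPt) :=
  insert t ((gcThru t).image (fun o => o \ t))

theorem gc_sext_card (t : Finset Cfsg.GolayPt) (ht : t.card = 4) : (gcSext t).card = 6 := by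
  unfold gcSext
  rw [Finset.card_insert_of_notMem, Finset.card_image_of_injOn, gc_thru_card t ht]
  · intro o ho o' ho' h
    have h1 := ((gc_mem_thru t o).mp (Finset.mem_coe.mp ho)).2
    have h2 := ((gc_mem_thru t o').mp (Finset.mem_coe.mp ho')).2
    have h3 : o \ t = o' \ t := h
    rw [← Finset.sdiff_union_of_subset h1, ← Finset.sdiff_union_of_subset h2, h3]
  · intro hmem
    rw [Finset.mem_image] at hmem
    obtain ⟨o, _, ho⟩ := hmem
    have hne : t.Nonempty := by
      rw [← Finset.card_pos, ht]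
      norm_num
    obtain ⟨x, hx⟩ := hne
    have hx' : x ∈ o \ t := by
      rw [ho]
      exact hx
    exact (Finset.mem_sdiff.mp hx').2 hx

theorem gc_sext_mem (t : Finset Cfsg.GolayPt) (ht : t.card = 4) : gcSext t ∈ Cfsg.sextets := by
  refine ⟨gc_sext_card t ht, ?_, ?_⟩
  · intro u hu
    unfold gcSext at hu
    rw [Finset.mem_insert, Finset.mem_image] at hu
    rcases hu with rfl | ⟨o, ho, rfl⟩
    · exact ht
    · rw [gc_mem_thru] at ho
      rw [Finset.card_sdiff_of_subset ho.2, ((gc_octad_iff o).mp ho.1).2, ht]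
  · intro u hu v hv huv
    unfold gcSext at hu hv
    rw [Finset.mem_insert, Finset.mem_image] at hu hv
    rcases hu with hu | ⟨o, ho, hu⟩ <;> rcases hv with hv | ⟨o', ho', hv⟩
    · exact absurd (hu.trans hv.symm) huv
    · rw [hu, ← hv]
      have ho2 := (gc_mem_thru t o').mp ho'
      rw [Finset.union_sdiff_of_subset ho2.2]
      exact ho2.1
    · rw [hv, ← hu]
      have ho2 := (gc_mem_thru t o).mp ho
      rw [Finset.sdiff_union_of_subset ho2.2]
      exact ho2.1
    · have hne : o ≠ o' := by
        intro h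
        rw [h] at hu
        exact huv (hu.symm.trans hv)
      have hint := gc_thru_inter ht ho ho' hne
      have ho2 := (gc_mem_thru t o).mp ho
      have ho2' := (gc_mem_thru t o').mp ho'
      have h8 : o.card = 8 := ((gc_octad_iff o).mp ho2.1).2
      have h8' : o'.card = 8 := ((gc_octad_iff o').mp ho2'.1).2
      have e1 : o \ t = o \ o' := by
        rw [← hint, Finset.sdiff_inter_self_left]
      have e2 : o' \ t = o' \ o := by
        rw [← hint, Finset.sdiff_inter_self_right]
      rw [← hu, ← hv, e1, e2, gc_octad_iff]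
      refine ⟨gc_symm_mem ((gc_octad_iff o).mp ho2.1).1 ((gc_octad_iff o').mp ho2'.1).1, ?_⟩
      have hd : Disjoint (o \ o') (o' \ o) := by
        rw [Finset.disjoint_left]
        intro x hx hx'
        exact (Finset.mem_sdiff.mp hx).2 (Finset.mem_sdiff.mp hx').1
      rw [Finset.card_union_of_disjoint hd, ← e1, ← e2, Finset.card_sdiff_of_subset ho2.2,
        Finset.card_sdiff_of_subset ho2'.2, h8, h8', ht]

theorem gc_sext_unique {S : Finset (Finset Cfsg.GolayPt)} (hS : S ∈ Cfsg.sextets)
    {t : Finset Cfsg.GolayPt} (htS : t ∈ S) : S = gcSext t := by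
  obtain ⟨h6, h4, hoct⟩ := hS
  have ht := h4 t htS
  apply Finset.eq_of_subset_of_card_le
  · intro u hu
    unfold gcSext
    rw [Finset.mem_insert, Finset.mem_image]
    by_cases hut : u = t
    · left
      exact hut
    · right
      have ho := hoct t htS u hu (fun h => hut h.symm)
      have h8 : (t ∪ u).card = 8 := ((gc_octad_iff _).mp ho).2
      have hu4 := h4 u hu
      have hci := Finset.card_union_add_card_inter t u
      have hdis : Disjoint u t := by
        rw [Finset.disjoint_iff_inter_eq_empty, ← Finset.card_eq_zero, Finset.inter_comm]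
        omega
      refine ⟨t ∪ u, (gc_mem_thru t _).mpr ⟨ho, Finset.subset_union_left⟩, ?_⟩
      rw [Finset.union_sdiff_left, Finset.sdiff_eq_self_of_disjoint hdis]
  · rw [gc_sext_card t ht, h6]

theorem gc_sextets_card : Cfsg.sextets.ncard = 1771 := by
  classical
  let Sf : Finset (Finset (Finset Cfsg.GolayPt)) :=
    Finset.univ.filter (fun S => S ∈ Cfsg.sextets)
  have hSf : Cfsg.sextets = (Sf : Set (Finset (Finset Cfsg.GolayPt))) := by
    ext S
    rw [Finset.mem_coe, Finset.mem_filter]
    exact ⟨fun h => ⟨Finset.mem_univ _, h⟩, fun h => h.2⟩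
  have hmaps : ∀ t ∈ Finset.powersetCard 4 (Finset.univ : Finset Cfsg.GolayPt),
      gcSext t ∈ Sf := by
    intro t ht
    exact Finset.mem_filter.mpr ⟨Finset.mem_univ _,
      gc_sext_mem t (Finset.mem_powersetCard.mp ht).2⟩
  have h1 := Finset.card_eq_sum_card_fiberwise hmaps
  have hfib : ∀ S ∈ Sf, ((Finset.powersetCard 4 (Finset.univ : Finset Cfsg.GolayPt)).filter
      (fun t => gcSext t = S)).card = 6 := by
    intro S hS
    have hS' : S ∈ Cfsg.sextets := (Finset.mem_filter.mp hS).2
    have heq : (Finset.powersetCard 4 (Finset.univ : Finset Cfsg.GolayPt)).filter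
        (fun t => gcSext t = S) = S := by
      ext t
      rw [Finset.mem_filter, Finset.mem_powersetCard]
      constructor
      · rintro ⟨_, hfp⟩
        rw [← hfp]
        exact Finset.mem_insert_self _ _
      · intro ht
        exact ⟨⟨Finset.subset_univ _, hS'.2.1 t ht⟩, (gc_sext_unique hS' ht).symm⟩
    rw [heq, hS'.1]
  rw [Finset.sum_congr rfl hfib, Finset.sum_const, smul_eq_mul, Finset.card_powersetCard,
    Finset.card_univ, gc_card_pt] at h1
  have hch : Nat.choose 24 4 = 10626 := by decide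
  rw [hch] at h1
  rw [hSf, Set.ncard_coe_finset]
  omega

theorem gc_s1550 : (∀ t : Finset Cfsg.GolayPt, t.card = 4 → ∃! S : Finset (Finset Cfsg.GolayPt),
    S ∈ Cfsg.sextets ∧ t ∈ S) ∧ Cfsg.sextets.ncard = 1771 := by
  refine ⟨?_, gc_sextets_card⟩
  intro t ht
  refine ⟨gcSext t, ⟨gc_sext_mem t ht, Finset.mem_insert_self _ _⟩, ?_⟩
  rintro S ⟨hS, htS⟩
  exact gc_sext_unique hS htS

end Cfsg.Agent.Lib.Helper7
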