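import Mathlib
import Cfsg.Prelude
import Cfsg.Agent.Lib.Helper7.GolayC22

set_option autoImplicit false

namespace Cfsg.Agent.Lib.Helper7

open scoped Pointwise

/-- symmetric difference of two octads meeting in four points is an octad -/
theorem gc_symm_octad4 {o o' : Finset Cfsg.GolayPt} (ho : o ∈ Cfsg.octads)
    (ho' : o' ∈ Cfsg.octads) (h4 : (o ∩ o').card = 4) : (o \ o') ∪ (o' \ o) ∈ Cfsg.octads := by
  rw [gc_octad_iff] at ho ho' ⊢
  refine ⟨gc_symm_mem ho.1 ho'.1, ?_⟩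
  have h := g24_card_symm o o'
  omega

theorem gc_hexad_sub {d h : Finset Cfsg.GolayPt} (hh : h ∈ Cfsg.hexadsOn d) : h ⊆ d := by
  obtain ⟨_, o, _, e⟩ := hh
  rw [← e]
  exact Finset.inter_subset_right

/-- complement of a hexad -/
theorem gc_hexad_compl {d h : Finset Cfsg.GolayPt} (hd : d ∈ Cfsg.dodecads)
    (hh : h ∈ Cfsg.hexadsOn d) : d \ h ∈ Cfsg.hexadsOn d := by
  obtain ⟨h6, o, ho, rfl⟩ := hh
  have hd' := (gc_dodecad_iff d).mp hd
  have ho' := (gc_octad_iff o).mp ho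
  have hsub : o ∩ d ⊆ d := Finset.inter_subset_right
  refine ⟨by rw [Finset.card_sdiff_of_subset hsub, hd'.2, h6], (o \ d) ∪ (d \ o), ?_, ?_⟩
  · rw [gc_octad_iff]
    refine ⟨gc_symm_mem ho'.1 hd'.1, ?_⟩
    have h := g24_card_symm o d
    omega
  · ext x
    simp only [Finset.mem_inter, Finset.mem_union, Finset.mem_sdiff]
    tauto

/-- two hexads sharing five points coincide -/
theorem gc_hexad_eq {d h1 h2 : Finset Cfsg.GolayPt} (h1m : h1 ∈ Cfsg.hexadsOn d)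
    (h2m : h2 ∈ Cfsg.hexadsOn d) (h5 : 5 ≤ (h1 ∩ h2).card) : h1 = h2 := by
  obtain ⟨_, o1, ho1, rfl⟩ := h1m
  obtain ⟨_, o2, ho2, rfl⟩ := h2m
  have hsub : (o1 ∩ d) ∩ (o2 ∩ d) ⊆ o1 ∩ o2 := by
    intro x hx
    simp only [Finset.mem_inter] at hx ⊢
    exact ⟨hx.1.1, hx.2.1⟩
  have hle := Finset.card_le_card hsub
  have h8 : (o1 ∩ o2).card = 8 := by
    rcases gc_octad_octad ho1 ho2 with h | h | h | h <;> omega
  have heq : o1 = o2 := gc_eq_of_inter_card (by rw [h8, ((gc_octad_iff o1).mp ho1).2])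
    (by rw [((gc_octad_iff o1).mp ho1).2, ((gc_octad_iff o2).mp ho2).2])
  rw [heq]

/-- five points of a dodecad lie in a hexad -/
theorem gc_hexad_five {d s : Finset Cfsg.GolayPt} (hd : d ∈ Cfsg.dodecads) (hs : s ⊆ d)
    (h5 : s.card = 5) : ∃ k ∈ Cfsg.hexadsOn d, s ⊆ k := by
  obtain ⟨o, ⟨ho, hso⟩, _⟩ := gc_steiner.2 s h5
  have hsub : s ⊆ o ∩ d := Finset.subset_inter hso hs
  have hle := Finset.card_le_card hsub
  refine ⟨o ∩ d, ⟨?_, o, ho, rfl⟩, hsub⟩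
  rcases gc_octad_dodecad ho hd with h | h | h <;> omega

/-- switching a triple -/
theorem gc_hexad_switch {d t u v : Finset Cfsg.GolayPt}
    (hu : u.card = 3) (hv : v.card = 3)
    (htu : Disjoint t u) (htv : Disjoint t v) (huv : Disjoint u v)
    (h1 : t ∪ u ∈ Cfsg.hexadsOn d) (h2 : t ∪ v ∈ Cfsg.hexadsOn d) :
    u ∪ v ∈ Cfsg.hexadsOn d := by
  obtain ⟨c0, o0, ho0, e0⟩ := h1
  obtain ⟨c1, o1, ho1, e1⟩ := h2
  have ht : 3 ≤ t.card := by
    rw [Finset.card_union_of_disjoint htu, hu] at c0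
    omega
  have m0 : ∀ x, (x ∈ o0 ∧ x ∈ d) ↔ (x ∈ t ∨ x ∈ u) := by
    intro x
    rw [← Finset.mem_inter, e0, Finset.mem_union]
  have m1 : ∀ x, (x ∈ o1 ∧ x ∈ d) ↔ (x ∈ t ∨ x ∈ v) := by
    intro x
    rw [← Finset.mem_inter, e1, Finset.mem_union]
  have dtu : ∀ x, x ∈ t → x ∉ u := fun x hx => Finset.disjoint_left.mp htu hx
  have dtv : ∀ x, x ∈ t → x ∉ v := fun x hx => Finset.disjoint_left.mp htv hx
  have duv : ∀ x, x ∈ u → x ∉ v := fun x hx => Finset.disjoint_left.mp huv hx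
  have hne : o0 ≠ o1 := by
    intro h
    obtain ⟨x, hx⟩ : u.Nonempty := by
      rw [← Finset.card_pos, hu]
      norm_num
    have h3 := (m0 x).mpr (Or.inr hx)
    rw [h] at h3
    rcases (m1 x).mp h3 with h4 | h4
    · exact dtu x h4 hx
    · exact duv x hx h4
  have htsub : t ⊆ o0 ∩ o1 := by
    intro x hx
    rw [Finset.mem_inter]
    exact ⟨((m0 x).mpr (Or.inl hx)).1, ((m1 x).mpr (Or.inl hx)).1⟩
  have hle := Finset.card_le_card htsub
  have h4 : (o0 ∩ o1).card = 4 := by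
    rcases gc_octad_octad ho0 ho1 with h | h | h | h
    · omega
    · omega
    · exact h
    · exfalso
      exact hne (gc_eq_of_inter_card (by rw [h, ((gc_octad_iff o0).mp ho0).2])
        (by rw [((gc_octad_iff o0).mp ho0).2, ((gc_octad_iff o1).mp ho1).2]))
  refine ⟨by rw [Finset.card_union_of_disjoint huv, hu, hv], (o0 \ o1) ∪ (o1 \ o0),
    gc_symm_octad4 ho0 ho1 h4, ?_⟩
  ext x
  simp only [Finset.mem_inter, Finset.mem_union, Finset.mem_sdiff]
  have a0 := m0 x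
  have a1 := m1 x
  have b1 := dtu x
  have b2 := dtv x
  have b3 := duv x
  tauto

end Cfsg.Agent.Lib.Helper7
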