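import Mathlib
import Cfsg.Prelude
import Cfsg.Agent.Lib.Helper7.GolayC59

set_option autoImplicit false

namespace Cfsg.Agent.Lib.Helper7

open scoped Pointwise

/-- some hexad meets a given hexad exactly in a given triple -/
theorem gc_quartet_exists_v {d t u : Finset Cfsg.GolayPt} (hd : d ∈ Cfsg.dodecads)
    (ht : t.card = 3) (hu : u.card = 3) (htu : Disjoint t u) (hh : t ∪ u ∈ Cfsg.hexadsOn d) :
    ∃ v : Finset Cfsg.GolayPt, v.card = 3 ∧ v ⊆ d \ (t ∪ u) ∧ t ∪ v ∈ Cfsg.hexadsOn d := by
  classical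
  have hd12 := ((gc_dodecad_iff d).mp hd).2
  have hhd : t ∪ u ⊆ d := gc_hexad_sub hh
  have hh6 : (t ∪ u).card = 6 := hh.1
  have hc6 : (d \ (t ∪ u)).card = 6 := by
    rw [Finset.card_sdiff_of_subset hhd, hd12, hh6]
  by_contra hcon
  push_neg at hcon
  have hmeet : ∀ k ∈ Cfsg.hexadsOn d, t ⊆ k → ∃ z ∈ u, z ∈ k := by
    intro k hk htk
    by_contra hno
    push_neg at hno
    have hkd : k ⊆ d := gc_hexad_sub hk
    apply hcon (k \ t)
    · rw [Finset.card_sdiff_of_subset htk, hk.1, ht]
    · intro x hx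
      rw [Finset.mem_sdiff] at hx ⊢
      refine ⟨hkd hx.1, ?_⟩
      rw [Finset.mem_union]
      rintro (h | h)
      · exact hx.2 h
      · exact hno x h hx.1
    · rw [Finset.union_sdiff_of_subset htk]
      exact hk
  obtain ⟨x, hx⟩ : (d \ (t ∪ u)).Nonempty := by
    rw [← Finset.card_pos, hc6]
    norm_num
  have hxd := Finset.mem_sdiff.mp hx
  have hxt : x ∉ t := fun h => hxd.2 (Finset.mem_union_left _ h)
  have hxu : x ∉ u := fun h => hxd.2 (Finset.mem_union_right _ h)
  have hchoose : ∀ y ∈ (d \ (t ∪ u)).erase x, ∃ z ∈ u, ∃ k ∈ Cfsg.hexadsOn d,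
      insert y (insert x t) ⊆ k ∧ z ∈ k := by
    intro y hy
    have hy' := Finset.mem_erase.mp hy
    have hyd := Finset.mem_sdiff.mp hy'.2
    have hyt : y ∉ insert x t := by
      rw [Finset.mem_insert]
      rintro (h | h)
      · exact hy'.1 h
      · exact hyd.2 (Finset.mem_union_left _ h)
    have hs5 : (insert y (insert x t)).card = 5 := by
      rw [Finset.card_insert_of_notMem hyt, Finset.card_insert_of_notMem hxt, ht]
    have hsd : insert y (insert x t) ⊆ d := by
      intro a ha
      rw [Finset.mem_insert, Finset.mem_insert] at ha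
      rcases ha with rfl | rfl | ha
      · exact hyd.1
      · exact hxd.1
      · exact hhd (Finset.mem_union_left _ ha)
    obtain ⟨k, hk, hsk⟩ := gc_hexad_five hd hsd hs5
    have htk : t ⊆ k := fun a ha =>
      hsk (Finset.mem_insert_of_mem (Finset.mem_insert_of_mem ha))
    obtain ⟨z, hz, hzk⟩ := hmeet k hk htk
    exact ⟨z, hz, k, hk, hsk, hzk⟩
  choose! f hf using hchoose
  have hcard : u.card < ((d \ (t ∪ u)).erase x).card := by
    rw [Finset.card_erase_of_mem hx, hc6, hu]
    norm_num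
  obtain ⟨y, hy, y', hy', hne, hfy⟩ :=
    Finset.exists_ne_map_eq_of_card_lt_of_maps_to hcard (fun y hy => (hf y hy).1)
  obtain ⟨hzu, k, hk, hsk, hzk⟩ := hf y hy
  obtain ⟨_, k', hk', hsk', hzk'⟩ := hf y' hy'
  have hy1 := Finset.mem_erase.mp hy
  have hy1' := Finset.mem_erase.mp hy'
  have hyd := Finset.mem_sdiff.mp hy1.2
  have hyd' := Finset.mem_sdiff.mp hy1'.2
  have hzt : f y ∉ t := fun h => Finset.disjoint_left.mp htu h hzu
  have hzx : f y ∉ insert x t := by
    rw [Finset.mem_insert]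
    rintro (h | h)
    · exact hxu (h ▸ hzu)
    · exact hzt h
  have hc5 : (insert (f y) (insert x t)).card = 5 := by
    rw [Finset.card_insert_of_notMem hzx, Finset.card_insert_of_notMem hxt, ht]
  have hsub1 : insert (f y) (insert x t) ⊆ k ∩ k' := by
    intro a ha
    rw [Finset.mem_insert] at ha
    rw [Finset.mem_inter]
    rcases ha with rfl | ha
    · exact ⟨hzk, by rw [hfy]; exact hzk'⟩
    · exact ⟨hsk (Finset.mem_insert_of_mem ha), hsk' (Finset.mem_insert_of_mem ha)⟩
  have hkk : k = k' := gc_hexad_eq hk hk' (by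
    rw [← hc5]
    exact Finset.card_le_card hsub1)
  have hyk : y ∈ k := hsk (Finset.mem_insert_self _ _)
  have hyk' : y' ∈ k := by
    rw [hkk]
    exact hsk' (Finset.mem_insert_self _ _)
  have hyz : y ∉ insert (f y) (insert x t) := by
    rw [Finset.mem_insert, Finset.mem_insert]
    rintro (h | h | h)
    · exact hyd.2 (Finset.mem_union_right _ (h ▸ hzu))
    · exact hy1.1 h
    · exact hyd.2 (Finset.mem_union_left _ h)
  have hyz' : y' ∉ insert y (insert (f y) (insert x t)) := by
    rw [Finset.mem_insert, Finset.mem_insert, Finset.mem_insert]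
    rintro (h | h | h | h)
    · exact hne h.symm
    · exact hyd'.2 (Finset.mem_union_right _ (h ▸ hzu))
    · exact hy1'.1 h
    · exact hyd'.2 (Finset.mem_union_left _ h)
  have hc7 : (insert y' (insert y (insert (f y) (insert x t)))).card = 7 := by
    rw [Finset.card_insert_of_notMem hyz', Finset.card_insert_of_notMem hyz, hc5]
  have hsub7 : insert y' (insert y (insert (f y) (insert x t))) ⊆ k := by
    intro a ha
    rw [Finset.mem_insert, Finset.mem_insert] at ha
    rcases ha with rfl | rfl | ha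
    · exact hyk'
    · exact hyk
    · exact (Finset.mem_inter.mp (hsub1 ha)).1
  have hle := Finset.card_le_card hsub7
  rw [hc7, hk.1] at hle
  omega

theorem gc_ne_of_disj3 {a b : Finset Cfsg.GolayPt} (ha : a.card = 3) (hab : Disjoint a b) :
    a ≠ b := by
  intro h
  subst h
  rw [disjoint_self, Finset.bot_eq_empty] at hab
  rw [hab] at ha
  simp at ha

/-- the complementary triple also works -/
theorem gc_quartet_compl {d t u a : Finset Cfsg.GolayPt} (hd : d ∈ Cfsg.dodecads)
    (hu : u.card = 3) (htu : Disjoint t u) (hh : t ∪ u ∈ Cfsg.hexadsOn d)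
    (ha3 : a.card = 3) (ha : a ⊆ d \ (t ∪ u)) (hta : t ∪ a ∈ Cfsg.hexadsOn d) :
    u ∪ a ∈ Cfsg.hexadsOn d ∧ t ∪ ((d \ (t ∪ u)) \ a) ∈ Cfsg.hexadsOn d := by
  have hhd : t ∪ u ⊆ d := gc_hexad_sub hh
  have dta : Disjoint t a := by
    rw [Finset.disjoint_left]
    intro x hx hxa
    exact (Finset.mem_sdiff.mp (ha hxa)).2 (Finset.mem_union_left _ hx)
  have dua : Disjoint u a := by
    rw [Finset.disjoint_left]
    intro x hx hxa
    exact (Finset.mem_sdiff.mp (ha hxa)).2 (Finset.mem_union_right _ hx)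
  have h1 := gc_hexad_switch hu ha3 htu dta dua hh hta
  refine ⟨h1, ?_⟩
  have h2 := gc_hexad_compl hd h1
  have e : d \ (u ∪ a) = t ∪ ((d \ (t ∪ u)) \ a) := by
    ext x
    simp only [Finset.mem_sdiff, Finset.mem_union]
    have b1 : x ∈ t → x ∈ d := fun h => hhd (Finset.mem_union_left _ h)
    have b2 : x ∈ t → x ∉ u := fun h => Finset.disjoint_left.mp htu h
    have b3 : x ∈ t → x ∉ a := fun h => Finset.disjoint_left.mp dta h
    tauto
  rw [e] at h2
  exact h2

/-- two triples completing `t` to hexads inside the complement meet in at most one point -/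
theorem gc_quartet_meet {d t b c : Finset Cfsg.GolayPt}
    (ht : t.card = 3) (dtb : Disjoint t b) (dtc : Disjoint t c)
    (htb : t ∪ b ∈ Cfsg.hexadsOn d) (htc : t ∪ c ∈ Cfsg.hexadsOn d) (hne : b ≠ c) :
    (b ∩ c).card ≤ 1 := by
  by_contra hcon
  push_neg at hcon
  have hsub : t ∪ (b ∩ c) ⊆ (t ∪ b) ∩ (t ∪ c) := by
    intro x hx
    simp only [Finset.mem_union, Finset.mem_inter] at hx ⊢
    tauto
  have hdis : Disjoint t (b ∩ c) := by
    rw [Finset.disjoint_left]
    intro x hx hxb
    exact Finset.disjoint_left.mp dtb hx (Finset.mem_inter.mp hxb).1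
  have hle := Finset.card_le_card hsub
  rw [Finset.card_union_of_disjoint hdis, ht] at hle
  have heq := gc_hexad_eq htb htc (by omega)
  apply hne
  have e1 : (t ∪ b) \ t = b := by
    rw [Finset.union_sdiff_left, Finset.sdiff_eq_self_of_disjoint dtb.symm]
  have e2 : (t ∪ c) \ t = c := by
    rw [Finset.union_sdiff_left, Finset.sdiff_eq_self_of_disjoint dtc.symm]
  rw [← e1, ← e2, heq]

theorem gc_quartet_two {d t u a b : Finset Cfsg.GolayPt} (hd : d ∈ Cfsg.dodecads)
    (ht : t.card = 3) (hu : u.card = 3) (htu : Disjoint t u) (hh : t ∪ u ∈ Cfsg.hexadsOn d)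
    (ha3 : a.card = 3) (ha : a ⊆ d \ (t ∪ u)) (hta : t ∪ a ∈ Cfsg.hexadsOn d)
    (hb3 : b.card = 3) (hb : b ⊆ d \ (t ∪ u)) (htb : t ∪ b ∈ Cfsg.hexadsOn d) :
    b = a ∨ b = (d \ (t ∪ u)) \ a := by
  by_contra hcon
  push_neg at hcon
  have hta' := (gc_quartet_compl hd hu htu hh ha3 ha hta).2
  have dt : ∀ c : Finset Cfsg.GolayPt, c ⊆ d \ (t ∪ u) → Disjoint t c := by
    intro c hc
    rw [Finset.disjoint_left]
    intro x hx hxc
    exact (Finset.mem_sdiff.mp (hc hxc)).2 (Finset.mem_union_left _ hx)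
  have h1 := gc_quartet_meet ht (dt b hb) (dt a ha) htb hta hcon.1
  have h2 := gc_quartet_meet ht (dt b hb) (dt _ Finset.sdiff_subset) htb hta' hcon.2
  have hsplit : b = (b ∩ a) ∪ (b ∩ ((d \ (t ∪ u)) \ a)) := by
    ext x
    simp only [Finset.mem_union, Finset.mem_inter, Finset.mem_sdiff]
    have b1 : x ∈ b → x ∈ d ∧ ¬(x ∈ t ∨ x ∈ u) := fun h => by
      have := Finset.mem_sdiff.mp (hb h)
      rwa [Finset.mem_union] at this
    tauto
  have hdis : Disjoint (b ∩ a) (b ∩ ((d \ (t ∪ u)) \ a)) := by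
    rw [Finset.disjoint_left]
    intro x hx hx'
    exact (Finset.mem_sdiff.mp (Finset.mem_inter.mp hx').2).2 (Finset.mem_inter.mp hx).2
  have hc := congrArg Finset.card hsplit
  rw [Finset.card_union_of_disjoint hdis, hb3] at hc
  omega

theorem gc_s1596 (d : Finset Cfsg.GolayPt) (hd : d ∈ Cfsg.dodecads) (t u : Finset Cfsg.GolayPt) (ht : t.card = 3) (hu : u.card = 3) (htu : Disjoint t u) (hh : t ∪ u ∈ Cfsg.hexadsOn d) : ∃! Q : Finset (Finset Cfsg.GolayPt), Q ∈ Cfsg.quartets d ∧ t ∈ Q ∧ u ∈ Q := by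
  classical
  have hd12 := ((gc_dodecad_iff d).mp hd).2
  have hhd : t ∪ u ⊆ d := gc_hexad_sub hh
  have hh6 : (t ∪ u).card = 6 := hh.1
  have hc6 : (d \ (t ∪ u)).card = 6 := by
    rw [Finset.card_sdiff_of_subset hhd, hd12, hh6]
  obtain ⟨v, hv3, hvs, htv⟩ := gc_quartet_exists_v hd ht hu htu hh
  obtain ⟨huv, htw⟩ := gc_quartet_compl hd hu htu hh hv3 hvs htv
  have hws : (d \ (t ∪ u)) \ v ⊆ d \ (t ∪ u) := Finset.sdiff_subset
  have hw3 : ((d \ (t ∪ u)) \ v).card = 3 := by
    rw [Finset.card_sdiff_of_subset hvs, hc6, hv3]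
  have huw := (gc_quartet_compl hd hu htu hh hw3 hws htw).1
  have hvw : v ∪ ((d \ (t ∪ u)) \ v) ∈ Cfsg.hexadsOn d := by
    rw [Finset.union_sdiff_of_subset hvs]
    exact gc_hexad_compl hd hh
  have dsub : ∀ c : Finset Cfsg.GolayPt, c ⊆ d \ (t ∪ u) → Disjoint t c ∧ Disjoint u c := by
    intro c hc
    constructor
    · rw [Finset.disjoint_left]
      intro x hx hxc
      exact (Finset.mem_sdiff.mp (hc hxc)).2 (Finset.mem_union_left _ hx)
    · rw [Finset.disjoint_left]
      intro x hx hxc
      exact (Finset.mem_sdiff.mp (hc hxc)).2 (Finset.mem_union_right _ hx)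
  have dvw : Disjoint v ((d \ (t ∪ u)) \ v) := Finset.disjoint_sdiff
  have n_tu : t ≠ u := gc_ne_of_disj3 ht htu
  have n_tv : t ≠ v := gc_ne_of_disj3 ht (dsub v hvs).1
  have n_tw : t ≠ (d \ (t ∪ u)) \ v := gc_ne_of_disj3 ht (dsub _ hws).1
  have n_uv : u ≠ v := gc_ne_of_disj3 hu (dsub v hvs).2
  have n_uw : u ≠ (d \ (t ∪ u)) \ v := gc_ne_of_disj3 hu (dsub _ hws).2
  have n_vw : v ≠ (d \ (t ∪ u)) \ v := gc_ne_of_disj3 hv3 dvw
  have hQ0card : ({t, u, v, (d \ (t ∪ u)) \ v} : Finset (Finset Cfsg.GolayPt)).card = 4 := by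
    rw [Finset.card_insert_of_notMem, Finset.card_insert_of_notMem,
      Finset.card_insert_of_notMem, Finset.card_singleton]
    · rw [Finset.mem_singleton]
      exact n_vw
    · rw [Finset.mem_insert, Finset.mem_singleton]
      rintro (h | h)
      · exact n_uv h
      · exact n_uw h
    · rw [Finset.mem_insert, Finset.mem_insert, Finset.mem_singleton]
      rintro (h | h | h)
      · exact n_tu h
      · exact n_tv h
      · exact n_tw h
  have hsubd : ∀ c : Finset Cfsg.GolayPt, c ⊆ d \ (t ∪ u) → c ⊆ d :=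
    fun c hc => hc.trans Finset.sdiff_subset
  refine ⟨{t, u, v, (d \ (t ∪ u)) \ v}, ⟨⟨hQ0card, ?_, ?_⟩, ?_, ?_⟩, ?_⟩
  · intro a ha
    rw [Finset.mem_insert, Finset.mem_insert, Finset.mem_insert, Finset.mem_singleton] at ha
    rcases ha with rfl | rfl | rfl | rfl
    · exact ⟨ht, Finset.union_subset_left hhd⟩
    · exact ⟨hu, Finset.union_subset_right hhd⟩
    · exact ⟨hv3, hsubd _ hvs⟩
    · exact ⟨hw3, hsubd _ hws⟩
  · intro a ha b hb hab
    rw [Finset.mem_insert, Finset.mem_insert, Finset.mem_insert, Finset.mem_singleton] at ha hb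
    rcases ha with ha | ha | ha | ha <;> rcases hb with hb | hb | hb | hb
    · exact absurd (ha.trans hb.symm) hab
    · rw [ha, hb]; exact hh
    · rw [ha, hb]; exact htv
    · rw [ha, hb]; exact htw
    · rw [ha, hb, Finset.union_comm]; exact hh
    · exact absurd (ha.trans hb.symm) hab
    · rw [ha, hb]; exact huv
    · rw [ha, hb]; exact huw
    · rw [ha, hb, Finset.union_comm]; exact htv
    · rw [ha, hb, Finset.union_comm]; exact huv
    · exact absurd (ha.trans hb.symm) hab
    · rw [ha, hb]; exact hvw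
    · rw [ha, hb, Finset.union_comm]; exact htw
    · rw [ha, hb, Finset.union_comm]; exact huw
    · rw [ha, hb, Finset.union_comm]; exact hvw
    · exact absurd (ha.trans hb.symm) hab
  · exact Finset.mem_insert_self _ _
  · exact Finset.mem_insert_of_mem (Finset.mem_insert_self _ _)
  · rintro Q ⟨⟨hQ4, hQ3, hQp⟩, htQ, huQ⟩
    apply Finset.eq_of_subset_of_card_le
    · intro a ha
      rw [Finset.mem_insert, Finset.mem_insert, Finset.mem_insert, Finset.mem_singleton]
      by_cases hat : a = t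
      · exact Or.inl hat
      · by_cases hau : a = u
        · exact Or.inr (Or.inl hau)
        · right
          right
          obtain ⟨ha3, had⟩ := hQ3 a ha
          have hta := hQp t htQ a ha (fun h => hat h.symm)
          have hua := hQp u huQ a ha (fun h => hau h.symm)
          have c1 := Finset.card_union_add_card_inter t a
          have c2 := Finset.card_union_add_card_inter u a
          rw [hta.1, ht, ha3] at c1
          rw [hua.1, hu, ha3] at c2
          have dta : Disjoint t a := by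
            rw [Finset.disjoint_iff_inter_eq_empty, ← Finset.card_eq_zero]
            omega
          have dua : Disjoint u a := by
            rw [Finset.disjoint_iff_inter_eq_empty, ← Finset.card_eq_zero]
            omega
          have has : a ⊆ d \ (t ∪ u) := by
            intro x hx
            rw [Finset.mem_sdiff, Finset.mem_union]
            refine ⟨had hx, ?_⟩
            rintro (h | h)
            · exact Finset.disjoint_left.mp dta h hx
            · exact Finset.disjoint_left.mp dua h hx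
          exact gc_quartet_two hd ht hu htu hh hv3 hvs htv ha3 has hta
    · rw [hQ4, hQ0card]

end Cfsg.Agent.Lib.Helper7
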