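import Mathlib
import Cfsg.Prelude
import Cfsg.Agent.Lib.Helper7.GolayC60

set_option autoImplicit false

namespace Cfsg.Agent.Lib.Helper7

open scoped Pointwise

theorem gc_hexad_smul {g : Equiv.Perm Cfsg.GolayPt} (hg : g ∈ Cfsg.M24)
    {d h : Finset Cfsg.GolayPt} (hh : h ∈ Cfsg.hexadsOn d) : g • h ∈ Cfsg.hexadsOn (g • d) := by
  obtain ⟨h6, o, ho, rfl⟩ := hh
  refine ⟨by rw [Finset.card_smul_finset]; exact h6, g • o, gc_M24_octad hg ho, ?_⟩
  rw [Finset.smul_finset_inter]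

theorem gc_quartet_smul {g : Equiv.Perm Cfsg.GolayPt} (hg : g ∈ Cfsg.M24)
    {d : Finset Cfsg.GolayPt} (hgd : g • d = d) {Q : Finset (Finset Cfsg.GolayPt)}
    (hQ : Q ∈ Cfsg.quartets d) : g • Q ∈ Cfsg.quartets d := by
  obtain ⟨h4, h3, hp⟩ := hQ
  refine ⟨by rw [Finset.card_smul_finset]; exact h4, ?_, ?_⟩
  · intro a' ha'
    obtain ⟨a, ha, rfl⟩ := Finset.mem_smul_finset.mp ha'
    refine ⟨by rw [Finset.card_smul_finset]; exact (h3 a ha).1, ?_⟩
    rw [← hgd]
    exact Finset.smul_finset_subset_smul_finset_iff.mpr (h3 a ha).2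
  · intro a' ha' b' hb' hne
    obtain ⟨a, ha, rfl⟩ := Finset.mem_smul_finset.mp ha'
    obtain ⟨b, hb, rfl⟩ := Finset.mem_smul_finset.mp hb'
    have hab : a ≠ b := fun h => hne (by rw [h])
    have h1 := gc_hexad_smul hg (hp a ha b hb hab)
    rw [hgd, Finset.smul_finset_union] at h1
    exact h1

/-- the stabiliser of a dodecad is transitive on its quartets -/
theorem gc_quartet_trans (d : Finset Cfsg.GolayPt) (hd : d ∈ Cfsg.dodecads)
    (Q Q' : Finset (Finset Cfsg.GolayPt)) (hQ : Q ∈ Cfsg.quartets d)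
    (hQ' : Q' ∈ Cfsg.quartets d) :
    ∃ g : Equiv.Perm Cfsg.GolayPt, g ∈ Cfsg.M24 ∧ g • d = d ∧ g • Q = Q' := by
  classical
  have hpick : ∀ R : Finset (Finset Cfsg.GolayPt), R ∈ Cfsg.quartets d →
      ∃ t ∈ R, ∃ u ∈ R, t ≠ u := by
    intro R hR
    have h1 : 1 < R.card := by
      rw [hR.1]
      norm_num
    obtain ⟨t, ht, u, hu, hne⟩ := Finset.one_lt_card.mp h1
    exact ⟨t, ht, u, hu, hne⟩
  obtain ⟨t, ht, u, hu, hne⟩ := hpick Q hQ
  obtain ⟨t', ht', u', hu', hne'⟩ := hpick Q' hQ'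
  have key : ∀ (R : Finset (Finset Cfsg.GolayPt)) (hR : R ∈ Cfsg.quartets d)
      (a b : Finset Cfsg.GolayPt), a ∈ R → b ∈ R → a ≠ b →
      ∃ x : Fin 5 ↪ Cfsg.GolayPt, (∀ i, x i ∈ d) ∧ a = {x 0, x 1, x 2} ∧ x 3 ∈ b ∧ x 4 ∈ b ∧
        Disjoint a b ∧ a ∪ b ∈ Cfsg.hexadsOn d ∧ a.card = 3 ∧ b.card = 3 := by
    intro R hR a b ha hb hab
    obtain ⟨ha3, had⟩ := hR.2.1 a ha
    obtain ⟨hb3, hbd⟩ := hR.2.1 b hb
    have hh := hR.2.2 a ha b hb hab
    have c1 := Finset.card_union_add_card_inter a b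
    rw [hh.1, ha3, hb3] at c1
    have dab : Disjoint a b := by
      rw [Finset.disjoint_iff_inter_eq_empty, ← Finset.card_eq_zero]
      omega
    obtain ⟨x0, x1, x2, h01, h02, h12, rfl⟩ := Finset.card_eq_three.mp ha3
    obtain ⟨x3, x4, x5, h34, h35, h45, rfl⟩ := Finset.card_eq_three.mp hb3
    have m0 : x0 ∈ ({x0, x1, x2} : Finset Cfsg.GolayPt) := by simp
    have m1 : x1 ∈ ({x0, x1, x2} : Finset Cfsg.GolayPt) := by simp
    have m2 : x2 ∈ ({x0, x1, x2} : Finset Cfsg.GolayPt) := by simp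
    have m3 : x3 ∈ ({x3, x4, x5} : Finset Cfsg.GolayPt) := by simp
    have m4 : x4 ∈ ({x3, x4, x5} : Finset Cfsg.GolayPt) := by simp
    have dl := Finset.disjoint_left.mp dab
    have hnd : [x0, x1, x2, x3, x4].Nodup := by
      simp only [List.nodup_cons, List.mem_cons, List.not_mem_nil, or_false, not_or,
        List.nodup_nil, and_true]
      refine ⟨⟨h01, h02, ?_, ?_⟩, ⟨h12, ?_, ?_⟩, ⟨?_, ?_⟩, h34, not_false⟩
      · exact fun h => dl m0 (h ▸ m3)
      · exact fun h => dl m0 (h ▸ m4)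
      · exact fun h => dl m1 (h ▸ m3)
      · exact fun h => dl m1 (h ▸ m4)
      · exact fun h => dl m2 (h ▸ m3)
      · exact fun h => dl m2 (h ▸ m4)
    obtain ⟨x, e0, e1, e2, e3, e4⟩ := gc_emb5 x0 x1 x2 x3 x4 hnd
    refine ⟨x, gc_forall5 ?_ ?_ ?_ ?_ ?_, ?_, ?_, ?_, dab, hh, ha3, hb3⟩
    · rw [e0]; exact had m0
    · rw [e1]; exact had m1
    · rw [e2]; exact had m2
    · rw [e3]; exact hbd m3
    · rw [e4]; exact hbd m4
    · rw [e0, e1, e2]
    · rw [e3]; exact m3
    · rw [e4]; exact m4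
  obtain ⟨x, hxd, htx, hx3, hx4, dtu, hhtu, ht3, hu3⟩ := key Q hQ t u ht hu hne
  obtain ⟨y, hyd, hty, hy3, hy4, dtu', hhtu', ht3', hu3'⟩ := key Q' hQ' t' u' ht' hu' hne'
  obtain ⟨g, hg, hgd, hgx⟩ := gc_dodecad_five d hd x y hxd hyd
  refine ⟨g, hg, hgd, ?_⟩
  have hgt : g • t = t' := by
    rw [htx, hty, Finset.smul_finset_insert, Finset.smul_finset_insert,
      Finset.smul_finset_singleton]
    show ({g (x 0), g (x 1), g (x 2)} : Finset Cfsg.GolayPt) = _
    rw [hgx 0, hgx 1, hgx 2]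
  have hgh : g • (t ∪ u) = t' ∪ u' := by
    have h1 := gc_hexad_smul hg hhtu
    rw [hgd] at h1
    apply gc_hexad_eq h1 hhtu'
    have hsub : ({y 0, y 1, y 2, y 3, y 4} : Finset Cfsg.GolayPt) ⊆ g • (t ∪ u) ∩ (t' ∪ u') := by
      intro p hp
      simp only [Finset.mem_insert, Finset.mem_singleton] at hp
      rw [Finset.mem_inter]
      have hmem : ∀ i : Fin 5, y i ∈ g • (t ∪ u) ∧ y i ∈ t' ∪ u' := by
        apply gc_forall5
        · refine ⟨?_, Finset.mem_union_left _ (by rw [hty]; simp)⟩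
          rw [← hgx 0]
          exact Finset.smul_mem_smul_finset (Finset.mem_union_left _ (by rw [htx]; simp))
        · refine ⟨?_, Finset.mem_union_left _ (by rw [hty]; simp)⟩
          rw [← hgx 1]
          exact Finset.smul_mem_smul_finset (Finset.mem_union_left _ (by rw [htx]; simp))
        · refine ⟨?_, Finset.mem_union_left _ (by rw [hty]; simp)⟩
          rw [← hgx 2]
          exact Finset.smul_mem_smul_finset (Finset.mem_union_left _ (by rw [htx]; simp))
        · refine ⟨?_, Finset.mem_union_right _ hy3⟩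
          rw [← hgx 3]
          exact Finset.smul_mem_smul_finset (Finset.mem_union_right _ hx3)
        · refine ⟨?_, Finset.mem_union_right _ hy4⟩
          rw [← hgx 4]
          exact Finset.smul_mem_smul_finset (Finset.mem_union_right _ hx4)
      rcases hp with rfl | rfl | rfl | rfl | rfl
      · exact hmem 0
      · exact hmem 1
      · exact hmem 2
      · exact hmem 3
      · exact hmem 4
    have hc5 : ({y 0, y 1, y 2, y 3, y 4} : Finset Cfsg.GolayPt).card = 5 := by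
      have himg : ({y 0, y 1, y 2, y 3, y 4} : Finset Cfsg.GolayPt) =
          (Finset.univ : Finset (Fin 5)).map y := by
        ext p
        simp only [Finset.mem_insert, Finset.mem_singleton, Finset.mem_map, Finset.mem_univ,
          true_and]
        constructor
        · rintro (rfl | rfl | rfl | rfl | rfl)
          · exact ⟨0, rfl⟩
          · exact ⟨1, rfl⟩
          · exact ⟨2, rfl⟩
          · exact ⟨3, rfl⟩
          · exact ⟨4, rfl⟩
        · rintro ⟨i, rfl⟩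
          fin_cases i <;> simp
      rw [himg, Finset.card_map, Finset.card_univ, Fintype.card_fin]
    rw [← hc5]
    exact Finset.card_le_card hsub
  have hgu : g • u = u' := by
    have e1 : (g • (t ∪ u)) \ (g • t) = g • u := by
      rw [← Finset.smul_finset_sdiff, Finset.union_sdiff_left,
        Finset.sdiff_eq_self_of_disjoint dtu.symm]
    rw [← e1, hgh, hgt, Finset.union_sdiff_left, Finset.sdiff_eq_self_of_disjoint dtu'.symm]
  have hgQ := gc_quartet_smul hg hgd hQ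
  obtain ⟨Q0, _, huniq⟩ := gc_s1596 d hd t' u' ht3' hu3' dtu' hhtu'
  have e1 := huniq (g • Q) ⟨hgQ, by rw [← hgt]; exact Finset.smul_mem_smul_finset ht,
    by rw [← hgu]; exact Finset.smul_mem_smul_finset hu⟩
  have e2 := huniq Q' ⟨hQ', ht', hu'⟩
  rw [e1, e2]

end Cfsg.Agent.Lib.Helper7
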