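import Mathlib
import Cfsg.Prelude
import Cfsg.Agent.Lib.Helper7.GolayC61

set_option autoImplicit false

namespace Cfsg.Agent.Lib.Helper7

open scoped Pointwise

/-- the finset of hexads on a dodecad -/
noncomputable def gcHex (d : Finset Cfsg.GolayPt) : Finset (Finset Cfsg.GolayPt) :=
  (gcOct.filter (fun c => (c ∩ d).card = 6)).image (fun c => c ∩ d)

theorem gc_mem_hex (d h : Finset Cfsg.GolayPt) : h ∈ gcHex d ↔ h ∈ Cfsg.hexadsOn d := by
  unfold gcHex
  rw [Finset.mem_image]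
  constructor
  · rintro ⟨c, hc, rfl⟩
    rw [Finset.mem_filter, gc_mem_oct] at hc
    exact ⟨hc.2, c, hc.1, rfl⟩
  · rintro ⟨h6, o, ho, rfl⟩
    exact ⟨o, Finset.mem_filter.mpr ⟨(gc_mem_oct o).mpr ho, h6⟩, rfl⟩

theorem gc_hex_card (d : Finset Cfsg.GolayPt) (hd : d ∈ Cfsg.dodecads) :
    (gcHex d).card = 132 := by
  unfold gcHex
  rw [Finset.card_image_of_injOn]
  · exact (gc_N_dodecad d hd).1
  · intro c hc c' hc' h
    have hc1 := Finset.mem_filter.mp (Finset.mem_coe.mp hc)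
    have hc1' := Finset.mem_filter.mp (Finset.mem_coe.mp hc')
    have ho := (gc_mem_oct c).mp hc1.1
    have ho' := (gc_mem_oct c').mp hc1'.1
    have h2 : c ∩ d = c' ∩ d := h
    have hsub : c ∩ d ⊆ c ∩ c' := by
      intro x hx
      rw [Finset.mem_inter]
      refine ⟨(Finset.mem_inter.mp hx).1, ?_⟩
      rw [h2] at hx
      exact (Finset.mem_inter.mp hx).1
    have hle := Finset.card_le_card hsub
    rw [hc1.2] at hle
    have h8 : (c ∩ c').card = 8 := by
      rcases gc_octad_octad ho ho' with h | h | h | h <;> omega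
    exact gc_eq_of_inter_card (by rw [h8, ((gc_octad_iff c).mp ho).2])
      (by rw [((gc_octad_iff c).mp ho).2, ((gc_octad_iff c').mp ho').2])

theorem gc_quartets_card (d : Finset Cfsg.GolayPt) (hd : d ∈ Cfsg.dodecads) :
    (Cfsg.quartets d).ncard = 220 := by
  classical
  let Qf : Finset (Finset (Finset Cfsg.GolayPt)) :=
    Finset.univ.filter (fun Q => Q ∈ Cfsg.quartets d)
  have hQf : Cfsg.quartets d = (Qf : Set (Finset (Finset Cfsg.GolayPt))) := by
    ext Q
    rw [Finset.mem_coe, Finset.mem_filter]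
    exact ⟨fun h => ⟨Finset.mem_univ _, h⟩, fun h => h.2⟩
  let P : Finset (Finset Cfsg.GolayPt × Finset Cfsg.GolayPt) :=
    ((Finset.powersetCard 3 d) ×ˢ (Finset.powersetCard 3 d)).filter
      (fun p => Disjoint p.1 p.2 ∧ p.1 ∪ p.2 ∈ Cfsg.hexadsOn d)
  have hPmem : ∀ p : Finset Cfsg.GolayPt × Finset Cfsg.GolayPt, p ∈ P ↔
      ((p.1 ⊆ d ∧ p.1.card = 3) ∧ (p.2 ⊆ d ∧ p.2.card = 3)) ∧ Disjoint p.1 p.2 ∧
        p.1 ∪ p.2 ∈ Cfsg.hexadsOn d := by
    intro p
    rw [Finset.mem_filter, Finset.mem_product, Finset.mem_powersetCard, Finset.mem_powersetCard]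
  -- the number of pairs
  have hPcard : P.card = 2640 := by
    have hmaps : ∀ p ∈ P, p.1 ∪ p.2 ∈ gcHex d := by
      intro p hp
      exact (gc_mem_hex d _).mpr ((hPmem p).mp hp).2.2
    have h1 := Finset.card_eq_sum_card_fiberwise hmaps
    have hfib : ∀ h ∈ gcHex d, (P.filter (fun p => p.1 ∪ p.2 = h)).card = 20 := by
      intro h hh
      have hh' := (gc_mem_hex d h).mp hh
      have hhd : h ⊆ d := gc_hexad_sub hh'
      have h20 : (Finset.powersetCard 3 h).card = 20 := by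
        rw [Finset.card_powersetCard, hh'.1]
        rfl
      rw [← h20]
      apply Finset.card_bij (fun p _ => p.1)
      · intro p hp
        rw [Finset.mem_filter] at hp
        have hp1 := (hPmem p).mp hp.1
        rw [Finset.mem_powersetCard]
        refine ⟨?_, hp1.1.1.2⟩
        rw [← hp.2]
        exact Finset.subset_union_left
      · intro p hp p' hp' heq
        rw [Finset.mem_filter] at hp hp'
        have hp1 := (hPmem p).mp hp.1
        have hp1' := (hPmem p').mp hp'.1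
        have e2 : p.2 = h \ p.1 := by
          rw [← hp.2, Finset.union_sdiff_left, Finset.sdiff_eq_self_of_disjoint hp1.2.1.symm]
        have e2' : p'.2 = h \ p'.1 := by
          rw [← hp'.2, Finset.union_sdiff_left, Finset.sdiff_eq_self_of_disjoint hp1'.2.1.symm]
        have heq' : p.1 = p'.1 := heq
        exact Prod.ext heq' (by rw [e2, e2', heq'])
      · intro t ht
        rw [Finset.mem_powersetCard] at ht
        have hu : (h \ t).card = 3 := by
          rw [Finset.card_sdiff_of_subset ht.1, hh'.1, ht.2]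
        have hun : t ∪ h \ t = h := Finset.union_sdiff_of_subset ht.1
        refine ⟨(t, h \ t), ?_, rfl⟩
        rw [Finset.mem_filter]
        refine ⟨(hPmem _).mpr ⟨⟨⟨ht.1.trans hhd, ht.2⟩, ⟨Finset.sdiff_subset.trans hhd, hu⟩⟩,
          Finset.disjoint_sdiff, ?_⟩, hun⟩
        show t ∪ h \ t ∈ Cfsg.hexadsOn d
        rw [hun]
        exact hh'
    rw [Finset.sum_congr rfl hfib, Finset.sum_const, smul_eq_mul, gc_hex_card d hd] at h1
    omega
  -- double counting
  have hdc := Finset.sum_card_bipartiteAbove_eq_sum_card_bipartiteBelow (s := P) (t := Qf)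
    (fun (p : Finset Cfsg.GolayPt × Finset Cfsg.GolayPt) (Q : Finset (Finset Cfsg.GolayPt)) =>
      p.1 ∈ Q ∧ p.2 ∈ Q)
  have hL : ∀ p ∈ P, (Qf.bipartiteAbove (fun (p : Finset Cfsg.GolayPt × Finset Cfsg.GolayPt)
      (Q : Finset (Finset Cfsg.GolayPt)) => p.1 ∈ Q ∧ p.2 ∈ Q) p).card = 1 := by
    intro p hp
    have hp1 := (hPmem p).mp hp
    obtain ⟨Q0, hQ0, huniq⟩ := gc_s1596 d hd p.1 p.2 hp1.1.1.2 hp1.1.2.2 hp1.2.1 hp1.2.2
    have e : Qf.bipartiteAbove (fun (p : Finset Cfsg.GolayPt × Finset Cfsg.GolayPt)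
        (Q : Finset (Finset Cfsg.GolayPt)) => p.1 ∈ Q ∧ p.2 ∈ Q) p = {Q0} := by
      ext Q
      unfold Finset.bipartiteAbove
      rw [Finset.mem_filter, Finset.mem_singleton, Finset.mem_filter]
      constructor
      · rintro ⟨⟨_, hQ⟩, h12⟩
        exact huniq Q ⟨hQ, h12⟩
      · intro h
        rw [h]
        exact ⟨⟨Finset.mem_univ _, hQ0.1⟩, hQ0.2⟩
    rw [e, Finset.card_singleton]
  have hR : ∀ Q ∈ Qf, (P.bipartiteBelow (fun (p : Finset Cfsg.GolayPt × Finset Cfsg.GolayPt)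
      (Q : Finset (Finset Cfsg.GolayPt)) => p.1 ∈ Q ∧ p.2 ∈ Q) Q).card = 12 := by
    intro Q hQ
    have hQ' : Q ∈ Cfsg.quartets d := (Finset.mem_filter.mp hQ).2
    have e : P.bipartiteBelow (fun (p : Finset Cfsg.GolayPt × Finset Cfsg.GolayPt)
        (Q : Finset (Finset Cfsg.GolayPt)) => p.1 ∈ Q ∧ p.2 ∈ Q) Q = Q.offDiag := by
      ext p
      unfold Finset.bipartiteBelow
      rw [Finset.mem_filter, Finset.mem_offDiag]
      constructor
      · rintro ⟨hp, h1, h2⟩
        have hp1 := (hPmem p).mp hp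
        exact ⟨h1, h2, gc_ne_of_disj3 hp1.1.1.2 hp1.2.1⟩
      · rintro ⟨h1, h2, hne⟩
        obtain ⟨ha3, had⟩ := hQ'.2.1 p.1 h1
        obtain ⟨hb3, hbd⟩ := hQ'.2.1 p.2 h2
        have hh := hQ'.2.2 p.1 h1 p.2 h2 hne
        have c1 := Finset.card_union_add_card_inter p.1 p.2
        rw [hh.1, ha3, hb3] at c1
        have dab : Disjoint p.1 p.2 := by
          rw [Finset.disjoint_iff_inter_eq_empty, ← Finset.card_eq_zero]
          omega
        exact ⟨(hPmem p).mpr ⟨⟨⟨had, ha3⟩, ⟨hbd, hb3⟩⟩, dab, hh⟩, h1, h2⟩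
    rw [e, Finset.offDiag_card, hQ'.1]
  rw [Finset.sum_congr rfl hL, Finset.sum_congr rfl hR, Finset.sum_const, Finset.sum_const,
    smul_eq_mul, smul_eq_mul, hPcard] at hdc
  rw [hQf, Set.ncard_coe_finset]
  omega

theorem gc_s1597 (d : Finset Cfsg.GolayPt) (hd : d ∈ Cfsg.dodecads) : (Cfsg.quartets d).ncard = 220 ∧ ∀ Q ∈ Cfsg.quartets d, ∀ Q' ∈ Cfsg.quartets d, ∃ g : Equiv.Perm Cfsg.GolayPt, g ∈ Cfsg.M24 ∧ g • d = d ∧ g • Q = Q' :=
  ⟨gc_quartets_card d hd, fun Q hQ Q' hQ' => gc_quartet_trans d hd Q Q' hQ hQ'⟩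

end Cfsg.Agent.Lib.Helper7
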