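import Mathlib
import Cfsg.Prelude
import Cfsg.Agent.Lib.Helper7.GolayC58
import Cfsg.Agent.Lib.Helper7.GolayC45

set_option autoImplicit false

namespace Cfsg.Agent.Lib.Helper7

open scoped Pointwise

theorem gc_five_pts (a b c e f a' b' c' e' f' : Cfsg.GolayPt) (h : [a, b, c, e, f].Nodup)
    (h' : [a', b', c', e', f'].Nodup) :
    ∃ g ∈ Cfsg.M24, g a = a' ∧ g b = b' ∧ g c = c' ∧ g e = e' ∧ g f = f' := by
  obtain ⟨x, x0, x1, x2, x3, x4⟩ := gc_emb5 a b c e f h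
  obtain ⟨y, y0, y1, y2, y3, y4⟩ := gc_emb5 a' b' c' e' f' h'
  obtain ⟨g, hg, hgx⟩ := gc_five_aux x 5 le_rfl
  obtain ⟨k, hk, hky⟩ := gc_five_aux y 5 le_rfl
  have key : ∀ i : Fin 5, (k⁻¹ * g) (x i) = y i := by
    intro i
    rw [Equiv.Perm.mul_apply, hgx i i.isLt, ← hky i i.isLt]
    exact k.symm_apply_apply (y i)
  refine ⟨k⁻¹ * g, mul_mem (inv_mem hk) hg, ?_, ?_, ?_, ?_, ?_⟩
  · rw [← x0, ← y0]; exact key 0
  · rw [← x1, ← y1]; exact key 1
  · rw [← x2, ← y2]; exact key 2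
  · rw [← x3, ← y3]; exact key 3
  · rw [← x4, ← y4]; exact key 4

theorem gc_four_pts (a b c e a' b' c' e' : Cfsg.GolayPt) (h : [a, b, c, e].Nodup)
    (h' : [a', b', c', e'].Nodup) :
    ∃ g ∈ Cfsg.M24, g a = a' ∧ g b = b' ∧ g c = c' ∧ g e = e' := by
  classical
  have hex : ∀ s : Finset Cfsg.GolayPt, s.card ≤ 4 → ∃ f, f ∉ s := by
    intro s hs
    have hlt : s.card < (Finset.univ : Finset Cfsg.GolayPt).card := by
      rw [Finset.card_univ, gc_card_pt]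
      omega
    obtain ⟨f, _, hf⟩ := Finset.exists_mem_notMem_of_card_lt_card hlt
    exact ⟨f, hf⟩
  obtain ⟨f, hf⟩ := hex {a, b, c, e} Finset.card_le_four
  obtain ⟨f', hf'⟩ := hex {a', b', c', e'} Finset.card_le_four
  simp only [Finset.mem_insert, Finset.mem_singleton, not_or] at hf hf'
  simp only [List.nodup_cons, List.mem_cons, List.not_mem_nil, or_false, not_or,
    List.nodup_nil, and_true, not_false_eq_true] at h h'
  obtain ⟨g, hg, h1, h2, h3, h4, _⟩ := gc_five_pts a b c e f a' b' c' e' f'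
    (by
      simp only [List.nodup_cons, List.mem_cons, List.not_mem_nil, or_false, not_or,
        List.nodup_nil, and_true, not_false_eq_true]
      exact ⟨⟨h.1.1, h.1.2.1, h.1.2.2, Ne.symm hf.1⟩, ⟨h.2.1.1, h.2.1.2, Ne.symm hf.2.1⟩,
        ⟨h.2.2, Ne.symm hf.2.2.1⟩, Ne.symm hf.2.2.2⟩)
    (by
      simp only [List.nodup_cons, List.mem_cons, List.not_mem_nil, or_false, not_or,
        List.nodup_nil, and_true, not_false_eq_true]
      exact ⟨⟨h'.1.1, h'.1.2.1, h'.1.2.2, Ne.symm hf'.1⟩, ⟨h'.2.1.1, h'.2.1.2, Ne.symm hf'.2.1⟩,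
        ⟨h'.2.2, Ne.symm hf'.2.2.1⟩, Ne.symm hf'.2.2.2⟩)
  exact ⟨g, hg, h1, h2, h3, h4⟩

/-- tetrads of a sextet are disjoint -/
theorem gc_sextet_disj {S : Finset (Finset Cfsg.GolayPt)} (hS : S ∈ Cfsg.sextets)
    {t u : Finset Cfsg.GolayPt} (ht : t ∈ S) (hu : u ∈ S) (hne : t ≠ u) : Disjoint t u := by
  have h8 := ((gc_octad_iff _).mp (hS.2.2 t ht u hu hne)).2
  have c := Finset.card_union_add_card_inter t u
  rw [h8, hS.2.1 t ht, hS.2.1 u hu] at c
  rw [Finset.disjoint_iff_inter_eq_empty, ← Finset.card_eq_zero]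
  omega

/-- every point lies in a tetrad -/
theorem gc_sextet_cover {S : Finset (Finset Cfsg.GolayPt)} (hS : S ∈ Cfsg.sextets)
    (x : Cfsg.GolayPt) : ∃ t ∈ S, x ∈ t := by
  classical
  obtain ⟨t, ht⟩ : S.Nonempty := by
    rw [← Finset.card_pos, hS.1]
    norm_num
  by_cases hx : x ∈ t
  · exact ⟨t, ht, hx⟩
  · have ht4 := hS.2.1 t ht
    have h5 : (insert x t).card = 5 := by
      rw [Finset.card_insert_of_notMem hx, ht4]
    obtain ⟨o, ⟨ho, hso⟩, _⟩ := gc_steiner.2 _ h5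
    have hto : t ⊆ o := fun y hy => hso (Finset.mem_insert_of_mem hy)
    have hmem : o \ t ∈ gcSext t := by
      unfold gcSext
      exact Finset.mem_insert_of_mem
        (Finset.mem_image.mpr ⟨o, (gc_mem_thru t o).mpr ⟨ho, hto⟩, rfl⟩)
    rw [← gc_sext_unique hS ht] at hmem
    exact ⟨o \ t, hmem, Finset.mem_sdiff.mpr ⟨hso (Finset.mem_insert_self _ _), hx⟩⟩

/-- a tetrad is determined by one of its points -/
theorem gc_sextet_eq {S : Finset (Finset Cfsg.GolayPt)} (hS : S ∈ Cfsg.sextets)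
    {t u : Finset Cfsg.GolayPt} (ht : t ∈ S) (hu : u ∈ S) {x : Cfsg.GolayPt} (hxt : x ∈ t)
    (hxu : x ∈ u) : t = u := by
  by_contra hne
  exact Finset.disjoint_left.mp (gc_sextet_disj hS ht hu hne) hxt hxu

/-- sextets are permuted by the group -/
theorem gc_sextet_smul {g : Equiv.Perm Cfsg.GolayPt} (hg : g ∈ Cfsg.M24)
    {S : Finset (Finset Cfsg.GolayPt)} (hS : S ∈ Cfsg.sextets) : g • S ∈ Cfsg.sextets := by
  obtain ⟨h6, h4, hp⟩ := hS
  refine ⟨by rw [Finset.card_smul_finset]; exact h6, ?_, ?_⟩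
  · intro a' ha'
    obtain ⟨a, ha, rfl⟩ := Finset.mem_smul_finset.mp ha'
    rw [Finset.card_smul_finset]
    exact h4 a ha
  · intro a' ha' b' hb' hne
    obtain ⟨a, ha, rfl⟩ := Finset.mem_smul_finset.mp ha'
    obtain ⟨b, hb, rfl⟩ := Finset.mem_smul_finset.mp hb'
    have hab : a ≠ b := fun h => hne (by rw [h])
    rw [← Finset.smul_finset_union]
    exact gc_M24_octad hg (hp a ha b hb hab)

/-- moving a sextet by a group element taking one tetrad to a tetrad -/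
theorem gc_sextet_move {g : Equiv.Perm Cfsg.GolayPt} (hg : g ∈ Cfsg.M24)
    {S S' : Finset (Finset Cfsg.GolayPt)} (hS : S ∈ Cfsg.sextets) (hS' : S' ∈ Cfsg.sextets)
    {t : Finset Cfsg.GolayPt} (ht : t ∈ S) (ht' : g • t ∈ S') : g • S = S' := by
  rw [gc_sext_unique (gc_sextet_smul hg hS) (Finset.smul_mem_smul_finset ht),
    gc_sext_unique hS' ht']

/-- the tetrads meeting a 3-set -/
theorem gc_sextet_filter {S : Finset (Finset Cfsg.GolayPt)} (hS : S ∈ Cfsg.sextets)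
    (a b c : Cfsg.GolayPt) :
    ∃ ta tb tc : Finset Cfsg.GolayPt, ta ∈ S ∧ tb ∈ S ∧ tc ∈ S ∧ a ∈ ta ∧ b ∈ tb ∧ c ∈ tc ∧
      (S.filter fun t => (t ∩ ({a, b, c} : Finset Cfsg.GolayPt)).Nonempty) = {ta, tb, tc} := by
  obtain ⟨ta, hta, ha⟩ := gc_sextet_cover hS a
  obtain ⟨tb, htb, hb⟩ := gc_sextet_cover hS b
  obtain ⟨tc, htc, hc⟩ := gc_sextet_cover hS c
  refine ⟨ta, tb, tc, hta, htb, htc, ha, hb, hc, ?_⟩
  ext u
  rw [Finset.mem_filter, Finset.mem_insert, Finset.mem_insert, Finset.mem_singleton]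
  constructor
  · rintro ⟨hu, y, hy⟩
    rw [Finset.mem_inter, Finset.mem_insert, Finset.mem_insert, Finset.mem_singleton] at hy
    rcases hy.2 with rfl | rfl | rfl
    · exact Or.inl (gc_sextet_eq hS hu hta hy.1 ha)
    · exact Or.inr (Or.inl (gc_sextet_eq hS hu htb hy.1 hb))
    · exact Or.inr (Or.inr (gc_sextet_eq hS hu htc hy.1 hc))
  · rintro (rfl | rfl | rfl)
    · exact ⟨hta, a, Finset.mem_inter.mpr ⟨ha, by simp⟩⟩
    · exact ⟨htb, b, Finset.mem_inter.mpr ⟨hb, by simp⟩⟩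
    · exact ⟨htc, c, Finset.mem_inter.mpr ⟨hc, by simp⟩⟩

end Cfsg.Agent.Lib.Helper7
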