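import Mathlib
import Cfsg.Prelude
import Cfsg.Agent.Lib.Helper7.GolayC63

set_option autoImplicit false

namespace Cfsg.Agent.Lib.Helper7

open scoped Pointwise

/-- type 1 data -/
theorem gc_sx_d1 {S : Finset (Finset Cfsg.GolayPt)} (hS : S ∈ Cfsg.sextets)
    (a b c : Cfsg.GolayPt) (hab : a ≠ b) (hac : a ≠ c) (hbc : b ≠ c)
    (h1 : (S.filter fun t => (t ∩ ({a, b, c} : Finset Cfsg.GolayPt)).Nonempty).card = 1) :
    ∃ p, p ∉ ({a, b, c} : Finset Cfsg.GolayPt) ∧
      insert p ({a, b, c} : Finset Cfsg.GolayPt) ∈ S := by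
  classical
  obtain ⟨ta, tb, tc, hta, htb, htc, ha, hb, hc, hf⟩ := gc_sextet_filter hS a b c
  rw [hf] at h1
  obtain ⟨u, hu⟩ := Finset.card_eq_one.mp h1
  have e1 : ta = u := by
    have : ta ∈ ({ta, tb, tc} : Finset (Finset Cfsg.GolayPt)) := by simp
    rw [hu] at this
    exact Finset.mem_singleton.mp this
  have e2 : tb = u := by
    have : tb ∈ ({ta, tb, tc} : Finset (Finset Cfsg.GolayPt)) := by simp
    rw [hu] at this
    exact Finset.mem_singleton.mp this
  have e3 : tc = u := by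
    have : tc ∈ ({ta, tb, tc} : Finset (Finset Cfsg.GolayPt)) := by simp
    rw [hu] at this
    exact Finset.mem_singleton.mp this
  rw [e1] at ha hta
  rw [e2] at hb
  rw [e3] at hc
  have hY3 : ({a, b, c} : Finset Cfsg.GolayPt).card = 3 := Finset.card_eq_three.mpr
    ⟨a, b, c, hab, hac, hbc, rfl⟩
  have hsub : ({a, b, c} : Finset Cfsg.GolayPt) ⊆ u := by
    intro x hx
    rw [Finset.mem_insert, Finset.mem_insert, Finset.mem_singleton] at hx
    rcases hx with rfl | rfl | rfl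
    · exact ha
    · exact hb
    · exact hc
  have hc1 : (u \ ({a, b, c} : Finset Cfsg.GolayPt)).card = 1 := by
    rw [Finset.card_sdiff_of_subset hsub, hS.2.1 u hta, hY3]
  obtain ⟨p, hp⟩ := Finset.card_eq_one.mp hc1
  have hpm : p ∈ u \ ({a, b, c} : Finset Cfsg.GolayPt) := by
    rw [hp]
    exact Finset.mem_singleton_self p
  rw [Finset.mem_sdiff] at hpm
  refine ⟨p, hpm.2, ?_⟩
  have e : insert p ({a, b, c} : Finset Cfsg.GolayPt) = u := by
    apply Finset.eq_of_subset_of_card_le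
    · intro x hx
      rw [Finset.mem_insert] at hx
      rcases hx with rfl | hx
      · exact hpm.1
      · exact hsub hx
    · rw [Finset.card_insert_of_notMem hpm.2, hY3, hS.2.1 u hta]
  rw [e]
  exact hta

/-- type 2 core -/
theorem gc_sx_d2core {S : Finset (Finset Cfsg.GolayPt)} (hS : S ∈ Cfsg.sextets)
    (x y z : Cfsg.GolayPt) (hxy : x ≠ y) {t : Finset Cfsg.GolayPt} (ht : t ∈ S)
    (hx : x ∈ t) (hy : y ∈ t) (hz : z ∉ t) :
    ∃ p q, p ∉ ({x, y, z} : Finset Cfsg.GolayPt) ∧ q ∉ ({x, y, z} : Finset Cfsg.GolayPt) ∧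
      p ≠ q ∧ ({x, y, p, q} : Finset Cfsg.GolayPt) ∈ S := by
  classical
  have hsub : ({x, y} : Finset Cfsg.GolayPt) ⊆ t := by
    intro w hw
    rw [Finset.mem_insert, Finset.mem_singleton] at hw
    rcases hw with rfl | rfl
    · exact hx
    · exact hy
  have hc2 : (t \ ({x, y} : Finset Cfsg.GolayPt)).card = 2 := by
    rw [Finset.card_sdiff_of_subset hsub, hS.2.1 t ht, Finset.card_pair hxy]
  obtain ⟨p, q, hpq, hpqe⟩ := Finset.card_eq_two.mp hc2
  have hp : p ∈ t \ ({x, y} : Finset Cfsg.GolayPt) := by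
    rw [hpqe]
    simp
  have hq : q ∈ t \ ({x, y} : Finset Cfsg.GolayPt) := by
    rw [hpqe]
    simp
  rw [Finset.mem_sdiff, Finset.mem_insert, Finset.mem_singleton, not_or] at hp hq
  have e : ({x, y, p, q} : Finset Cfsg.GolayPt) = t := by
    have h1 : ({x, y, p, q} : Finset Cfsg.GolayPt) = ({x, y} : Finset Cfsg.GolayPt) ∪
        (t \ ({x, y} : Finset Cfsg.GolayPt)) := by
      rw [hpqe]
      ext w
      simp only [Finset.mem_insert, Finset.mem_singleton, Finset.mem_union]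
      tauto
    rw [h1, Finset.union_sdiff_of_subset hsub]
  refine ⟨p, q, ?_, ?_, hpq, by rw [e]; exact ht⟩
  · rw [Finset.mem_insert, Finset.mem_insert, Finset.mem_singleton]
    rintro (h | h | h)
    · exact hp.2.1 h
    · exact hp.2.2 h
    · exact hz (h ▸ hp.1)
  · rw [Finset.mem_insert, Finset.mem_insert, Finset.mem_singleton]
    rintro (h | h | h)
    · exact hq.2.1 h
    · exact hq.2.2 h
    · exact hz (h ▸ hq.1)

/-- type 2 data -/
theorem gc_sx_d2 {S : Finset (Finset Cfsg.GolayPt)} (hS : S ∈ Cfsg.sextets)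
    (a b c : Cfsg.GolayPt) (hab : a ≠ b) (hac : a ≠ c) (hbc : b ≠ c)
    (h2 : (S.filter fun t => (t ∩ ({a, b, c} : Finset Cfsg.GolayPt)).Nonempty).card = 2) :
    ∃ x y z p q, ({a, b, c} : Finset Cfsg.GolayPt) = {x, y, z} ∧ x ≠ y ∧ x ≠ z ∧ y ≠ z ∧
      p ∉ ({x, y, z} : Finset Cfsg.GolayPt) ∧ q ∉ ({x, y, z} : Finset Cfsg.GolayPt) ∧
      p ≠ q ∧ ({x, y, p, q} : Finset Cfsg.GolayPt) ∈ S := by
  classical
  obtain ⟨ta, tb, tc, hta, htb, htc, ha, hb, hc, hf⟩ := gc_sextet_filter hS a b c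
  rw [hf] at h2
  by_cases e1 : ta = tb
  · have hne : tc ≠ ta := by
      intro h
      rw [← e1, h] at h2
      simp at h2
    have hcz : c ∉ ta := fun h => hne (gc_sextet_eq hS htc hta hc h)
    obtain ⟨p, q, hp, hq, hpq, hmem⟩ := gc_sx_d2core hS a b c hab hta ha (e1 ▸ hb) hcz
    exact ⟨a, b, c, p, q, rfl, hab, hac, hbc, hp, hq, hpq, hmem⟩
  · by_cases e2 : ta = tc
    · have hbz : b ∉ ta := fun h => e1 (gc_sextet_eq hS htb hta hb h).symm
      obtain ⟨p, q, hp, hq, hpq, hmem⟩ := gc_sx_d2core hS a c b hac hta ha (e2 ▸ hc) hbz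
      refine ⟨a, c, b, p, q, ?_, hac, hab, Ne.symm hbc, hp, hq, hpq, hmem⟩
      ext w
      simp only [Finset.mem_insert, Finset.mem_singleton]
      tauto
    · have e3 : tb = tc := by
        by_contra e3
        have h3 : ({ta, tb, tc} : Finset (Finset Cfsg.GolayPt)).card = 3 := by
          rw [Finset.card_insert_of_notMem, Finset.card_pair e3]
          rw [Finset.mem_insert, Finset.mem_singleton]
          rintro (h | h)
          · exact e1 h
          · exact e2 h
        omega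
      have haz : a ∉ tb := fun h => e1 (gc_sextet_eq hS hta htb ha h)
      obtain ⟨p, q, hp, hq, hpq, hmem⟩ := gc_sx_d2core hS b c a hbc htb hb (e3 ▸ hc) haz
      refine ⟨b, c, a, p, q, ?_, hbc, Ne.symm hab, Ne.symm hac, hp, hq, hpq, hmem⟩
      ext w
      simp only [Finset.mem_insert, Finset.mem_singleton]
      tauto

end Cfsg.Agent.Lib.Helper7
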