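import Mathlib
import Cfsg.Prelude
import Cfsg.Agent.Lib.Helper7.GolayC64

set_option autoImplicit false

namespace Cfsg.Agent.Lib.Helper7

open scoped Pointwise

theorem gc_nodup4 {α : Type*} {a b c d : α} (hab : a ≠ b) (hac : a ≠ c) (had : a ≠ d)
    (hbc : b ≠ c) (hbd : b ≠ d) (hcd : c ≠ d) : [a, b, c, d].Nodup := by
  simp [hab, hac, had, hbc, hbd, hcd]

theorem gc_nodup5 {α : Type*} {a b c d e : α} (hab : a ≠ b) (hac : a ≠ c) (had : a ≠ d)
    (hae : a ≠ e) (hbc : b ≠ c) (hbd : b ≠ d) (hbe : b ≠ e) (hcd : c ≠ d) (hce : c ≠ e)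
    (hde : d ≠ e) : [a, b, c, d, e].Nodup := by
  simp [hab, hac, had, hae, hbc, hbd, hbe, hcd, hce, hde]

theorem gc_nodup6 {α : Type*} {a b c d e f : α} (hab : a ≠ b) (hac : a ≠ c) (had : a ≠ d)
    (hae : a ≠ e) (haf : a ≠ f) (hbc : b ≠ c) (hbd : b ≠ d) (hbe : b ≠ e) (hbf : b ≠ f)
    (hcd : c ≠ d) (hce : c ≠ e) (hcf : c ≠ f) (hde : d ≠ e) (hdf : d ≠ f) (hef : e ≠ f) :
    ([a, b, c, d, e] ++ [f]).Nodup := by
  simp [hab, hac, had, hae, haf, hbc, hbd, hbe, hbf, hcd, hce, hcf, hde, hdf, hef]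

/-- type 3 data -/
theorem gc_sx_d3 {S : Finset (Finset Cfsg.GolayPt)} (hS : S ∈ Cfsg.sextets)
    (a b c : Cfsg.GolayPt) (hab : a ≠ b) (hac : a ≠ c) (hbc : b ≠ c)
    (h3 : (S.filter fun t => (t ∩ ({a, b, c} : Finset Cfsg.GolayPt)).Nonempty).card = 3) :
    ∃ p q r, ({a, p, q, r} : Finset Cfsg.GolayPt) ∈ S ∧ ([a, p, q, r, b] ++ [c]).Nodup ∧
      ¬ ∃ o ∈ Cfsg.octads, a ∈ o ∧ p ∈ o ∧ q ∈ o ∧ r ∈ o ∧ b ∈ o ∧ c ∈ o := by
  classical
  obtain ⟨ta, tb, tc, hta, htb, htc, ha, hb, hc, hf⟩ := gc_sextet_filter hS a b c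
  rw [hf] at h3
  have n12 : ta ≠ tb := by
    intro h
    rw [h] at h3
    have h2 : ({tb, tb, tc} : Finset (Finset Cfsg.GolayPt)).card ≤ 2 := by
      rw [Finset.insert_eq_of_mem (Finset.mem_insert_self _ _)]
      exact Finset.card_le_two
    omega
  have n13 : ta ≠ tc := by
    intro h
    rw [h] at h3
    have h2 : ({tc, tb, tc} : Finset (Finset Cfsg.GolayPt)).card ≤ 2 := by
      rw [Finset.insert_eq_of_mem (by simp)]
      exact Finset.card_le_two
    omega
  have n23 : tb ≠ tc := by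
    intro h
    rw [h] at h3
    have h2 : ({ta, tc, tc} : Finset (Finset Cfsg.GolayPt)).card ≤ 2 := by
      rw [Finset.pair_eq_singleton]
      exact Finset.card_le_two
    omega
  have hbta : b ∉ ta := fun h => n12 (gc_sextet_eq hS htb hta hb h).symm
  have hcta : c ∉ ta := fun h => n13 (gc_sextet_eq hS htc hta hc h).symm
  have hctb : c ∉ tb := fun h => n23 (gc_sextet_eq hS htc htb hc h).symm
  have hc3 : (ta.erase a).card = 3 := by
    rw [Finset.card_erase_of_mem ha, hS.2.1 ta hta]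
  obtain ⟨p, q, r, hpq, hpr, hqr, he⟩ := Finset.card_eq_three.mp hc3
  have hp : p ∈ ta.erase a := by
    rw [he]
    simp
  have hq : q ∈ ta.erase a := by
    rw [he]
    simp
  have hr : r ∈ ta.erase a := by
    rw [he]
    simp
  rw [Finset.mem_erase] at hp hq hr
  have eta : ({a, p, q, r} : Finset Cfsg.GolayPt) = ta := by
    rw [← he, Finset.insert_erase ha]
  refine ⟨p, q, r, by rw [eta]; exact hta, ?_, ?_⟩
  · exact gc_nodup6 (Ne.symm hp.1) (Ne.symm hq.1) (Ne.symm hr.1) hab hac hpq hpr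
      (fun h => hbta (h ▸ hp.2)) (fun h => hcta (h ▸ hp.2)) hqr
      (fun h => hbta (h ▸ hq.2)) (fun h => hcta (h ▸ hq.2))
      (fun h => hbta (h ▸ hr.2)) (fun h => hcta (h ▸ hr.2)) hbc
  · rintro ⟨o, ho, hao, hpo, hqo, hro, hbo, hco⟩
    have hU := hS.2.2 ta hta tb htb n12
    have hs5 : (insert b ta).card = 5 := by
      rw [Finset.card_insert_of_notMem hbta, hS.2.1 ta hta]
    obtain ⟨o0, _, huniq⟩ := gc_steiner.2 _ hs5
    have h1 : o = o0 := huniq o ⟨ho, by
      intro x hx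
      rw [Finset.mem_insert] at hx
      rcases hx with hx | hx
      · rw [hx]
        exact hbo
      · rw [← eta] at hx
        simp only [Finset.mem_insert, Finset.mem_singleton] at hx
        rcases hx with hx | hx | hx | hx
        · rw [hx]; exact hao
        · rw [hx]; exact hpo
        · rw [hx]; exact hqo
        · rw [hx]; exact hro⟩
    have h2 : ta ∪ tb = o0 := huniq _ ⟨hU, by
      intro x hx
      rw [Finset.mem_insert] at hx
      rcases hx with hx | hx
      · rw [hx]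
        exact Finset.mem_union_right _ hb
      · exact Finset.mem_union_left _ hx⟩
    rw [h1, ← h2, Finset.mem_union] at hco
    rcases hco with h | h
    · exact hcta h
    · exact hctb h

theorem gc_sx_range {R : Finset (Finset Cfsg.GolayPt)} (hR : R ∈ Cfsg.sextets)
    (a b c : Cfsg.GolayPt) :
    (R.filter fun t => (t ∩ ({a, b, c} : Finset Cfsg.GolayPt)).Nonempty).card = 1 ∨
    (R.filter fun t => (t ∩ ({a, b, c} : Finset Cfsg.GolayPt)).Nonempty).card = 2 ∨
    (R.filter fun t => (t ∩ ({a, b, c} : Finset Cfsg.GolayPt)).Nonempty).card = 3 := by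
  classical
  obtain ⟨ta, tb, tc, hta, htb, htc, ha, hb, hc, hf⟩ := gc_sextet_filter hR a b c
  rw [hf]
  have h1 : 0 < ({ta, tb, tc} : Finset (Finset Cfsg.GolayPt)).card :=
    Finset.card_pos.mpr ⟨ta, by simp⟩
  have h2 := Finset.card_le_three (a := ta) (b := tb) (c := tc)
  omega

theorem gc_sx_conj (a b c : Cfsg.GolayPt) (hab : a ≠ b) (hac : a ≠ c) (hbc : b ≠ c)
    (S S' : Finset (Finset Cfsg.GolayPt)) (hS : S ∈ Cfsg.sextets) (hS' : S' ∈ Cfsg.sextets)
    (hcnt : (S.filter fun t => (t ∩ ({a, b, c} : Finset Cfsg.GolayPt)).Nonempty).card =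
      (S'.filter fun t => (t ∩ ({a, b, c} : Finset Cfsg.GolayPt)).Nonempty).card) :
    ∃ g ∈ Cfsg.M24, g • ({a, b, c} : Finset Cfsg.GolayPt) = {a, b, c} ∧ g • S = S' := by
  classical
  rcases gc_sx_range hS a b c with h | h | h
  · obtain ⟨p, hp, hpS⟩ := gc_sx_d1 hS a b c hab hac hbc h
    obtain ⟨p', hp', hpS'⟩ := gc_sx_d1 hS' a b c hab hac hbc (hcnt.symm.trans h)
    rw [Finset.mem_insert, Finset.mem_insert, Finset.mem_singleton, not_or, not_or] at hp hp'
    obtain ⟨g, hg, ga, gb, gc, gp⟩ := gc_four_pts a b c p a b c p'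
      (gc_nodup4 hab hac (Ne.symm hp.1) hbc (Ne.symm hp.2.1) (Ne.symm hp.2.2))
      (gc_nodup4 hab hac (Ne.symm hp'.1) hbc (Ne.symm hp'.2.1) (Ne.symm hp'.2.2))
    refine ⟨g, hg, ?_, gc_sextet_move hg hS hS' hpS ?_⟩
    · rw [Finset.smul_finset_insert, Finset.smul_finset_insert, Finset.smul_finset_singleton]
      show ({g a, g b, g c} : Finset Cfsg.GolayPt) = _
      rw [ga, gb, gc]
    · rw [Finset.smul_finset_insert, Finset.smul_finset_insert, Finset.smul_finset_insert,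
        Finset.smul_finset_singleton]
      show ({g p, g a, g b, g c} : Finset Cfsg.GolayPt) ∈ S'
      rw [ga, gb, gc, gp]
      exact hpS'
  · obtain ⟨x, y, z, p, q, hY, hxy, hxz, hyz, hp, hq, hpq, hmem⟩ :=
      gc_sx_d2 hS a b c hab hac hbc h
    obtain ⟨x', y', z', p', q', hY', hxy', hxz', hyz', hp', hq', hpq', hmem'⟩ :=
      gc_sx_d2 hS' a b c hab hac hbc (hcnt.symm.trans h)
    rw [Finset.mem_insert, Finset.mem_insert, Finset.mem_singleton, not_or, not_or]
      at hp hq hp' hq'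
    obtain ⟨g, hg, gx, gy, gz, gp, gq⟩ := gc_five_pts x y z p q x' y' z' p' q'
      (gc_nodup5 hxy hxz (Ne.symm hp.1) (Ne.symm hq.1) hyz (Ne.symm hp.2.1) (Ne.symm hq.2.1)
        (Ne.symm hp.2.2) (Ne.symm hq.2.2) hpq)
      (gc_nodup5 hxy' hxz' (Ne.symm hp'.1) (Ne.symm hq'.1) hyz' (Ne.symm hp'.2.1)
        (Ne.symm hq'.2.1) (Ne.symm hp'.2.2) (Ne.symm hq'.2.2) hpq')
    refine ⟨g, hg, ?_, gc_sextet_move hg hS hS' hmem ?_⟩
    · rw [hY, Finset.smul_finset_insert, Finset.smul_finset_insert,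
        Finset.smul_finset_singleton]
      show ({g x, g y, g z} : Finset Cfsg.GolayPt) = _
      rw [gx, gy, gz]
      exact hY'.symm.trans hY
    · rw [Finset.smul_finset_insert, Finset.smul_finset_insert, Finset.smul_finset_insert,
        Finset.smul_finset_singleton]
      show ({g x, g y, g p, g q} : Finset Cfsg.GolayPt) ∈ S'
      rw [gx, gy, gp, gq]
      exact hmem'
  · obtain ⟨p, q, r, hmem, hnd, hno⟩ := gc_sx_d3 hS a b c hab hac hbc h
    obtain ⟨p', q', r', hmem', hnd', hno'⟩ :=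
      gc_sx_d3 hS' a b c hab hac hbc (hcnt.symm.trans h)
    obtain ⟨g, hg, ga, gp, gq, gr, gb, gc⟩ :=
      gc_six_pts_trans a p q r b c a p' q' r' b c hnd hnd' (iff_of_false hno hno')
    refine ⟨g, hg, ?_, gc_sextet_move hg hS hS' hmem ?_⟩
    · rw [Finset.smul_finset_insert, Finset.smul_finset_insert, Finset.smul_finset_singleton]
      show ({g a, g b, g c} : Finset Cfsg.GolayPt) = _
      rw [ga, gb, gc]
    · rw [Finset.smul_finset_insert, Finset.smul_finset_insert, Finset.smul_finset_insert,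
        Finset.smul_finset_singleton]
      show ({g a, g p, g q, g r} : Finset Cfsg.GolayPt) ∈ S'
      rw [ga, gp, gq, gr]
      exact hmem'

end Cfsg.Agent.Lib.Helper7
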