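import Mathlib
import Cfsg.Prelude
import Cfsg.Agent.Lib.Helper7.GolayC65

set_option autoImplicit false

namespace Cfsg.Agent.Lib.Helper7

open scoped Pointwise

theorem gc_sext_self (t : Finset Cfsg.GolayPt) : t ∈ gcSext t := by
  unfold gcSext
  exact Finset.mem_insert_self _ _

theorem gc_pt_card : Fintype.card Cfsg.GolayPt = 24 := by
  rfl

/-- a sextet with a tetrad containing Y -/
theorem gc_sx_cnt1 (Y : Finset Cfsg.GolayPt) (hY : Y.card = 3) (p : Cfsg.GolayPt) (hp : p ∉ Y) :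
    gcSext (insert p Y) ∈ Cfsg.sextets ∧
    ((gcSext (insert p Y)).filter fun t => (t ∩ Y).Nonempty).card = 1 := by
  have h4 : (insert p Y).card = 4 := by rw [Finset.card_insert_of_notMem hp, hY]
  have hS := gc_sext_mem _ h4
  refine ⟨hS, ?_⟩
  have hT := gc_sext_self (insert p Y)
  obtain ⟨y, hy⟩ : Y.Nonempty := by
    rw [← Finset.card_pos, hY]
    norm_num
  rw [Finset.card_eq_one]
  refine ⟨insert p Y, ?_⟩
  ext u
  rw [Finset.mem_filter, Finset.mem_singleton]
  constructor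
  · rintro ⟨hu, w, hw⟩
    rw [Finset.mem_inter] at hw
    exact gc_sextet_eq hS hu hT hw.1 (Finset.mem_insert_of_mem hw.2)
  · rintro rfl
    exact ⟨hT, y, Finset.mem_inter.mpr ⟨Finset.mem_insert_of_mem hy, hy⟩⟩

/-- a sextet with a tetrad containing two points of Y -/
theorem gc_sx_cnt2 (Y : Finset Cfsg.GolayPt) (hY : Y.card = 3) (z : Cfsg.GolayPt) (hz : z ∈ Y)
    (P : Finset Cfsg.GolayPt) (hP : P.card = 2) (hPY : Disjoint P Y) :
    gcSext (Y.erase z ∪ P) ∈ Cfsg.sextets ∧
    ((gcSext (Y.erase z ∪ P)).filter fun t => (t ∩ Y).Nonempty).card = 2 := by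
  have hd : Disjoint (Y.erase z) P :=
    Finset.disjoint_of_subset_left (Finset.erase_subset z Y) hPY.symm
  have h4 : (Y.erase z ∪ P).card = 4 := by
    rw [Finset.card_union_of_disjoint hd, Finset.card_erase_of_mem hz, hY, hP]
  have hS := gc_sext_mem _ h4
  refine ⟨hS, ?_⟩
  have hT := gc_sext_self (Y.erase z ∪ P)
  obtain ⟨tz, htz, hztz⟩ := gc_sextet_cover hS z
  have hzT : z ∉ Y.erase z ∪ P := by
    rw [Finset.mem_union]
    rintro (h | h)
    · exact Finset.notMem_erase z Y h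
    · exact Finset.disjoint_left.mp hPY h hz
  have hne : Y.erase z ∪ P ≠ tz := by
    intro h
    exact hzT (h ▸ hztz)
  obtain ⟨y, hy⟩ : (Y.erase z).Nonempty := by
    rw [← Finset.card_pos, Finset.card_erase_of_mem hz, hY]
    norm_num
  rw [Finset.card_eq_two]
  refine ⟨Y.erase z ∪ P, tz, hne, ?_⟩
  ext u
  rw [Finset.mem_filter, Finset.mem_insert, Finset.mem_singleton]
  constructor
  · rintro ⟨hu, w, hw⟩
    rw [Finset.mem_inter] at hw
    by_cases hwz : w = z
    · right
      exact gc_sextet_eq hS hu htz hw.1 (hwz ▸ hztz)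
    · left
      exact gc_sextet_eq hS hu hT hw.1
        (Finset.mem_union_left _ (Finset.mem_erase.mpr ⟨hwz, hw.2⟩))
  · rintro (rfl | rfl)
    · exact ⟨hT, y, Finset.mem_inter.mpr
        ⟨Finset.mem_union_left _ hy, Finset.mem_of_mem_erase hy⟩⟩
    · exact ⟨htz, z, Finset.mem_inter.mpr ⟨hztz, hz⟩⟩

theorem gc_sx_n1 (Y : Finset Cfsg.GolayPt) (hY : Y.card = 3) :
    {S : Finset (Finset Cfsg.GolayPt) | S ∈ Cfsg.sextets ∧
      (S.filter fun t => (t ∩ Y).Nonempty).card = 1}.ncard = 21 := by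
  have hset : {S : Finset (Finset Cfsg.GolayPt) | S ∈ Cfsg.sextets ∧
      (S.filter fun t => (t ∩ Y).Nonempty).card = 1} =
      (fun p => gcSext (insert p Y)) '' (↑(Yᶜ : Finset Cfsg.GolayPt) : Set Cfsg.GolayPt) := by
    ext S
    simp only [Set.mem_setOf_eq, Set.mem_image, Finset.mem_coe, Finset.mem_compl]
    constructor
    · rintro ⟨hS, h1⟩
      obtain ⟨a, b, c, hab, hac, hbc, rfl⟩ := Finset.card_eq_three.mp hY
      obtain ⟨p, hp, hmem⟩ := gc_sx_d1 hS a b c hab hac hbc h1
      exact ⟨p, hp, (gc_sext_unique hS hmem).symm⟩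
    · rintro ⟨p, hp, rfl⟩
      exact gc_sx_cnt1 Y hY p hp
  rw [hset, Set.ncard_image_of_injOn, Set.ncard_coe_finset, Finset.card_compl, hY, gc_pt_card]
  intro p hp p' hp' h
  have hp : p ∉ Y := Finset.mem_compl.mp (Finset.mem_coe.mp hp)
  have hp' : p' ∉ Y := Finset.mem_compl.mp (Finset.mem_coe.mp hp')
  have h : gcSext (insert p Y) = gcSext (insert p' Y) := h
  have hS := (gc_sx_cnt1 Y hY p' hp').1
  have hT : insert p Y ∈ gcSext (insert p' Y) := by
    rw [← h]
    exact gc_sext_self _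
  have hT' := gc_sext_self (insert p' Y)
  obtain ⟨y, hy⟩ : Y.Nonempty := by
    rw [← Finset.card_pos, hY]
    norm_num
  have e := gc_sextet_eq hS hT hT' (Finset.mem_insert_of_mem hy) (Finset.mem_insert_of_mem hy)
  have hmem : p ∈ insert p' Y := by
    rw [← e]
    exact Finset.mem_insert_self p Y
  rcases Finset.mem_insert.mp hmem with h | h
  · exact h
  · exact absurd h hp

theorem gc_sx_n2 (Y : Finset Cfsg.GolayPt) (hY : Y.card = 3) :
    {S : Finset (Finset Cfsg.GolayPt) | S ∈ Cfsg.sextets ∧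
      (S.filter fun t => (t ∩ Y).Nonempty).card = 2}.ncard = 630 := by
  have hset : {S : Finset (Finset Cfsg.GolayPt) | S ∈ Cfsg.sextets ∧
      (S.filter fun t => (t ∩ Y).Nonempty).card = 2} =
      (fun zP : Cfsg.GolayPt × Finset Cfsg.GolayPt => gcSext (Y.erase zP.1 ∪ zP.2)) ''
        (↑(Y ×ˢ (Yᶜ).powersetCard 2) : Set (Cfsg.GolayPt × Finset Cfsg.GolayPt)) := by
    ext S
    simp only [Set.mem_setOf_eq, Set.mem_image, Finset.mem_coe, Finset.mem_product,
      Finset.mem_powersetCard]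
    constructor
    · rintro ⟨hS, h2⟩
      obtain ⟨a, b, c, hab, hac, hbc, rfl⟩ := Finset.card_eq_three.mp hY
      obtain ⟨x, y, z, p, q, hYe, hxy, hxz, hyz, hp, hq, hpq, hmem⟩ :=
        gc_sx_d2 hS a b c hab hac hbc h2
      refine ⟨(z, {p, q}), ⟨?_, ?_, Finset.card_pair hpq⟩, ?_⟩
      · rw [hYe]
        simp
      · intro w hw
        rw [Finset.mem_compl, hYe]
        rcases Finset.mem_insert.mp hw with rfl | hw
        · exact hp
        · rw [Finset.mem_singleton.mp hw]
          exact hq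
      · have e : ({a, b, c} : Finset Cfsg.GolayPt).erase z ∪ {p, q} = {x, y, p, q} := by
          rw [hYe]
          ext w
          simp only [Finset.mem_union, Finset.mem_erase, Finset.mem_insert,
            Finset.mem_singleton]
          constructor
          · rintro (⟨h1, h2 | h2 | h2⟩ | h | h)
            · exact Or.inl h2
            · exact Or.inr (Or.inl h2)
            · exact absurd h2 h1
            · exact Or.inr (Or.inr (Or.inl h))
            · exact Or.inr (Or.inr (Or.inr h))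
          · rintro (h | h | h | h)
            · exact Or.inl ⟨by rw [h]; exact hxz, Or.inl h⟩
            · exact Or.inl ⟨by rw [h]; exact hyz, Or.inr (Or.inl h)⟩
            · exact Or.inr (Or.inl h)
            · exact Or.inr (Or.inr h)
        show gcSext (({a, b, c} : Finset Cfsg.GolayPt).erase z ∪ {p, q}) = S
        rw [e]
        exact (gc_sext_unique hS hmem).symm
    · rintro ⟨⟨z, P⟩, ⟨hz, hPsub, hPc⟩, rfl⟩
      exact gc_sx_cnt2 Y hY z hz P hPc (by
        rw [Finset.disjoint_left]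
        intro w hw hwY
        exact Finset.mem_compl.mp (hPsub hw) hwY)
  rw [hset, Set.ncard_image_of_injOn, Set.ncard_coe_finset, Finset.card_product,
    Finset.card_powersetCard, Finset.card_compl, hY, gc_pt_card]
  · rfl
  rintro ⟨z, P⟩ hzP ⟨z', P'⟩ hzP' h
  rw [Finset.mem_coe, Finset.mem_product, Finset.mem_powersetCard] at hzP hzP'
  obtain ⟨hz, hPsub, hPc⟩ := hzP
  obtain ⟨hz', hPsub', hPc'⟩ := hzP'
  have hPY : Disjoint P Y := by
    rw [Finset.disjoint_left]
    intro w hw hwY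
    exact Finset.mem_compl.mp (hPsub hw) hwY
  have hPY' : Disjoint P' Y := by
    rw [Finset.disjoint_left]
    intro w hw hwY
    exact Finset.mem_compl.mp (hPsub' hw) hwY
  have h : gcSext (Y.erase z ∪ P) = gcSext (Y.erase z' ∪ P') := h
  have hS := (gc_sx_cnt2 Y hY z' hz' P' hPc' hPY').1
  have hT : Y.erase z ∪ P ∈ gcSext (Y.erase z' ∪ P') := by
    rw [← h]
    exact gc_sext_self _
  have hT' := gc_sext_self (Y.erase z' ∪ P')
  obtain ⟨y, hy⟩ : (Y.erase z ∩ Y.erase z').Nonempty := by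
    rw [← Finset.card_pos]
    have c := Finset.card_union_add_card_inter (Y.erase z) (Y.erase z')
    have hle : (Y.erase z ∪ Y.erase z').card ≤ Y.card :=
      Finset.card_le_card (Finset.union_subset (Finset.erase_subset _ _)
        (Finset.erase_subset _ _))
    rw [Finset.card_erase_of_mem hz, Finset.card_erase_of_mem hz', hY] at c
    rw [hY] at hle
    omega
  rw [Finset.mem_inter] at hy
  have e := gc_sextet_eq hS hT hT' (Finset.mem_union_left _ hy.1) (Finset.mem_union_left _ hy.2)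
  have hzz : z = z' := by
    by_contra hne
    have hmem : z ∈ Y.erase z' ∪ P' :=
      Finset.mem_union_left _ (Finset.mem_erase.mpr ⟨hne, hz⟩)
    rw [← e, Finset.mem_union] at hmem
    rcases hmem with h1 | h1
    · exact Finset.notMem_erase z Y h1
    · exact Finset.disjoint_left.mp hPY h1 hz
  subst hzz
  have hPP : P = P' := by
    ext w
    constructor
    · intro hw
      have hmem : w ∈ Y.erase z ∪ P' := by
        rw [← e]
        exact Finset.mem_union_right _ hw
      rcases Finset.mem_union.mp hmem with h1 | h1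
      · exact absurd (Finset.mem_of_mem_erase h1) (Finset.disjoint_left.mp hPY hw)
      · exact h1
    · intro hw
      have hmem : w ∈ Y.erase z ∪ P := by
        rw [e]
        exact Finset.mem_union_right _ hw
      rcases Finset.mem_union.mp hmem with h1 | h1
      · exact absurd (Finset.mem_of_mem_erase h1) (Finset.disjoint_left.mp hPY' hw)
      · exact h1
  rw [hPP]

theorem gc_ncard_split3 {α : Type*} [Finite α] (A : Set α) (f : α → ℕ)
    (hr : ∀ x ∈ A, f x = 1 ∨ f x = 2 ∨ f x = 3) :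
    A.ncard = {x | x ∈ A ∧ f x = 1}.ncard + {x | x ∈ A ∧ f x = 2}.ncard +
      {x | x ∈ A ∧ f x = 3}.ncard := by
  have hsplit : A = {x | x ∈ A ∧ f x = 1} ∪
      ({x | x ∈ A ∧ f x = 2} ∪ {x | x ∈ A ∧ f x = 3}) := by
    ext x
    simp only [Set.mem_union, Set.mem_setOf_eq]
    constructor
    · intro hx
      rcases hr x hx with h | h | h
      · exact Or.inl ⟨hx, h⟩
      · exact Or.inr (Or.inl ⟨hx, h⟩)
      · exact Or.inr (Or.inr ⟨hx, h⟩)
    · rintro (h | h | h) <;> exact h.1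
  have hd1 : Disjoint {x | x ∈ A ∧ f x = 1}
      ({x | x ∈ A ∧ f x = 2} ∪ {x | x ∈ A ∧ f x = 3}) := by
    rw [Set.disjoint_left]
    rintro x ⟨_, h1⟩ (⟨_, h2⟩ | ⟨_, h2⟩) <;> omega
  have hd2 : Disjoint {x | x ∈ A ∧ f x = 2} {x | x ∈ A ∧ f x = 3} := by
    rw [Set.disjoint_left]
    rintro x ⟨_, h1⟩ ⟨_, h2⟩
    omega
  have e1 := Set.ncard_union_eq hd1
  have e2 := Set.ncard_union_eq hd2
  rw [← hsplit] at e1
  omega

theorem gc_sx_n3 (Y : Finset Cfsg.GolayPt) (hY : Y.card = 3) :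
    {S : Finset (Finset Cfsg.GolayPt) | S ∈ Cfsg.sextets ∧
      (S.filter fun t => (t ∩ Y).Nonempty).card = 3}.ncard = 1120 := by
  have h1 := gc_sx_n1 Y hY
  have h2 := gc_sx_n2 Y hY
  have htot := gc_sextets_card
  have hsp : Cfsg.sextets.ncard =
      {S : Finset (Finset Cfsg.GolayPt) | S ∈ Cfsg.sextets ∧
        (S.filter fun t => (t ∩ Y).Nonempty).card = 1}.ncard +
      {S : Finset (Finset Cfsg.GolayPt) | S ∈ Cfsg.sextets ∧
        (S.filter fun t => (t ∩ Y).Nonempty).card = 2}.ncard +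
      {S : Finset (Finset Cfsg.GolayPt) | S ∈ Cfsg.sextets ∧
        (S.filter fun t => (t ∩ Y).Nonempty).card = 3}.ncard :=
    gc_ncard_split3 Cfsg.sextets
      (fun S : Finset (Finset Cfsg.GolayPt) => (S.filter fun t => (t ∩ Y).Nonempty).card) (by
        intro S hS
        obtain ⟨a, b, c, hab, hac, hbc, rfl⟩ := Finset.card_eq_three.mp hY
        exact gc_sx_range hS a b c)
  rw [htot, h1, h2] at hsp
  omega

theorem gc_s5616 (Y : Finset Cfsg.GolayPt) (hY : Y.card = 3) : {S : Finset (Finset Cfsg.GolayPt) | S ∈ Cfsg.sextets ∧ (S.filter fun t => (t ∩ Y).Nonempty).card = 1}.ncard = 21 ∧ {S : Finset (Finset Cfsg.GolayPt) | S ∈ Cfsg.sextets ∧ (S.filter fun t => (t ∩ Y).Nonempty).card = 2}.ncard = 630 ∧ {S : Finset (Finset Cfsg.GolayPt) | S ∈ Cfsg.sextets ∧ (S.filter fun t => (t ∩ Y).Nonempty).card = 3}.ncard = 1120 ∧ ∀ S S' : Finset (Finset Cfsg.GolayPt), S ∈ Cfsg.sextets → S' ∈ Cfsg.sextets → (S.filter fun t => (t ∩ Y).Nonempty).card = (S'.filter fun t => (t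 ∩ Y).Nonempty).card → ∃ g ∈ Cfsg.M24, g • Y = Y ∧ g • S = S' := by
  refine ⟨gc_sx_n1 Y hY, gc_sx_n2 Y hY, gc_sx_n3 Y hY, ?_⟩
  obtain ⟨a, b, c, hab, hac, hbc, rfl⟩ := Finset.card_eq_three.mp hY
  exact gc_sx_conj a b c hab hac hbc

end Cfsg.Agent.Lib.Helper7
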