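import Mathlib
import Cfsg.Prelude

set_option autoImplicit false

namespace Cfsg.Agent.Lib.Helper7

/-- The Gram determinant of a "polar form" in any basis is the standard Gram determinant times
a nonzero square. -/
theorem gd_gram_det {F : Type*} [Field F] {n : Type*} [Fintype n] [DecidableEq n]
    (f : (n → F) → F) (G₀ : Matrix n n F)
    (hpolar : ∀ u v : n → F, QuadraticMap.polar f u v = ∑ x, ∑ y, u x * G₀ x y * v y)
    {ι : Type*} [Fintype ι] [DecidableEq ι] (b : Module.Basis ι F (n → F)) :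
    ∃ d : F, d ≠ 0 ∧
      (Matrix.of (fun i j : ι => QuadraticMap.polar f (b i) (b j))).det = d * G₀.det * d := by
  classical
  obtain ⟨e⟩ : Nonempty (ι ≃ n) := ⟨b.indexEquiv (Pi.basisFun F n)⟩
  obtain ⟨P, hP⟩ : ∃ P : Matrix n n F, P = Matrix.of (fun x y => b (e.symm x) y) := ⟨_, rfl⟩
  have hGram : (Matrix.of (fun i j : ι => QuadraticMap.polar f (b i) (b j))).submatrix
      e.symm e.symm = P * G₀ * P.transpose := by
    ext x y
    rw [Matrix.submatrix_apply, Matrix.of_apply, hpolar, Matrix.mul_apply]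
    simp only [Matrix.mul_apply, Matrix.transpose_apply, hP, Matrix.of_apply, Finset.sum_mul]
    rw [Finset.sum_comm]
  have hPdet : P.det ≠ 0 := by
    have h1 : LinearIndependent F P.row := by
      have h0 := b.linearIndependent.comp e.symm e.symm.injective
      rw [hP]
      exact h0
    exact ((Matrix.isUnit_iff_isUnit_det P).mp
      (Matrix.linearIndependent_rows_iff_isUnit.mp h1)).ne_zero
  refine ⟨P.det, hPdet, ?_⟩
  rw [← Matrix.det_submatrix_equiv_self e.symm, hGram, Matrix.det_mul, Matrix.det_mul,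
    Matrix.det_transpose]

theorem gd_det_hyp (F : Type*) [Field F] (m : ℕ) :
    (Matrix.fromBlocks (0 : Matrix (Fin m) (Fin m) F) (1 : Matrix (Fin m) (Fin m) F)
      (1 : Matrix (Fin m) (Fin m) F) (0 : Matrix (Fin m) (Fin m) F)).det = (-1) ^ m := by
  have h1 : Matrix.fromBlocks (1 : Matrix (Fin m) (Fin m) F) (1 : Matrix (Fin m) (Fin m) F)
      (0 : Matrix (Fin m) (Fin m) F) (1 : Matrix (Fin m) (Fin m) F) *
      Matrix.fromBlocks (0 : Matrix (Fin m) (Fin m) F) (1 : Matrix (Fin m) (Fin m) F)
      (1 : Matrix (Fin m) (Fin m) F) (0 : Matrix (Fin m) (Fin m) F) =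
      Matrix.fromBlocks (1 : Matrix (Fin m) (Fin m) F) (1 : Matrix (Fin m) (Fin m) F)
      (1 : Matrix (Fin m) (Fin m) F) (0 : Matrix (Fin m) (Fin m) F) := by
    rw [Matrix.fromBlocks_multiply]
    simp
  have h2 := congrArg Matrix.det h1
  rw [Matrix.det_mul, Matrix.det_fromBlocks_zero₂₁, Matrix.det_one, one_mul, one_mul,
    Matrix.det_fromBlocks_one₁₁] at h2
  rw [h2]
  simp [Matrix.det_neg]

theorem gd_isSquare_conj {F : Type*} [Field F] (d x : F) (hd : d ≠ 0) :
    IsSquare (d * x * d) ↔ IsSquare x := by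
  constructor
  · rintro ⟨r, hr⟩
    refine ⟨r / d, ?_⟩
    field_simp
    linear_combination hr
  · rintro ⟨r, hr⟩
    exact ⟨r * d, by rw [hr]; ring⟩

theorem gd_neg_one_pow {F : Type*} [Field F] [Fintype F] (hq : Odd (Fintype.card F)) (m : ℕ) :
    IsSquare ((-1 : F) ^ m) ↔ Even (m * (Fintype.card F - 1) / 2) := by
  obtain ⟨t, ht⟩ := hq
  have hdiv : m * (Fintype.card F - 1) / 2 = m * t := by
    rw [ht, Nat.add_sub_cancel, ← mul_assoc, mul_comm m 2, mul_assoc,
      Nat.mul_div_cancel_left _ (by norm_num : 0 < 2)]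
  rw [hdiv]
  rcases Nat.even_or_odd m with hme | hmo
  · rw [hme.neg_one_pow]
    constructor
    · intro _
      exact Nat.even_mul.mpr (Or.inl hme)
    · intro _
      exact ⟨1, by rw [mul_one]⟩
  · rw [hmo.neg_one_pow, FiniteField.isSquare_neg_one_iff, Nat.even_mul]
    constructor
    · intro h
      right
      rw [Nat.even_iff]
      omega
    · rintro (h | h)
      · exact absurd h (Nat.not_even_iff_odd.mpr hmo)
      · rw [Nat.even_iff] at h
        omega

/-- In a finite field, multiplying by a non-square flips squareness of nonzero elements. -/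
theorem gd_isSquare_mul_nonsquare {F : Type*} [Field F] [Fintype F] (x D : F) (hx : x ≠ 0)
    (hD : ¬ IsSquare D) : IsSquare (x * D) ↔ ¬ IsSquare x := by
  classical
  have hD0 : D ≠ 0 := by
    rintro rfl
    exact hD ⟨0, by rw [mul_zero]⟩
  rw [← quadraticChar_one_iff_isSquare (mul_ne_zero hx hD0), map_mul,
    quadraticChar_neg_one_iff_not_isSquare.mpr hD, ← quadraticChar_neg_one_iff_not_isSquare]
  constructor
  · intro h
    linarith
  · intro h
    rw [h]
    norm_num

end Cfsg.Agent.Lib.Helper7
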