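import Mathlib
import Cfsg.Prelude

set_option autoImplicit false

namespace Cfsg.Agent.Lib.Helper7

/-- addition table of the field with four elements -/
def hxAdd (a b : Fin 4) : Fin 4 :=
  (![![0, 1, 2, 3], ![1, 0, 3, 2], ![2, 3, 0, 1], ![3, 2, 1, 0]] : Fin 4 → Fin 4 → Fin 4) a b

/-- multiplication table of the field with four elements -/
def hxMul (a b : Fin 4) : Fin 4 :=
  (![![0, 0, 0, 0], ![0, 1, 2, 3], ![0, 2, 3, 1], ![0, 3, 1, 2]] : Fin 4 → Fin 4 → Fin 4) a b

/-- the elements of a field with four elements -/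
def hxPhi {F : Type*} [Field F] (ω : F) (a : Fin 4) : F := (![0, 1, ω, ω ^ 2] : Fin 4 → F) a

section
variable {F : Type*} [Field F]

theorem hx_add (ω : F) (h2 : (2 : F) = 0) (hω : ω ^ 2 + ω + 1 = 0) (a b : Fin 4) :
    hxPhi ω (hxAdd a b) = hxPhi ω a + hxPhi ω b := by
  fin_cases a <;> fin_cases b
  · show (0 : F) = (0 : F) + (0 : F)
    linear_combination (0) * hω + (0) * h2
  · show (1 : F) = (0 : F) + (1 : F)
    linear_combination (0) * hω + (0) * h2
  · show ω = (0 : F) + ω
    linear_combination (0) * hω + (0) * h2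
  · show ω ^ 2 = (0 : F) + ω ^ 2
    linear_combination (0) * hω + (0) * h2
  · show (1 : F) = (1 : F) + (0 : F)
    linear_combination (0) * hω + (0) * h2
  · show (0 : F) = (1 : F) + (1 : F)
    linear_combination (0) * hω + ((-1)) * h2
  · show ω ^ 2 = (1 : F) + ω
    linear_combination ((1)) * hω + ((-1) + (-1) * ω) * h2
  · show ω = (1 : F) + ω ^ 2
    linear_combination ((-1)) * hω + ((1) * ω) * h2
  · show ω = ω + (0 : F)
    linear_combination (0) * hω + (0) * h2
  · show ω ^ 2 = ω + (1 : F)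
    linear_combination ((1)) * hω + ((-1) + (-1) * ω) * h2
  · show (0 : F) = ω + ω
    linear_combination (0) * hω + ((-1) * ω) * h2
  · show (1 : F) = ω + ω ^ 2
    linear_combination ((-1)) * hω + ((1)) * h2
  · show ω ^ 2 = ω ^ 2 + (0 : F)
    linear_combination (0) * hω + (0) * h2
  · show ω = ω ^ 2 + (1 : F)
    linear_combination ((-1)) * hω + ((1) * ω) * h2
  · show (1 : F) = ω ^ 2 + ω
    linear_combination ((-1)) * hω + ((1)) * h2
  · show (0 : F) = ω ^ 2 + ω ^ 2
    linear_combination ((-2)) * hω + ((1) + (1) * ω) * h2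

theorem hx_mul (ω : F) (h2 : (2 : F) = 0) (hω : ω ^ 2 + ω + 1 = 0) (a b : Fin 4) :
    hxPhi ω (hxMul a b) = hxPhi ω a * hxPhi ω b := by
  fin_cases a <;> fin_cases b
  · show (0 : F) = (0 : F) * (0 : F)
    linear_combination (0) * hω + (0) * h2
  · show (0 : F) = (0 : F) * (1 : F)
    linear_combination (0) * hω + (0) * h2
  · show (0 : F) = (0 : F) * ω
    linear_combination (0) * hω + (0) * h2
  · show (0 : F) = (0 : F) * ω ^ 2
    linear_combination (0) * hω + (0) * h2
  · show (0 : F) = (1 : F) * (0 : F)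
    linear_combination (0) * hω + (0) * h2
  · show (1 : F) = (1 : F) * (1 : F)
    linear_combination (0) * hω + (0) * h2
  · show ω = (1 : F) * ω
    linear_combination (0) * hω + (0) * h2
  · show ω ^ 2 = (1 : F) * ω ^ 2
    linear_combination (0) * hω + (0) * h2
  · show (0 : F) = ω * (0 : F)
    linear_combination (0) * hω + (0) * h2
  · show ω = ω * (1 : F)
    linear_combination (0) * hω + (0) * h2
  · show ω ^ 2 = ω * ω
    linear_combination (0) * hω + (0) * h2
  · show (1 : F) = ω * ω ^ 2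
    linear_combination ((1) + (-1) * ω) * hω + (0) * h2
  · show (0 : F) = ω ^ 2 * (0 : F)
    linear_combination (0) * hω + (0) * h2
  · show ω ^ 2 = ω ^ 2 * (1 : F)
    linear_combination (0) * hω + (0) * h2
  · show (1 : F) = ω ^ 2 * ω
    linear_combination ((1) + (-1) * ω) * hω + (0) * h2
  · show ω = ω ^ 2 * ω ^ 2
    linear_combination ((1) * ω + (-1) * ω ^ 2) * hω + (0) * h2

theorem hx_zero_iff (ω : F) (hω : ω ^ 2 + ω + 1 = 0) (a : Fin 4) :
    hxPhi ω a = 0 ↔ a = 0 := by
  have hw : ω ≠ 0 := by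
    rintro rfl
    simp at hω
  constructor
  · intro h
    fin_cases a
    · rfl
    · exact absurd (show (1 : F) = 0 from h) one_ne_zero
    · exact absurd (show ω = 0 from h) hw
    · exact absurd (show ω ^ 2 = 0 from h) (pow_ne_zero 2 hw)
  · rintro rfl
    rfl

theorem hx_add_self_tab : ∀ a b : Fin 4, hxAdd a b = 0 → a = b := by decide

theorem hx_inj (ω : F) (h2 : (2 : F) = 0) (hω : ω ^ 2 + ω + 1 = 0) :
    Function.Injective (hxPhi ω) := by
  intro a b h
  apply hx_add_self_tab
  rw [← hx_zero_iff ω hω, hx_add ω h2 hω, h]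
  linear_combination (hxPhi ω b) * h2

end

end Cfsg.Agent.Lib.Helper7
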