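import Mathlib
import Cfsg.Prelude
import Cfsg.Agent.Lib.Helper7.Hexa

set_option autoImplicit false

namespace Cfsg.Agent.Lib.Helper7

/-- generator rows in the model -/
def hxG1 : Fin 6 → Fin 4 := ![2, 3, 3, 2, 3, 2]
/-- generator rows in the model -/
def hxG2 : Fin 6 → Fin 4 := ![3, 2, 2, 3, 3, 2]
/-- generator rows in the model -/
def hxG3 : Fin 6 → Fin 4 := ![3, 2, 3, 2, 2, 3]

/-- the model word with given coefficients -/
def hxG (c : Fin 4 × Fin 4 × Fin 4) : Fin 6 → Fin 4 := fun i =>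
  hxAdd (hxAdd (hxMul c.1 (hxG1 i)) (hxMul c.2.1 (hxG2 i))) (hxMul c.2.2 (hxG3 i))

/-- model weight -/
def hxWt (y : Fin 6 → Fin 4) : ℕ := (Finset.univ.filter (fun i => y i ≠ 0)).card

theorem hx_inj_tab : ∀ c c' : Fin 4 × Fin 4 × Fin 4, hxG c = hxG c' → c = c' := by
  decide +kernel

theorem hx_wt_tab : ∀ c : Fin 4 × Fin 4 × Fin 4, hxG c ≠ (fun _ => 0) →
    hxWt (hxG c) = 4 ∨ hxWt (hxG c) = 6 := by
  decide +kernel

theorem hx_cnt_tab :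
    ((Finset.univ : Finset (Fin 4 × Fin 4 × Fin 4)).filter (fun c => hxWt (hxG c) = 4)).card = 45 ∧
    ((Finset.univ : Finset (Fin 4 × Fin 4 × Fin 4)).filter (fun c => hxWt (hxG c) = 6)).card = 18 := by
  decide +kernel

section
variable {F : Type*} [Field F]

/-- the word over the field from a model word -/
def hxLift (ω : F) (y : Fin 6 → Fin 4) : Fin 6 → F := fun i => hxPhi ω (y i)

theorem hx_g1 (ω : F) (i : Fin 6) :
    (![ω, ω ^ 2, ω ^ 2, ω, ω ^ 2, ω] : Fin 6 → F) i = hxPhi ω (hxG1 i) := by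
  fin_cases i <;> rfl

theorem hx_g2 (ω : F) (i : Fin 6) :
    (![ω ^ 2, ω, ω, ω ^ 2, ω ^ 2, ω] : Fin 6 → F) i = hxPhi ω (hxG2 i) := by
  fin_cases i <;> rfl

theorem hx_g3 (ω : F) (i : Fin 6) :
    (![ω ^ 2, ω, ω ^ 2, ω, ω, ω ^ 2] : Fin 6 → F) i = hxPhi ω (hxG3 i) := by
  fin_cases i <;> rfl

theorem hx_comb (ω : F) (h2 : (2 : F) = 0) (hω : ω ^ 2 + ω + 1 = 0)
    (c : Fin 4 × Fin 4 × Fin 4) :
    hxPhi ω c.1 • (![ω, ω ^ 2, ω ^ 2, ω, ω ^ 2, ω] : Fin 6 → F) +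
      hxPhi ω c.2.1 • (![ω ^ 2, ω, ω, ω ^ 2, ω ^ 2, ω] : Fin 6 → F) +
      hxPhi ω c.2.2 • (![ω ^ 2, ω, ω ^ 2, ω, ω, ω ^ 2] : Fin 6 → F) = hxLift ω (hxG c) := by
  funext i
  show hxPhi ω c.1 * (![ω, ω ^ 2, ω ^ 2, ω, ω ^ 2, ω] : Fin 6 → F) i +
      hxPhi ω c.2.1 * (![ω ^ 2, ω, ω, ω ^ 2, ω ^ 2, ω] : Fin 6 → F) i +
      hxPhi ω c.2.2 * (![ω ^ 2, ω, ω ^ 2, ω, ω, ω ^ 2] : Fin 6 → F) i =
    hxPhi ω (hxAdd (hxAdd (hxMul c.1 (hxG1 i)) (hxMul c.2.1 (hxG2 i))) (hxMul c.2.2 (hxG3 i)))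
  rw [hx_add ω h2 hω, hx_add ω h2 hω, hx_mul ω h2 hω, hx_mul ω h2 hω, hx_mul ω h2 hω,
    hx_g1, hx_g2, hx_g3]

theorem hx_lift_inj (ω : F) (h2 : (2 : F) = 0) (hω : ω ^ 2 + ω + 1 = 0) :
    Function.Injective (hxLift ω) := by
  intro y y' h
  funext i
  exact hx_inj ω h2 hω (congrFun h i)

theorem hx_lift_wt [DecidableEq F] (ω : F) (hω : ω ^ 2 + ω + 1 = 0) (y : Fin 6 → Fin 4) :
    (Finset.univ.filter fun i => hxLift ω y i ≠ 0).card = hxWt y := by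
  unfold hxWt
  congr 1
  apply Finset.filter_congr
  intro i _
  show hxPhi ω (y i) ≠ 0 ↔ y i ≠ 0
  rw [Ne, Ne, hx_zero_iff ω hω]

theorem hx_s1610 (F : Type*) [Field F] [Fintype F] [DecidableEq F] (hF : Fintype.card F = 4) (ω : F) (hω : ω ^ 2 + ω + 1 = 0) : Nat.card ↥(Cfsg.hexacode F ω) = 64 ∧ (∀ x ∈ Cfsg.hexacode F ω, x ≠ 0 → (Finset.univ.filter fun i => x i ≠ 0).card = 4 ∨ (Finset.univ.filter fun i => x i ≠ 0).card = 6) ∧ {x : Fin 6 → F | x ∈ Cfsg.hexacode F ω ∧ (Finset.univ.filter fun i => x i ≠ 0).card = 4}.ncard = 45 ∧ {x : Fin 6 → F | x ∈ Cfsg.hexacode F ω ∧ (Finset.univ.filter fun i => x i ≠ 0).card = 6}.ncard = 18 := by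
  have h4 : ((Fintype.card F : ℕ) : F) = 0 := FiniteField.cast_card_eq_zero F
  rw [hF] at h4
  have h22 : (2 : F) * 2 = 0 := by
    have e : (2 : F) * 2 = ((4 : ℕ) : F) := by norm_num
    rw [e]
    exact h4
  have h2 : (2 : F) = 0 := mul_self_eq_zero.mp h22
  have hinj := hx_inj ω h2 hω
  have hsurj : Function.Surjective (hxPhi ω) :=
    ((Fintype.bijective_iff_injective_and_card _).mpr
      ⟨hinj, by rw [Fintype.card_fin, hF]⟩).2
  have hmem : ∀ x : Fin 6 → F, x ∈ Cfsg.hexacode F ω ↔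
      ∃ c : Fin 4 × Fin 4 × Fin 4, x = hxLift ω (hxG c) := by
    intro x
    unfold Cfsg.hexacode
    rw [Submodule.mem_span_triple]
    constructor
    · rintro ⟨a, b, c, rfl⟩
      obtain ⟨a', rfl⟩ := hsurj a
      obtain ⟨b', rfl⟩ := hsurj b
      obtain ⟨c', rfl⟩ := hsurj c
      exact ⟨(a', b', c'), hx_comb ω h2 hω (a', b', c')⟩
    · rintro ⟨c, rfl⟩
      exact ⟨hxPhi ω c.1, hxPhi ω c.2.1, hxPhi ω c.2.2, hx_comb ω h2 hω c⟩
  have hLinj : Function.Injective (fun c : Fin 4 × Fin 4 × Fin 4 => hxLift ω (hxG c)) :=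
    fun c c' h => hx_inj_tab c c' (hx_lift_inj ω h2 hω h)
  have hcount : ∀ k : ℕ, {x : Fin 6 → F | x ∈ Cfsg.hexacode F ω ∧
      (Finset.univ.filter fun i => x i ≠ 0).card = k}.ncard =
      ((Finset.univ : Finset (Fin 4 × Fin 4 × Fin 4)).filter
        (fun c => hxWt (hxG c) = k)).card := by
    intro k
    have hset : {x : Fin 6 → F | x ∈ Cfsg.hexacode F ω ∧
        (Finset.univ.filter fun i => x i ≠ 0).card = k} =
        (fun c : Fin 4 × Fin 4 × Fin 4 => hxLift ω (hxG c)) ''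
          (((Finset.univ : Finset (Fin 4 × Fin 4 × Fin 4)).filter
            (fun c => hxWt (hxG c) = k) : Finset (Fin 4 × Fin 4 × Fin 4)) :
              Set (Fin 4 × Fin 4 × Fin 4)) := by
      ext x
      constructor
      · rintro ⟨hx, hk⟩
        obtain ⟨c, rfl⟩ := (hmem x).mp hx
        rw [hx_lift_wt ω hω] at hk
        exact ⟨c, Finset.mem_coe.mpr (Finset.mem_filter.mpr ⟨Finset.mem_univ _, hk⟩), rfl⟩
      · rintro ⟨c, hc, rfl⟩
        refine ⟨(hmem _).mpr ⟨c, rfl⟩, ?_⟩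
        rw [hx_lift_wt ω hω]
        exact (Finset.mem_filter.mp (Finset.mem_coe.mp hc)).2
    rw [hset, Set.ncard_image_of_injective _ hLinj, Set.ncard_coe_finset]
  refine ⟨?_, ?_, ?_, ?_⟩
  · have hbij : Function.Bijective (fun c : Fin 4 × Fin 4 × Fin 4 =>
        (⟨hxLift ω (hxG c), (hmem _).mpr ⟨c, rfl⟩⟩ : ↥(Cfsg.hexacode F ω))) := by
      constructor
      · intro c c' h
        exact hLinj (congrArg Subtype.val h)
      · rintro ⟨x, hx⟩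
        obtain ⟨c, rfl⟩ := (hmem x).mp hx
        exact ⟨c, rfl⟩
    rw [← Nat.card_congr (Equiv.ofBijective _ hbij)]
    simp
  · intro x hx hne
    obtain ⟨c, rfl⟩ := (hmem x).mp hx
    rw [hx_lift_wt ω hω]
    apply hx_wt_tab
    intro h0
    apply hne
    funext i
    show hxPhi ω (hxG c i) = 0
    rw [h0]
    rfl
  · rw [hcount, hx_cnt_tab.1]
  · rw [hcount, hx_cnt_tab.2]

end

end Cfsg.Agent.Lib.Helper7
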