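import Mathlib
import Cfsg.Prelude
import Cfsg.Agent.Lib.Helper7.GolayC7

set_option autoImplicit false

namespace Cfsg.Agent.Lib.Helper7

open scoped Pointwise

theorem gc_ind_empty_mem : g24Ind (∅ : Finset Cfsg.GolayPt) ∈ Cfsg.golayCode := by
  have e : g24Ind (∅ : Finset Cfsg.GolayPt) = 0 := by
    funext i; simp [g24Ind]
  rw [e]; exact Submodule.zero_mem _

theorem ls_mem_iff (x : Cfsg.GolayPt → ℤ) : x ∈ Cfsg.leechSet ↔
    ∃ m : ℤ, (∀ i, x i ≡ m [ZMOD 2]) ∧ (∑ i, x i ≡ 4 * m [ZMOD 8]) ∧
      ∀ k : ℤ, g24Ind (Finset.univ.filter fun i => x i ≡ k [ZMOD 4]) ∈ Cfsg.golayCode := by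
  unfold Cfsg.leechSet
  simp only [Set.mem_setOf_eq, gc_supp_iff]

theorem ls_add {x y : Cfsg.GolayPt → ℤ} (hx : x ∈ Cfsg.leechSet) (hy : y ∈ Cfsg.leechSet) :
    x + y ∈ Cfsg.leechSet := by
  rw [ls_mem_iff] at hx hy ⊢
  obtain ⟨m, hm1, hm2, hm3⟩ := hx
  obtain ⟨n, hn1, hn2, hn3⟩ := hy
  refine ⟨m + n, fun i => Int.ModEq.add (hm1 i) (hn1 i), ?_, ?_⟩
  · simp only [Pi.add_apply, Finset.sum_add_distrib]
    have h := Int.ModEq.add hm2 hn2
    rw [← mul_add] at h
    exact h
  · intro k
    have hA := hm3 (m + 2)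
    have hB := hn3 (n + 2)
    by_cases h1 : k ≡ m + n [ZMOD 4]
    · have e : (Finset.univ.filter fun i => (x + y) i ≡ k [ZMOD 4]) =
          (((Finset.univ.filter fun i => x i ≡ m + 2 [ZMOD 4]) \
              (Finset.univ.filter fun i => y i ≡ n + 2 [ZMOD 4])) ∪
            ((Finset.univ.filter fun i => y i ≡ n + 2 [ZMOD 4]) \
              (Finset.univ.filter fun i => x i ≡ m + 2 [ZMOD 4])))ᶜ := by
        ext i
        simp only [Finset.mem_filter, Finset.mem_univ, true_and, Finset.mem_compl,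
          Finset.mem_union, Finset.mem_sdiff, Pi.add_apply]
        have h2 := hm1 i
        have h3 := hn1 i
        unfold Int.ModEq at *
        omega
      rw [e]
      exact gc_compl_ind_mem (gc_symm_mem hA hB)
    · by_cases h2 : k ≡ m + n + 2 [ZMOD 4]
      · have e : (Finset.univ.filter fun i => (x + y) i ≡ k [ZMOD 4]) =
            (((Finset.univ.filter fun i => x i ≡ m + 2 [ZMOD 4]) \
                (Finset.univ.filter fun i => y i ≡ n + 2 [ZMOD 4])) ∪
              ((Finset.univ.filter fun i => y i ≡ n + 2 [ZMOD 4]) \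
                (Finset.univ.filter fun i => x i ≡ m + 2 [ZMOD 4]))) := by
          ext i
          simp only [Finset.mem_filter, Finset.mem_univ, true_and,
            Finset.mem_union, Finset.mem_sdiff, Pi.add_apply]
          have h2' := hm1 i
          have h3 := hn1 i
          unfold Int.ModEq at *
          omega
        rw [e]
        exact gc_symm_mem hA hB
      · have e : (Finset.univ.filter fun i => (x + y) i ≡ k [ZMOD 4]) = ∅ := by
          ext i
          simp only [Finset.mem_filter, Finset.mem_univ, true_and, Pi.add_apply,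
            Finset.notMem_empty, iff_false]
          have h2' := hm1 i
          have h3 := hn1 i
          unfold Int.ModEq at *
          omega
        rw [e]
        exact gc_ind_empty_mem

theorem ls_neg {x : Cfsg.GolayPt → ℤ} (hx : x ∈ Cfsg.leechSet) : -x ∈ Cfsg.leechSet := by
  rw [ls_mem_iff] at hx ⊢
  obtain ⟨m, hm1, hm2, hm3⟩ := hx
  refine ⟨m, fun i => ?_, ?_, fun k => ?_⟩
  · have h := hm1 i
    simp only [Pi.neg_apply]
    unfold Int.ModEq at *
    omega
  · simp only [Pi.neg_apply, Finset.sum_neg_distrib]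
    unfold Int.ModEq at *
    omega
  · have e : (Finset.univ.filter fun i => (-x) i ≡ k [ZMOD 4]) =
        Finset.univ.filter fun i => x i ≡ -k [ZMOD 4] := by
      ext i
      simp only [Finset.mem_filter, Finset.mem_univ, true_and, Pi.neg_apply]
      unfold Int.ModEq
      omega
    rw [e]
    exact hm3 (-k)

theorem ls_zero : (0 : Cfsg.GolayPt → ℤ) ∈ Cfsg.leechSet :=
  Cfsg.Spor.mem_leechSet_of_const_mod_four 0 0 0 (by rfl) (fun i => by rfl) (by simp)

/-- `leechSet` as an additive subgroup -/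
def lsSub : AddSubgroup (Cfsg.GolayPt → ℤ) where
  carrier := Cfsg.leechSet
  add_mem' := ls_add
  zero_mem' := ls_zero
  neg_mem' := ls_neg

theorem ls_lattice (x : Cfsg.GolayPt → ℤ) : x ∈ Cfsg.leechLattice ↔ x ∈ Cfsg.leechSet := by
  constructor
  · intro h
    have hle : Cfsg.leechLattice ≤ lsSub := (AddSubgroup.closure_le _).mpr (fun y hy => hy)
    exact hle h
  · intro h
    exact AddSubgroup.subset_closure h

end Cfsg.Agent.Lib.Helper7
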