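import Mathlib
import Cfsg.Prelude
import Cfsg.Agent.Lib.Helper7.Leech1

set_option autoImplicit false

namespace Cfsg.Agent.Lib.Helper7

open scoped Pointwise

theorem ls_abs_sq (a : ℤ) (n : ℤ) (hn : 0 ≤ n) (h : n ≤ |a|) : n ^ 2 ≤ a ^ 2 := by
  nlinarith [abs_nonneg a, sq_abs a]

theorem ls_min {x : Cfsg.GolayPt → ℤ} (hx : x ∈ Cfsg.leechSet) (h0 : x ≠ 0) :
    32 ≤ Cfsg.sqNorm x := by
  rw [ls_mem_iff] at hx
  obtain ⟨m, hm1, hm2, hm3⟩ := hx
  unfold Cfsg.sqNorm
  have hnn : ∀ i ∈ (Finset.univ : Finset Cfsg.GolayPt), 0 ≤ x i ^ 2 := fun i _ => sq_nonneg _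
  rcases Int.emod_two_eq_zero_or_one m with hm | hm
  · have hA := gc_card_mem (hm3 2)
    generalize hAdef : (Finset.univ.filter fun i => x i ≡ 2 [ZMOD 4]) = A at hA
    by_cases hA0 : A.card = 0
    · have h4 : ∀ i, x i % 4 = 0 := by
        intro i
        have h1 := hm1 i
        have h2 : i ∉ A := by
          rw [Finset.card_eq_zero] at hA0
          rw [hA0]; exact Finset.notMem_empty i
        rw [← hAdef, Finset.mem_filter] at h2
        simp only [Finset.mem_univ, true_and] at h2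
        unfold Int.ModEq at h1 h2
        omega
      obtain ⟨i, hi⟩ : ∃ i, x i ≠ 0 := by
        by_contra hcon
        push Not at hcon
        exact h0 (funext hcon)
      have hsq : ∀ j, x j ≠ 0 → 16 ≤ x j ^ 2 := by
        intro j hj
        have h4j := h4 j
        have h5 : 4 ≤ |x j| := by
          rcases abs_cases (x j) with ⟨h, _⟩ | ⟨h, _⟩ <;> omega
        have := ls_abs_sq (x j) 4 (by norm_num) h5
        linarith
      by_cases hex : ∃ j, j ≠ i ∧ x j ≠ 0
      · obtain ⟨j, hji, hj⟩ := hex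
        have hsub : ({i, j} : Finset Cfsg.GolayPt) ⊆ Finset.univ := Finset.subset_univ _
        have h6 := Finset.sum_le_sum_of_subset_of_nonneg hsub (f := fun i => x i ^ 2)
          (fun k _ _ => sq_nonneg _)
        rw [Finset.sum_pair hji.symm] at h6
        have h7 := hsq i hi
        have h8 := hsq j hj
        linarith
      · push Not at hex
        have hsum : ∑ j, x j = x i :=
          Finset.sum_eq_single i (fun j _ hji => hex j hji)
            (fun h => absurd (Finset.mem_univ i) h)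
        rw [hsum] at hm2
        have h8 : x i % 8 = 0 := by
          unfold Int.ModEq at hm2
          omega
        have h5 : 8 ≤ |x i| := by
          rcases abs_cases (x i) with ⟨h, _⟩ | ⟨h, _⟩ <;> omega
        have h6 := Finset.single_le_sum hnn (Finset.mem_univ i)
        have h7 := ls_abs_sq (x i) 8 (by norm_num) h5
        linarith
    · have h8 : 8 ≤ A.card := by omega
      have hsub : A ⊆ Finset.univ := Finset.subset_univ _
      have h1 := Finset.sum_le_sum_of_subset_of_nonneg hsub (f := fun i => x i ^ 2)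
        (fun k _ _ => sq_nonneg _)
      have h2 : ∑ i ∈ A, (4 : ℤ) ≤ ∑ i ∈ A, x i ^ 2 := by
        apply Finset.sum_le_sum
        intro i hi
        rw [← hAdef, Finset.mem_filter] at hi
        have h3 := hi.2
        unfold Int.ModEq at h3
        have h5 : 2 ≤ |x i| := by
          rcases abs_cases (x i) with ⟨h, _⟩ | ⟨h, _⟩ <;> omega
        have := ls_abs_sq (x i) 2 (by norm_num) h5
        linarith
      rw [Finset.sum_const, nsmul_eq_mul] at h2
      have h9 : (8 : ℤ) ≤ A.card := by exact_mod_cast h8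
      linarith
  · have hodd : ∀ i, x i % 2 = 1 := by
      intro i
      have h := hm1 i
      unfold Int.ModEq at h
      omega
    have h1 : ∀ i, 1 ≤ x i ^ 2 := by
      intro i
      have h := hodd i
      have h5 : 1 ≤ |x i| := by
        rcases abs_cases (x i) with ⟨h, _⟩ | ⟨h, _⟩ <;> omega
      have := ls_abs_sq (x i) 1 (by norm_num) h5
      linarith
    by_cases hex : ∃ i, 3 ≤ |x i|
    · obtain ⟨i, hi⟩ := hex
      have h9 := ls_abs_sq (x i) 3 (by norm_num) hi
      rw [← Finset.add_sum_erase Finset.univ (fun i => x i ^ 2) (Finset.mem_univ i)]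
      have h23 : ∑ j ∈ Finset.univ.erase i, (1 : ℤ) ≤ ∑ j ∈ Finset.univ.erase i, x j ^ 2 :=
        Finset.sum_le_sum (fun j _ => h1 j)
      have hc23 : ∑ j ∈ (Finset.univ : Finset Cfsg.GolayPt).erase i, (1 : ℤ) = 23 := by
        rw [Finset.sum_const, Finset.card_erase_of_mem (Finset.mem_univ i), Finset.card_univ,
          gc_card_pt]
        norm_num
      rw [hc23] at h23
      linarith
    · push Not at hex
      exfalso
      have hA := gc_card_mem (hm3 3)
      generalize hAdef : (Finset.univ.filter fun i => x i ≡ 3 [ZMOD 4]) = A at hA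
      have hval : ∀ i, x i = 1 - 2 * (if i ∈ A then 1 else 0) := by
        intro i
        have h2 := hex i
        have h3 := hodd i
        have h4 : x i = 1 ∨ x i = -1 := by
          rcases abs_cases (x i) with ⟨h, _⟩ | ⟨h, _⟩ <;> omega
        by_cases hiA : i ∈ A
        · rw [if_pos hiA]
          rw [← hAdef, Finset.mem_filter] at hiA
          have h5 := hiA.2
          unfold Int.ModEq at h5
          omega
        · rw [if_neg hiA]
          rw [← hAdef, Finset.mem_filter] at hiA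
          simp only [Finset.mem_univ, true_and] at hiA
          unfold Int.ModEq at hiA
          omega
      have hsum : ∑ i, x i = 24 - 2 * (A.card : ℤ) := by
        rw [Finset.sum_congr rfl (fun i _ => hval i), Finset.sum_sub_distrib, ← Finset.mul_sum,
          Finset.sum_boole, Finset.sum_const, Finset.card_univ, gc_card_pt]
        simp
      rw [hsum] at hm2
      unfold Int.ModEq at hm2
      omega

theorem ls_decomp {x : Cfsg.GolayPt → ℤ} {m : ℤ} (hm1 : ∀ i, x i ≡ m [ZMOD 2]) (i : Cfsg.GolayPt) :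
    ∃ b : ℤ, x i = m + 2 * (if i ∈ (Finset.univ.filter fun i => x i ≡ m + 2 [ZMOD 4])
      then 1 else 0) + 4 * b := by
  have h1 := hm1 i
  by_cases hiA : i ∈ (Finset.univ.filter fun i => x i ≡ m + 2 [ZMOD 4])
  · rw [if_pos hiA]
    have h2 := (Finset.mem_filter.mp hiA).2
    unfold Int.ModEq at h2 h1
    exact ⟨(x i - m - 2) / 4, by omega⟩
  · rw [if_neg hiA]
    have h2 : ¬ (x i ≡ m + 2 [ZMOD 4]) := fun h =>
      hiA (Finset.mem_filter.mpr ⟨Finset.mem_univ i, h⟩)
    unfold Int.ModEq at h2 h1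
    exact ⟨(x i - m) / 4, by omega⟩

theorem ls_sq16 {x : Cfsg.GolayPt → ℤ} (hx : x ∈ Cfsg.leechSet) : (16 : ℤ) ∣ Cfsg.sqNorm x := by
  rw [ls_mem_iff] at hx
  obtain ⟨m, hm1, hm2, hm3⟩ := hx
  have hA := gc_card_mem (hm3 (m + 2))
  have hb := ls_decomp hm1
  generalize hAdef : (Finset.univ.filter fun i => x i ≡ m + 2 [ZMOD 4]) = A at hA hb
  choose b hb using hb
  have hS1 : ∑ i, x i = 24 * m + 2 * (A.card : ℤ) + 4 * ∑ i, b i := by
    rw [Finset.sum_congr rfl (fun i _ => hb i), Finset.sum_add_distrib, Finset.sum_add_distrib,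
      ← Finset.mul_sum, ← Finset.mul_sum, Finset.sum_boole, Finset.sum_const, Finset.card_univ,
      gc_card_pt]
    simp
  have hpt : ∀ i, x i ^ 2 = m ^ 2 + 4 * (1 + m) * (if i ∈ A then 1 else 0) + 8 * m * b i +
      16 * (b i ^ 2 + (if i ∈ A then 1 else 0) * b i) := by
    intro i
    rw [hb i]
    by_cases hiA : i ∈ A
    · simp only [if_pos hiA]; ring
    · simp only [if_neg hiA]; ring
  have hS2 : ∑ i, x i ^ 2 = 24 * m ^ 2 + 4 * (1 + m) * (A.card : ℤ) + 8 * m * ∑ i, b i +
      16 * ∑ i, (b i ^ 2 + (if i ∈ A then 1 else 0) * b i) := by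
    rw [Finset.sum_congr rfl (fun i _ => hpt i), Finset.sum_add_distrib, Finset.sum_add_distrib,
      Finset.sum_add_distrib, ← Finset.mul_sum, ← Finset.mul_sum, ← Finset.mul_sum,
      Finset.sum_boole, Finset.sum_const, Finset.card_univ, gc_card_pt]
    simp
  unfold Cfsg.sqNorm
  obtain ⟨u, hu⟩ : ∃ u : ℤ, (A.card : ℤ) = 4 * u := by
    have h4 : 4 ∣ A.card := by omega
    obtain ⟨u, hu⟩ := h4
    exact ⟨u, by rw [hu]; push_cast; ring⟩
  obtain ⟨t, ht⟩ : ∃ t : ℤ, ∑ i, x i = 4 * m + 8 * t := by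
    unfold Int.ModEq at hm2
    exact ⟨(∑ i, x i - 4 * m) / 8, by omega⟩
  rw [hS2]
  refine ⟨-m ^ 2 + u + m * t + ∑ i, (b i ^ 2 + (if i ∈ A then 1 else 0) * b i), ?_⟩
  have hSb : ∑ i, b i = 2 * t - 5 * m - 2 * u := by linarith
  rw [hSb, hu]
  ring

theorem ls_sq_sub (x y : Cfsg.GolayPt → ℤ) :
    Cfsg.sqNorm (x - y) = Cfsg.sqNorm x - 2 * Cfsg.dotInt x y + Cfsg.sqNorm y := by
  unfold Cfsg.sqNorm Cfsg.dotInt
  have h : ∀ i, (x - y) i ^ 2 = x i ^ 2 - 2 * (x i * y i) + y i ^ 2 := fun i => by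
    simp only [Pi.sub_apply]; ring
  simp only [h, Finset.sum_add_distrib, Finset.sum_sub_distrib, Finset.mul_sum]

theorem ls_sq_add (x y : Cfsg.GolayPt → ℤ) :
    Cfsg.sqNorm (x + y) = Cfsg.sqNorm x + 2 * Cfsg.dotInt x y + Cfsg.sqNorm y := by
  unfold Cfsg.sqNorm Cfsg.dotInt
  have h : ∀ i, (x + y) i ^ 2 = x i ^ 2 + 2 * (x i * y i) + y i ^ 2 := fun i => by
    simp only [Pi.add_apply]; ring
  simp only [h, Finset.sum_add_distrib, Finset.mul_sum]

theorem ls_sq_two (z : Cfsg.GolayPt → ℤ) : Cfsg.sqNorm (2 • z) = 4 * Cfsg.sqNorm z := by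
  unfold Cfsg.sqNorm
  have h : ∀ i, (2 • z) i ^ 2 = 4 * z i ^ 2 := fun i => by
    simp only [Pi.smul_apply, smul_eq_mul]; ring
  simp only [h, Finset.mul_sum]

theorem ls_sq_neg (z : Cfsg.GolayPt → ℤ) : Cfsg.sqNorm (-z) = Cfsg.sqNorm z := by
  unfold Cfsg.sqNorm
  simp only [Pi.neg_apply, neg_sq]

theorem ls_congr {x y : Cfsg.GolayPt → ℤ} (hx : x ∈ Cfsg.leechLattice)
    (hy : y ∈ Cfsg.leechLattice) (hxy : x ≠ y) (hxn : Cfsg.sqNorm x ≤ 64)
    (hyn : Cfsg.sqNorm y ≤ 64) (hc : ∃ z ∈ Cfsg.leechLattice, x - y = 2 • z) :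
    x = -y ∨ (Cfsg.sqNorm x = 64 ∧ Cfsg.sqNorm y = 64 ∧ Cfsg.dotInt x y = 0) := by
  obtain ⟨z, hz, hxyz⟩ := hc
  have hz0 : z ≠ 0 := by
    rintro rfl
    rw [smul_zero] at hxyz
    exact hxy (sub_eq_zero.mp hxyz)
  have h1 := ls_min ((ls_lattice z).mp hz) hz0
  have h2 : Cfsg.sqNorm (x - y) = 4 * Cfsg.sqNorm z := by rw [hxyz, ls_sq_two]
  by_cases hneg : x = -y
  · left; exact hneg
  · right
    have hw : x + y = 2 • (z + y) := by
      rw [smul_add, ← hxyz, two_smul]
      abel
    have hzy : z + y ∈ Cfsg.leechLattice := add_mem hz hy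
    have hzy0 : z + y ≠ 0 := by
      intro h
      rw [h, smul_zero] at hw
      exact hneg (eq_neg_of_add_eq_zero_left hw)
    have h3 := ls_min ((ls_lattice _).mp hzy) hzy0
    have h4 : Cfsg.sqNorm (x + y) = 4 * Cfsg.sqNorm (z + y) := by rw [hw, ls_sq_two]
    have h5 := ls_sq_sub x y
    have h6 := ls_sq_add x y
    refine ⟨by linarith, by linarith, by linarith⟩

theorem ls_perm {σ : Equiv.Perm Cfsg.GolayPt} (hσ : σ ∈ Cfsg.M24) {x : Cfsg.GolayPt → ℤ}
    (hx : x ∈ Cfsg.leechSet) : (fun i => x (σ i)) ∈ Cfsg.leechSet := by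
  rw [ls_mem_iff] at hx ⊢
  obtain ⟨m, hm1, hm2, hm3⟩ := hx
  refine ⟨m, fun i => hm1 (σ i), ?_, fun k => ?_⟩
  · rw [Equiv.sum_comp σ x]; exact hm2
  · have hs := ((gc_stab_iff _ σ).mp hσ).2
    have e : (Finset.univ.filter fun i => x (σ i) ≡ k [ZMOD 4]) =
        σ⁻¹ • (Finset.univ.filter fun i => x i ≡ k [ZMOD 4]) := by
      ext i
      rw [Finset.mem_inv_smul_finset_iff]
      simp only [Finset.mem_filter, Finset.mem_univ, true_and, Equiv.Perm.smul_def]
    rw [e, ← gc_supp_iff]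
    exact hs _ ((gc_supp_iff _).mpr (hm3 k))

theorem ls_sign {c : Finset Cfsg.GolayPt}
    (hc : c ∈ Cfsg.supports (Cfsg.golayCode : Set (Cfsg.GolayPt → ZMod 2)))
    {x : Cfsg.GolayPt → ℤ} (hx : x ∈ Cfsg.leechSet) :
    (fun i => if i ∈ c then -x i else x i) ∈ Cfsg.leechSet := by
  rw [gc_supp_iff] at hc
  rw [ls_mem_iff] at hx ⊢
  obtain ⟨m, hm1, hm2, hm3⟩ := hx
  have hc4 : 4 ∣ c.card := by
    have := gc_card_mem hc
    omega
  have hcA : 2 ∣ (c ∩ (Finset.univ.filter fun i => x i ≡ m + 2 [ZMOD 4])).card :=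
    gc_ind_inter_even hc (hm3 (m + 2))
  have hb := ls_decomp hm1
  generalize hAdef : (Finset.univ.filter fun i => x i ≡ m + 2 [ZMOD 4]) = A at hcA hb
  choose b hb using hb
  have hsumc : ∑ i ∈ c, x i = (c.card : ℤ) * m + 2 * ((c ∩ A).card : ℤ) + 4 * ∑ i ∈ c, b i := by
    rw [Finset.sum_congr rfl (fun i _ => hb i), Finset.sum_add_distrib, Finset.sum_add_distrib,
      ← Finset.mul_sum, ← Finset.mul_sum, Finset.sum_boole, Finset.sum_const,
      Finset.filter_mem_eq_inter]
    simp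
  have hsum : ∑ i, (if i ∈ c then -x i else x i) = ∑ i, x i - 2 * ∑ i ∈ c, x i := by
    have h : ∀ i, (if i ∈ c then -x i else x i) = x i - 2 * (if i ∈ c then x i else 0) := by
      intro i
      split_ifs <;> ring
    rw [Finset.sum_congr rfl (fun i _ => h i), Finset.sum_sub_distrib, ← Finset.mul_sum,
      Finset.sum_ite_mem, Finset.univ_inter]
  refine ⟨m, fun i => ?_, ?_, fun k => ?_⟩
  · have h := hm1 i
    show (if i ∈ c then -x i else x i) ≡ m [ZMOD 2]
    split_ifs
    · unfold Int.ModEq at *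
      omega
    · exact h
  · rw [hsum, hsumc]
    obtain ⟨u, hu⟩ := hc4
    obtain ⟨v, hv⟩ := hcA
    rw [hu, hv]
    push_cast
    have e : ∑ i, x i - 2 * ((4 * (u : ℤ)) * m + 2 * (2 * (v : ℤ)) + 4 * ∑ i ∈ c, b i) =
        ∑ i, x i - 8 * ((u : ℤ) * m + v + ∑ i ∈ c, b i) := by ring
    rw [e]
    unfold Int.ModEq at hm2 ⊢
    rw [Int.sub_mul_emod_self_left]
    exact hm2
  · by_cases hmk : m % 2 = 0 ∨ k % 2 = 0
    · have e : (Finset.univ.filter fun i => (if i ∈ c then -x i else x i) ≡ k [ZMOD 4]) =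
          Finset.univ.filter fun i => x i ≡ k [ZMOD 4] := by
        ext i
        simp only [Finset.mem_filter, Finset.mem_univ, true_and]
        have h := hm1 i
        split_ifs
        · unfold Int.ModEq at *
          omega
        · rfl
      rw [e]
      exact hm3 k
    · have e : (Finset.univ.filter fun i => (if i ∈ c then -x i else x i) ≡ k [ZMOD 4]) =
          ((Finset.univ.filter fun i => x i ≡ k [ZMOD 4]) \ c) ∪
            (c \ (Finset.univ.filter fun i => x i ≡ k [ZMOD 4])) := by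
        ext i
        simp only [Finset.mem_filter, Finset.mem_univ, true_and, Finset.mem_union,
          Finset.mem_sdiff]
        have h := hm1 i
        by_cases hic : i ∈ c
        · simp only [hic, if_true, not_true_eq_false, and_false, false_or, true_and]
          unfold Int.ModEq at *
          omega
        · simp [hic]
      rw [e]
      exact gc_symm_mem (hm3 k) hc

end Cfsg.Agent.Lib.Helper7
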