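import Mathlib
import Cfsg.Prelude
import Cfsg.Agent.Lib.Helper7.Leech2

set_option autoImplicit false

namespace Cfsg.Agent.Lib.Helper7

open scoped Pointwise

/-- the subgroup generated by the minimal vectors -/
def lsM : AddSubgroup (Cfsg.GolayPt → ℤ) :=
  AddSubgroup.closure {x : Cfsg.GolayPt → ℤ | x ∈ Cfsg.leechLattice ∧ Cfsg.sqNorm x = 32}

theorem ls_M_le : lsM ≤ Cfsg.leechLattice :=
  (AddSubgroup.closure_le _).mpr (fun _ hx => hx.1)

theorem ls_M_of {x : Cfsg.GolayPt → ℤ} (hx : x ∈ Cfsg.leechSet) (h32 : Cfsg.sqNorm x = 32) :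
    x ∈ lsM :=
  AddSubgroup.subset_closure ⟨(ls_lattice x).mpr hx, h32⟩

/-- the vector `4 e_i - 4 e_∞` -/
def lsD (i : Cfsg.GolayPt) : Cfsg.GolayPt → ℤ :=
  fun j => (if j = i then 4 else 0) - (if j = none then 4 else 0)

/-- the vector `(-3, 1, ..., 1)` -/
def lsV : Cfsg.GolayPt → ℤ := fun p => if p = none then -3 else 1

/-- the vector `8 e_∞` -/
def lsB : Cfsg.GolayPt → ℤ := fun j => if j = none then 8 else 0

/-- twice the indicator of a set -/
def lsO (o : Finset Cfsg.GolayPt) : Cfsg.GolayPt → ℤ := fun i => if i ∈ o then 2 else 0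

theorem ls_D_tab : ∀ i : Cfsg.GolayPt, i ≠ none → Cfsg.sqNorm (lsD i) = 32 ∧
    (∀ j, lsD i j ≡ 0 [ZMOD 4]) ∧ ∑ j, lsD i j ≡ 4 * 0 [ZMOD 8] := by
  decide +kernel

theorem ls_D_mem (i : Cfsg.GolayPt) : lsD i ∈ lsM := by
  by_cases hi : i = none
  · have e : lsD i = 0 := by
      funext j
      rw [hi]
      show (if j = none then (4 : ℤ) else 0) - (if j = none then 4 else 0) = 0
      exact sub_self _
    rw [e]
    exact lsM.zero_mem
  · obtain ⟨h32, h4, hs⟩ := ls_D_tab i hi
    exact ls_M_of (Cfsg.Spor.mem_leechSet_of_const_mod_four (lsD i) 0 0 (by rfl) h4 hs) h32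

theorem ls_V_mem_set : lsV ∈ Cfsg.leechSet :=
  Cfsg.Spor.mem_leechSet_of_const_mod_four lsV 1 1 (by decide) (by decide) (by decide)

theorem ls_V_mem : lsV ∈ lsM := ls_M_of ls_V_mem_set (by decide)

theorem ls_B_mem : lsB ∈ lsM := by
  have e : lsB = Cfsg.Spor.vecU + Cfsg.Spor.vecU' := by decide
  rw [e]
  exact lsM.add_mem (ls_M_of Cfsg.Spor.vecU_mem_leechSet (by decide))
    (ls_M_of Cfsg.Spor.vecU'_mem_leechSet (by decide))

theorem ls_O_mem_set {o : Finset Cfsg.GolayPt} (ho : o ∈ Cfsg.octads) :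
    lsO o ∈ Cfsg.leechSet := by
  classical
  have ho' := (gc_octad_iff o).mp ho
  rw [ls_mem_iff]
  refine ⟨0, ?_, ?_, ?_⟩
  · intro i
    unfold lsO
    split_ifs <;> decide
  · have hs : ∑ i, lsO o i = 16 := by
      unfold lsO
      rw [Finset.sum_ite_mem, Finset.univ_inter, Finset.sum_const, ho'.2]
      rfl
    rw [hs]
    decide
  · intro k
    by_cases hk2 : (2 : ℤ) ≡ k [ZMOD 4]
    · have e : (Finset.univ.filter fun i => lsO o i ≡ k [ZMOD 4]) = o := by
        ext i
        rw [Finset.mem_filter]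
        unfold lsO
        by_cases hi : i ∈ o
        · rw [if_pos hi]
          exact ⟨fun _ => hi, fun _ => ⟨Finset.mem_univ _, hk2⟩⟩
        · rw [if_neg hi]
          constructor
          · rintro ⟨_, h0⟩
            have h20 : (2 : ℤ) ≡ 0 [ZMOD 4] := hk2.trans h0.symm
            exact absurd h20 (by decide)
          · intro h
            exact absurd h hi
      rw [e]
      exact ho'.1
    · by_cases hk0 : (0 : ℤ) ≡ k [ZMOD 4]
      · have e : (Finset.univ.filter fun i => lsO o i ≡ k [ZMOD 4]) = oᶜ := by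
          ext i
          rw [Finset.mem_filter, Finset.mem_compl]
          unfold lsO
          by_cases hi : i ∈ o
          · rw [if_pos hi]
            exact ⟨fun h => absurd h.2 hk2, fun h => absurd hi h⟩
          · rw [if_neg hi]
            exact ⟨fun _ => hi, fun _ => ⟨Finset.mem_univ _, hk0⟩⟩
        rw [e]
        exact gc_compl_ind_mem ho'.1
      · have e : (Finset.univ.filter fun i => lsO o i ≡ k [ZMOD 4]) = ∅ := by
          apply Finset.filter_false_of_mem
          intro i _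
          unfold lsO
          split_ifs
          · exact hk2
          · exact hk0
        rw [e]
        exact gc_ind_empty_mem

theorem ls_O_norm {o : Finset Cfsg.GolayPt} (ho : o ∈ Cfsg.octads) :
    Cfsg.sqNorm (lsO o) = 32 := by
  classical
  have ho' := (gc_octad_iff o).mp ho
  unfold Cfsg.sqNorm lsO
  have e : ∀ i : Cfsg.GolayPt, (if i ∈ o then (2 : ℤ) else 0) ^ 2 = if i ∈ o then 4 else 0 := by
    intro i
    split_ifs <;> norm_num
  rw [Finset.sum_congr rfl (fun i _ => e i), Finset.sum_ite_mem, Finset.univ_inter,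
    Finset.sum_const, ho'.2]
  rfl

theorem ls_span_lift (w : Cfsg.GolayPt → ZMod 2) (hw : w ∈ Cfsg.golayCode) :
    ∃ z ∈ lsM, ∀ i, z i ≡ 2 * (if w i = 0 then 0 else 1) [ZMOD 4] := by
  rw [← gc_span8] at hw
  induction hw using Submodule.span_induction with
  | mem w hw =>
    have ho : Cfsg.support₂ w ∈ Cfsg.octads := by
      rw [gc_octad_iff, g24_ind_supp]
      exact ⟨hw.1, by rw [← g24_norm_eq]; exact hw.2⟩
    refine ⟨lsO (Cfsg.support₂ w), ls_M_of (ls_O_mem_set ho) (ls_O_norm ho), ?_⟩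
    intro i
    unfold lsO
    by_cases hi : w i = 0
    · have hn : i ∉ Cfsg.support₂ w := by
        rw [g24_mem_supp]
        exact fun h => h hi
      rw [if_neg hn, if_pos hi]
      decide
    · have hn : i ∈ Cfsg.support₂ w := by
        rw [g24_mem_supp]
        exact hi
      rw [if_pos hn, if_neg hi]
      decide
  | zero =>
    exact ⟨0, lsM.zero_mem, fun i => by
      show (0 : ℤ) ≡ 2 * (if (0 : ZMod 2) = 0 then 0 else 1) [ZMOD 4]
      decide⟩
  | add w1 w2 _ _ h1 h2 =>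
    obtain ⟨z1, hz1, e1⟩ := h1
    obtain ⟨z2, hz2, e2⟩ := h2
    refine ⟨z1 + z2, lsM.add_mem hz1 hz2, ?_⟩
    intro i
    have key : ∀ a b : ZMod 2, (2 * (if a = 0 then 0 else 1) + 2 * (if b = 0 then 0 else 1) : ℤ) ≡
        2 * (if a + b = 0 then 0 else 1) [ZMOD 4] := by decide
    exact ((e1 i).add (e2 i)).trans (key (w1 i) (w2 i))
  | smul c w _ h =>
    obtain ⟨z, hz, e⟩ := h
    have hc : c = 0 ∨ c = 1 := by
      revert c
      decide
    rcases hc with rfl | rfl
    · exact ⟨0, lsM.zero_mem, fun i => by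
        show (0 : ℤ) ≡ 2 * (if (0 : ZMod 2) * w i = 0 then 0 else 1) [ZMOD 4]
        rw [zero_mul]
        decide⟩
    · refine ⟨z, hz, ?_⟩
      intro i
      rw [one_smul]
      exact e i

theorem ls_four {y : Cfsg.GolayPt → ℤ} (hy : y ∈ Cfsg.leechSet)
    (h4 : ∀ i, y i ≡ 0 [ZMOD 4]) : y ∈ lsM := by
  classical
  obtain ⟨m, hm1, hm2, _⟩ := (ls_mem_iff y).mp hy
  have hmeven : m ≡ 0 [ZMOD 2] := by
    have h1 := hm1 none
    have h2 := h4 none
    unfold Int.ModEq at h1 h2 ⊢
    omega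
  have hsum8 : ∑ i, y i ≡ 0 [ZMOD 8] := by
    unfold Int.ModEq at hm2 hmeven ⊢
    omega
  obtain ⟨c, hc⟩ : ∃ c : Cfsg.GolayPt → ℤ, ∀ i, y i = 4 * c i :=
    ⟨fun i => y i / 4, fun i => by
      have h := h4 i
      unfold Int.ModEq at h
      show y i = 4 * (y i / 4)
      omega⟩
  have hsum : ∑ i, y i = 4 * ∑ i, c i := by
    rw [Finset.mul_sum]
    exact Finset.sum_congr rfl (fun i _ => hc i)
  obtain ⟨t, ht⟩ : ∃ t : ℤ, ∑ i, c i = 2 * t := by
    refine ⟨(∑ i, c i) / 2, ?_⟩
    unfold Int.ModEq at hsum8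
    omega
  have hy_eq : y = ∑ i, c i • lsD i + t • lsB := by
    funext j
    rw [Pi.add_apply, Finset.sum_apply, Pi.smul_apply, smul_eq_mul]
    have h1 : ∀ i, (c i • lsD i) j =
        c i * (if j = i then 4 else 0) - c i * (if j = none then 4 else 0) := by
      intro i
      rw [Pi.smul_apply, smul_eq_mul]
      unfold lsD
      ring
    rw [Finset.sum_congr rfl (fun i _ => h1 i), Finset.sum_sub_distrib, ← Finset.sum_mul]
    have h2 : ∑ i, c i * (if j = i then (4 : ℤ) else 0) = c j * 4 := by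
      rw [Finset.sum_eq_single j]
      · rw [if_pos rfl]
      · intro b _ hb
        rw [if_neg (fun h => hb h.symm), mul_zero]
      · intro h
        exact absurd (Finset.mem_univ j) h
    rw [h2, ht]
    have h3 := hc j
    unfold lsB
    by_cases hj : j = none
    · rw [if_pos hj, if_pos hj]
      linarith
    · rw [if_neg hj, if_neg hj]
      linarith
  rw [hy_eq]
  exact lsM.add_mem (sum_mem (fun i _ => lsM.zsmul_mem (ls_D_mem i) (c i)))
    (lsM.zsmul_mem ls_B_mem t)

theorem ls_even {x : Cfsg.GolayPt → ℤ} (hx : x ∈ Cfsg.leechSet)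
    (h2 : ∀ i, x i ≡ 0 [ZMOD 2]) : x ∈ lsM := by
  classical
  obtain ⟨m, hm1, hm2, hm3⟩ := (ls_mem_iff x).mp hx
  obtain ⟨z, hz, hzi⟩ := ls_span_lift _ (hm3 2)
  have hzs : z ∈ Cfsg.leechSet := (ls_lattice z).mp (ls_M_le hz)
  have hsub : x - z ∈ Cfsg.leechSet := by
    rw [sub_eq_add_neg]
    exact ls_add hx (ls_neg hzs)
  have k1 : (2 * (if (1 : ZMod 2) = 0 then 0 else 1) : ℤ) = 2 := by decide
  have k0 : (2 * (if (0 : ZMod 2) = 0 then 0 else 1) : ℤ) = 0 := by decide
  have h4 : ∀ i, (x - z) i ≡ 0 [ZMOD 4] := by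
    intro i
    have h := hzi i
    have hx2 := h2 i
    rw [Pi.sub_apply]
    unfold g24Ind at h
    by_cases hi : i ∈ (Finset.univ.filter fun i => x i ≡ 2 [ZMOD 4])
    · rw [if_pos hi, k1] at h
      have hi' := (Finset.mem_filter.mp hi).2
      unfold Int.ModEq at h hi' ⊢
      omega
    · rw [if_neg hi, k0] at h
      have hi' : ¬ (x i ≡ 2 [ZMOD 4]) := fun h =>
        hi (Finset.mem_filter.mpr ⟨Finset.mem_univ _, h⟩)
      unfold Int.ModEq at h hi' hx2 ⊢
      omega
  have h5 := ls_four hsub h4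
  have e : x = (x - z) + z := by abel
  rw [e]
  exact lsM.add_mem h5 hz

theorem ls_gen {x : Cfsg.GolayPt → ℤ} (hx : x ∈ Cfsg.leechSet) : x ∈ lsM := by
  obtain ⟨m, hm1, hm2, hm3⟩ := (ls_mem_iff x).mp hx
  rcases Int.emod_two_eq_zero_or_one m with hm | hm
  · apply ls_even hx
    intro i
    have h := hm1 i
    unfold Int.ModEq at h ⊢
    omega
  · have hsub : x - lsV ∈ Cfsg.leechSet := by
      rw [sub_eq_add_neg]
      exact ls_add hx (ls_neg ls_V_mem_set)
    have h2 : ∀ i, (x - lsV) i ≡ 0 [ZMOD 2] := by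
      intro i
      have h := hm1 i
      rw [Pi.sub_apply]
      unfold lsV
      unfold Int.ModEq at h ⊢
      split_ifs <;> omega
    have h5 := ls_even hsub h2
    have e : x = (x - lsV) + lsV := by abel
    rw [e]
    exact lsM.add_mem h5 ls_V_mem

theorem ls_s1567 : AddSubgroup.closure {x : Cfsg.GolayPt → ℤ | x ∈ Cfsg.leechLattice ∧ Cfsg.sqNorm x = 32} = Cfsg.leechLattice := by
  apply le_antisymm ls_M_le
  show Cfsg.leechLattice ≤ lsM
  unfold Cfsg.leechLattice
  rw [AddSubgroup.closure_le]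
  intro x hx
  exact ls_gen hx

end Cfsg.Agent.Lib.Helper7
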