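import Mathlib
import Cfsg.Prelude
import Cfsg.Agent.Lib.Helper7.Steiner

set_option autoImplicit false

namespace Cfsg.Agent.Lib.Helper7

section
variable {α : Type*} [Fintype α] [DecidableEq α]

/-- Two lines of a `S(2,5,v)` sharing two distinct points coincide. -/
theorem p4_line_unique {B : Set (Finset α)} (hB : Cfsg.IsSteinerSystem 2 5 B) {l l' : Finset α}
    (hl : l ∈ B) (hl' : l' ∈ B) {p q : α} (hpq : p ≠ q) (hp : p ∈ l) (hq : q ∈ l)
    (hp' : p ∈ l') (hq' : q ∈ l') : l = l' := by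
  by_contra hne
  have h := st_inter_lt hB hl' hl hne
  have h2 : ({p, q} : Finset α) ⊆ l ∩ l' := by
    intro x hx
    simp only [Finset.mem_insert, Finset.mem_singleton] at hx
    rcases hx with rfl | rfl <;> simp [*]
  have := Finset.card_le_card h2
  rw [Finset.card_pair hpq] at this
  omega

theorem p4_exists_line {B : Set (Finset α)} (hB : Cfsg.IsSteinerSystem 2 5 B) {p q : α}
    (hpq : p ≠ q) : ∃ l ∈ B, p ∈ l ∧ q ∈ l := by
  obtain ⟨l, ⟨hl, hsub⟩, _⟩ := hB.2 {p, q} (Finset.card_pair hpq)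
  exact ⟨l, hl, hsub (by simp), hsub (by simp)⟩

theorem p4_meet (hα : Fintype.card α = 21) {B : Set (Finset α)}
    (hB : Cfsg.IsSteinerSystem 2 5 B) {l l' : Finset α} (hl : l ∈ B) (hl' : l' ∈ B) :
    ∃ p, p ∈ l ∧ p ∈ l' := by
  classical
  by_cases hne : l' = l
  · subst hne
    have h5 : l'.card = 5 := hB.1 _ hl
    obtain ⟨p, hp⟩ := Finset.card_pos.mp (by omega : 0 < l'.card)
    exact ⟨p, hp, hp⟩
  · have hfin : B.Finite := Set.toFinite B
    obtain ⟨Bf, hBf⟩ : ∃ Bf : Finset (Finset α), ∀ b, b ∈ Bf ↔ b ∈ B :=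
      ⟨hfin.toFinset, fun b => hfin.mem_toFinset⟩
    have h0 := st_block_moment hB Bf hBf l hl 0 (by norm_num)
    have h1 := st_block_moment hB Bf hBf l hl 1 (by norm_num)
    rw [hα] at h0 h1
    simp only [Finset.sum_range_succ, Finset.sum_range_zero] at h0 h1
    norm_num [Nat.choose, -Finset.card_eq_zero] at h0 h1
    have hz : ((Bf.erase l).filter (fun c => (c ∩ l).card = 0)).card = 0 := by omega
    by_contra hcon
    simp only [not_exists, not_and] at hcon
    have hmem : l' ∈ (Bf.erase l).filter (fun c => (c ∩ l).card = 0) := by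
      rw [Finset.mem_filter, Finset.mem_erase]
      refine ⟨⟨hne, (hBf l').mpr hl'⟩, ?_⟩
      rw [Finset.card_eq_zero, Finset.eq_empty_iff_forall_notMem]
      intro x hx
      rw [Finset.mem_inter] at hx
      exact hcon x hx.2 hx.1
    rw [Finset.card_eq_zero] at hz
    rw [hz] at hmem
    simp at hmem

theorem p4_card (hα : Fintype.card α = 21) {B : Set (Finset α)}
    (hB : Cfsg.IsSteinerSystem 2 5 B) (Bf : Finset (Finset α)) (hBf : ∀ b, b ∈ Bf ↔ b ∈ B) :
    Bf.card = 21 := by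
  have h := st_lambda hB Bf hBf ∅ (by simp)
  rw [hα] at h
  have e : Bf.filter (fun c => (∅ : Finset α) ⊆ c) = Bf :=
    Finset.filter_true_of_mem (fun c _ => Finset.empty_subset c)
  rw [e] at h
  norm_num [Nat.choose] at h
  omega

/-- Number of `m`-subsets meeting a fixed set `l` in exactly `j` points. -/
theorem p4_count_inter (l : Finset α) (m j : ℕ) (hj : j ≤ m) :
    ((Finset.powersetCard m (Finset.univ : Finset α)).filter (fun Y => (l ∩ Y).card = j)).card =
      Nat.choose l.card j * Nat.choose (Fintype.card α - l.card) (m - j) := by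
  rw [← Finset.card_powersetCard, ← Finset.card_compl, ← Finset.card_powersetCard (s := lᶜ),
    ← Finset.card_product]
  apply Finset.card_nbij' (fun Y => (l ∩ Y, Y \ l)) (fun TV => TV.1 ∪ TV.2)
  · intro Y hY
    simp only [Finset.coe_filter, Set.mem_setOf_eq, Finset.mem_powersetCard] at hY
    simp only [Finset.coe_product, Set.mem_prod, Finset.mem_coe, Finset.mem_powersetCard]
    refine ⟨⟨Finset.inter_subset_left, hY.2⟩, ⟨?_, ?_⟩⟩
    · intro x hx
      simp only [Finset.mem_sdiff] at hx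
      simp only [Finset.mem_compl]
      exact hx.2
    · have := Finset.card_sdiff_add_card_inter Y l
      rw [Finset.inter_comm] at this
      omega
  · rintro ⟨T, V⟩ hTV
    simp only [Finset.coe_product, Set.mem_prod, Finset.mem_coe, Finset.mem_powersetCard] at hTV
    obtain ⟨⟨hT, hTc⟩, hV, hVc⟩ := hTV
    have hVl : ∀ x ∈ V, x ∉ l := fun x hx => Finset.mem_compl.mp (hV hx)
    have hdisj : Disjoint T V := Finset.disjoint_left.mpr (fun x hxT hxV => hVl x hxV (hT hxT))
    simp only [Finset.coe_filter, Set.mem_setOf_eq, Finset.mem_powersetCard]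
    refine ⟨⟨Finset.subset_univ _, ?_⟩, ?_⟩
    · rw [Finset.card_union_of_disjoint hdisj, hTc, hVc]; omega
    · have : l ∩ (T ∪ V) = T := by
        ext x
        simp only [Finset.mem_inter, Finset.mem_union]
        constructor
        · rintro ⟨hx, hxT | hxV⟩
          · exact hxT
          · exact absurd hx (hVl x hxV)
        · intro hxT; exact ⟨hT hxT, Or.inl hxT⟩
      rw [this, hTc]
  · intro Y hY
    ext x
    simp only [Finset.mem_union, Finset.mem_inter, Finset.mem_sdiff]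
    tauto
  · rintro ⟨T, V⟩ hTV
    simp only [Finset.coe_product, Set.mem_prod, Finset.mem_coe, Finset.mem_powersetCard] at hTV
    obtain ⟨⟨hT, hTc⟩, hV, hVc⟩ := hTV
    have hVl : ∀ x ∈ V, x ∉ l := fun x hx => Finset.mem_compl.mp (hV hx)
    apply Prod.ext
    · ext x
      simp only [Finset.mem_inter, Finset.mem_union]
      constructor
      · rintro ⟨hx, hxT | hxV⟩
        · exact hxT
        · exact absurd hx (hVl x hxV)
      · intro hxT; exact ⟨hT hxT, Or.inl hxT⟩
    · ext x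
      simp only [Finset.mem_sdiff, Finset.mem_union]
      constructor
      · rintro ⟨hxT | hxV, hx⟩
        · exact absurd (hT hxT) hx
        · exact hxV
      · intro hxV; exact ⟨Or.inr hxV, hVl x hxV⟩

theorem p4_inter_card (hα : Fintype.card α = 21) {B : Set (Finset α)}
    (hB : Cfsg.IsSteinerSystem 2 5 B) {l l' : Finset α} (hl : l ∈ B) (hl' : l' ∈ B)
    (hne : l ≠ l') : (l ∩ l').card = 1 := by
  have h := st_inter_lt hB hl' hl hne
  obtain ⟨p, hp, hp'⟩ := p4_meet hα hB hl hl'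
  have : 0 < (l ∩ l').card := Finset.card_pos.mpr ⟨p, Finset.mem_inter.mpr ⟨hp, hp'⟩⟩
  omega

theorem p4_two_le {S l : Finset α} {p q : α} (hp : p ∈ S) (hq : q ∈ S) (hpq : p ≠ q)
    (hpl : p ∈ l) (hql : q ∈ l) : 2 ≤ (l ∩ S).card := by
  have h2 : ({p, q} : Finset α) ⊆ l ∩ S := by
    intro z hz
    simp only [Finset.mem_insert, Finset.mem_singleton] at hz
    rcases hz with rfl | rfl <;> simp [*]
  have := Finset.card_le_card h2
  rwa [Finset.card_pair hpq] at this

theorem p4_arc_three {B : Set (Finset α)} {S : Finset α}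
    (hS : ∀ l ∈ B, (l ∩ S).card ≤ 2) {l : Finset α} (hl : l ∈ B) {p q r : α}
    (hp : p ∈ S) (hq : q ∈ S) (hr : r ∈ S) (hpq : p ≠ q) (hpr : p ≠ r) (hqr : q ≠ r)
    (hpl : p ∈ l) (hql : q ∈ l) (hrl : r ∈ l) : False := by
  have h := hS l hl
  have h3 : ({p, q, r} : Finset α) ⊆ l ∩ S := by
    intro x hx
    simp only [Finset.mem_insert, Finset.mem_singleton] at hx
    rcases hx with rfl | rfl | rfl <;> simp [*]
  have := Finset.card_le_card h3
  rw [Finset.card_eq_three.mpr ⟨p, q, r, hpq, hpr, hqr, rfl⟩] at this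
  omega

/-- Two secants through a common point `p` of the arc meet only in `p`. -/
theorem p4_sec_meet {B : Set (Finset α)} (hB : Cfsg.IsSteinerSystem 2 5 B) {S : Finset α}
    (hS : ∀ l ∈ B, (l ∩ S).card ≤ 2) {l l' : Finset α} (hl : l ∈ B) (hl' : l' ∈ B) {p q r : α}
    (hp : p ∈ S) (hq : q ∈ S) (hr : r ∈ S) (hpq : p ≠ q) (hpr : p ≠ r) (hqr : q ≠ r)
    (hpl : p ∈ l) (hql : q ∈ l) (hpl' : p ∈ l') (hrl' : r ∈ l') {x : α} (hx : x ∈ l)
    (hx' : x ∈ l') : x = p := by
  by_contra hne
  have h := p4_line_unique hB hl hl' hne hx hpl hx' hpl'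
  subst h
  exact p4_arc_three hS hl hp hq hr hpq hpr hqr hpl hql hrl'

/-- The number of 4-arcs is 2520. -/
theorem p4_arc4_count (hα : Fintype.card α = 21) {B : Set (Finset α)}
    (hB : Cfsg.IsSteinerSystem 2 5 B)
    [DecidablePred (fun Y : Finset α => ∀ l ∈ B, (l ∩ Y).card ≤ 2)] :
    ((Finset.powersetCard 4 (Finset.univ : Finset α)).filter
      (fun Y => ∀ l ∈ B, (l ∩ Y).card ≤ 2)).card = 2520 := by
  classical
  have hfin : B.Finite := Set.toFinite B
  obtain ⟨Bf, hBf⟩ : ∃ Bf : Finset (Finset α), ∀ b, b ∈ Bf ↔ b ∈ B :=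
    ⟨hfin.toFinset, fun b => hfin.mem_toFinset⟩
  have hcard := p4_card hα hB Bf hBf
  have hPc : (Finset.powersetCard 4 (Finset.univ : Finset α)).card = 5985 := by
    rw [Finset.card_powersetCard, Finset.card_univ, hα]; rfl
  generalize hP : Finset.powersetCard 4 (Finset.univ : Finset α) = P at hPc ⊢
  have hdep : P.filter (fun Y => ¬ ∀ l ∈ B, (l ∩ Y).card ≤ 2) =
      Bf.biUnion (fun l => P.filter (fun Y => 3 ≤ (l ∩ Y).card)) := by
    ext Y
    simp only [Finset.mem_filter, Finset.mem_biUnion, not_forall, not_le]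
    constructor
    · rintro ⟨hY, l, hl, h3⟩; exact ⟨l, (hBf l).mpr hl, hY, h3⟩
    · rintro ⟨l, hl, hY, h3⟩; exact ⟨hY, l, (hBf l).mp hl, h3⟩
  have hcount : ∀ l ∈ Bf, (P.filter (fun Y => 3 ≤ (l ∩ Y).card)).card = 165 := by
    intro l hl
    have hl5 : l.card = 5 := hB.1 l ((hBf l).mp hl)
    have e : P.filter (fun Y => 3 ≤ (l ∩ Y).card) =
        P.filter (fun Y => (l ∩ Y).card = 3) ∪ P.filter (fun Y => (l ∩ Y).card = 4) := by
      ext Y
      simp only [Finset.mem_filter, Finset.mem_union, ← hP, Finset.mem_powersetCard]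
      constructor
      · rintro ⟨hY, h3⟩
        have h4 : (l ∩ Y).card ≤ 4 := (Finset.card_le_card Finset.inter_subset_right).trans hY.2.le
        rcases (by omega : (l ∩ Y).card = 3 ∨ (l ∩ Y).card = 4) with h | h
        · exact Or.inl ⟨hY, h⟩
        · exact Or.inr ⟨hY, h⟩
      · rintro (⟨hY, h⟩ | ⟨hY, h⟩) <;> exact ⟨hY, by omega⟩
    rw [e, Finset.card_union_of_disjoint, ← hP, p4_count_inter l 4 3 (by norm_num),
      p4_count_inter l 4 4 (by norm_num), hl5, hα]
    · rfl
    · rw [Finset.disjoint_filter]; intro Y _ h3 h4; omega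
  have hdepc : (P.filter (fun Y => ¬ ∀ l ∈ B, (l ∩ Y).card ≤ 2)).card = 21 * 165 := by
    rw [hdep, Finset.card_biUnion, Finset.sum_congr rfl hcount, Finset.sum_const, hcard,
      smul_eq_mul]
    intro l hl l' hl' hne
    have hl := Finset.mem_coe.mp hl
    have hl' := Finset.mem_coe.mp hl'
    show Disjoint (P.filter (fun Y => 3 ≤ (l ∩ Y).card)) (P.filter (fun Y => 3 ≤ (l' ∩ Y).card))
    rw [Finset.disjoint_left]
    intro Y hY hY'
    rw [Finset.mem_filter, ← hP, Finset.mem_powersetCard] at hY hY'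
    have hlt := st_inter_lt hB ((hBf l').mp hl') ((hBf l).mp hl) hne
    have h1 := Finset.card_union_add_card_inter (l ∩ Y) (l' ∩ Y)
    have h2 : ((l ∩ Y) ∪ (l' ∩ Y)).card ≤ 4 := by
      rw [← hY.1.2]
      exact Finset.card_le_card (Finset.union_subset Finset.inter_subset_right
        Finset.inter_subset_right)
    have h3 : ((l ∩ Y) ∩ (l' ∩ Y)).card ≤ (l ∩ l').card := by
      apply Finset.card_le_card
      intro z hz
      simp only [Finset.mem_inter] at hz ⊢
      exact ⟨hz.1.1, hz.2.1⟩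
    omega
  have := Finset.card_filter_add_card_filter_not (s := P)
    (fun Y => ∀ l ∈ B, (l ∩ Y).card ≤ 2)
  omega

/-- The points off all six secants of a 4-arc: exactly two. -/
theorem p4_off_secants_card (hα : Fintype.card α = 21) {B : Set (Finset α)}
    (hB : Cfsg.IsSteinerSystem 2 5 B) {a b c d : α} (hab : a ≠ b) (hac : a ≠ c) (had : a ≠ d)
    (hbc : b ≠ c) (hbd : b ≠ d) (hcd : c ≠ d) {S : Finset α}
    (hSdef : ({a, b, c, d} : Finset α) = S)
    (hS : ∀ l ∈ B, (l ∩ S).card ≤ 2)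
    [DecidablePred (fun x : α => x ∉ S ∧ ∀ l ∈ B, 2 ≤ (l ∩ S).card → x ∉ l)] :
    ((Finset.univ : Finset α).filter (fun x => x ∉ S ∧
      ∀ l ∈ B, 2 ≤ (l ∩ S).card → x ∉ l)).card = 2 := by
  classical
  have hS4 : S.card = 4 := by
    rw [← hSdef, Finset.card_insert_of_notMem (by simp [hab, hac, had]),
      Finset.card_insert_of_notMem (by simp [hbc, hbd]), Finset.card_pair hcd]
  have haS : a ∈ S := by rw [← hSdef]; simp
  have hbS : b ∈ S := by rw [← hSdef]; simp
  have hcS : c ∈ S := by rw [← hSdef]; simp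
  have hdS : d ∈ S := by rw [← hSdef]; simp
  obtain ⟨lab, hlab, haab, hbab⟩ := p4_exists_line hB hab
  obtain ⟨lcd, hlcd, hccd, hdcd⟩ := p4_exists_line hB hcd
  obtain ⟨lac, hlac, haac, hcac⟩ := p4_exists_line hB hac
  obtain ⟨lbd, hlbd, hbbd, hdbd⟩ := p4_exists_line hB hbd
  obtain ⟨lad, hlad, haad, hdad⟩ := p4_exists_line hB had
  obtain ⟨lbc, hlbc, hbbc, hcbc⟩ := p4_exists_line hB hbc
  have hR : (Finset.univ : Finset α).filter (fun x => x ∉ S ∧
      ∀ l ∈ B, 2 ≤ (l ∩ S).card → x ∉ l) = (lab ∪ lcd ∪ lac ∪ lbd ∪ lad ∪ lbc)ᶜ := by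
    ext x
    simp only [Finset.mem_filter, Finset.mem_univ, true_and, Finset.mem_compl, Finset.mem_union]
    constructor
    · rintro ⟨hxS, hx⟩ hU
      rcases hU with ((((h | h) | h) | h) | h) | h
      · exact hx lab hlab (p4_two_le haS hbS hab haab hbab) h
      · exact hx lcd hlcd (p4_two_le hcS hdS hcd hccd hdcd) h
      · exact hx lac hlac (p4_two_le haS hcS hac haac hcac) h
      · exact hx lbd hlbd (p4_two_le hbS hdS hbd hbbd hdbd) h
      · exact hx lad hlad (p4_two_le haS hdS had haad hdad) h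
      · exact hx lbc hlbc (p4_two_le hbS hcS hbc hbbc hcbc) h
    · intro hU
      simp only [not_or] at hU
      obtain ⟨⟨⟨⟨⟨h1, h2⟩, h3⟩, h4⟩, h5⟩, h6⟩ := hU
      refine ⟨?_, ?_⟩
      · intro hxS
        rw [← hSdef] at hxS
        simp only [Finset.mem_insert, Finset.mem_singleton] at hxS
        rcases hxS with rfl | rfl | rfl | rfl
        · exact h1 haab
        · exact h1 hbab
        · exact h2 hccd
        · exact h2 hdcd
      · intro l hl h2l hxl
        obtain ⟨p, hp, q, hq, hpq⟩ := Finset.one_lt_card.mp h2l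
        rw [Finset.mem_inter, ← hSdef] at hp hq
        simp only [Finset.mem_insert, Finset.mem_singleton] at hp hq
        obtain ⟨hpl, hp⟩ := hp
        obtain ⟨hql, hq⟩ := hq
        have key : l = lab ∨ l = lcd ∨ l = lac ∨ l = lbd ∨ l = lad ∨ l = lbc := by
          rcases hp with hp | hp | hp | hp <;> rcases hq with hq | hq | hq | hq
          all_goals (rw [hp] at hpl hpq; rw [hq] at hql hpq)
          all_goals first
            | exact absurd rfl hpq
            | exact Or.inl (p4_line_unique hB hl hlab hab hpl hql haab hbab)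
            | exact Or.inl (p4_line_unique hB hl hlab hab hql hpl haab hbab)
            | exact Or.inr (Or.inl (p4_line_unique hB hl hlcd hcd hpl hql hccd hdcd))
            | exact Or.inr (Or.inl (p4_line_unique hB hl hlcd hcd hql hpl hccd hdcd))
            | exact Or.inr (Or.inr (Or.inl (p4_line_unique hB hl hlac hac hpl hql haac hcac)))
            | exact Or.inr (Or.inr (Or.inl (p4_line_unique hB hl hlac hac hql hpl haac hcac)))
            | exact Or.inr (Or.inr (Or.inr (Or.inl (p4_line_unique hB hl hlbd hbd hpl hql hbbd hdbd))))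
            | exact Or.inr (Or.inr (Or.inr (Or.inl (p4_line_unique hB hl hlbd hbd hql hpl hbbd hdbd))))
            | exact Or.inr (Or.inr (Or.inr (Or.inr (Or.inl (p4_line_unique hB hl hlad had hpl hql haad hdad)))))
            | exact Or.inr (Or.inr (Or.inr (Or.inr (Or.inl (p4_line_unique hB hl hlad had hql hpl haad hdad)))))
            | exact Or.inr (Or.inr (Or.inr (Or.inr (Or.inr (p4_line_unique hB hl hlbc hbc hpl hql hbbc hcbc)))))
            | exact Or.inr (Or.inr (Or.inr (Or.inr (Or.inr (p4_line_unique hB hl hlbc hbc hql hpl hbbc hcbc)))))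
        rcases key with rfl | rfl | rfl | rfl | rfl | rfl
        · exact h1 hxl
        · exact h2 hxl
        · exact h3 hxl
        · exact h4 hxl
        · exact h5 hxl
        · exact h6 hxl
  rw [hR, Finset.card_compl, hα]
  -- the union has 19 points
  have hne1 : lab ≠ lcd := by
    rintro rfl; exact p4_arc_three hS hlab haS hbS hcS hab hac hbc haab hbab hccd
  have hne2 : lac ≠ lbd := by
    rintro rfl; exact p4_arc_three hS hlac haS hcS hbS hac hab (Ne.symm hbc) haac hcac hbbd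
  have hne3 : lad ≠ lbc := by
    rintro rfl; exact p4_arc_three hS hlad haS hdS hbS had hab (Ne.symm hbd) haad hdad hbbc
  have hW : ∀ l l' : Finset α, l ∈ B → l' ∈ B → l ≠ l' → S ⊆ l ∪ l' →
      ((l ∪ l') \ S).card = 5 := by
    intro l l' hl hl' hne hsub
    have h1 := Finset.card_union_add_card_inter l l'
    rw [p4_inter_card hα hB hl hl' hne, hB.1 l hl, hB.1 l' hl'] at h1
    rw [Finset.card_sdiff_of_subset hsub, hS4]
    omega
  have hsub1 : S ⊆ lab ∪ lcd := by
    intro z hz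
    rw [← hSdef] at hz
    simp only [Finset.mem_insert, Finset.mem_singleton] at hz
    rw [Finset.mem_union]
    rcases hz with rfl | rfl | rfl | rfl
    · exact Or.inl haab
    · exact Or.inl hbab
    · exact Or.inr hccd
    · exact Or.inr hdcd
  have hsub2 : S ⊆ lac ∪ lbd := by
    intro z hz
    rw [← hSdef] at hz
    simp only [Finset.mem_insert, Finset.mem_singleton] at hz
    rw [Finset.mem_union]
    rcases hz with rfl | rfl | rfl | rfl
    · exact Or.inl haac
    · exact Or.inr hbbd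
    · exact Or.inl hcac
    · exact Or.inr hdbd
  have hsub3 : S ⊆ lad ∪ lbc := by
    intro z hz
    rw [← hSdef] at hz
    simp only [Finset.mem_insert, Finset.mem_singleton] at hz
    rw [Finset.mem_union]
    rcases hz with rfl | rfl | rfl | rfl
    · exact Or.inl haad
    · exact Or.inr hbbc
    · exact Or.inr hcbc
    · exact Or.inl hdad
  have hP1 := hW lab lcd hlab hlcd hne1 hsub1
  have hP2 := hW lac lbd hlac hlbd hne2 hsub2
  have hP3 := hW lad lbc hlad hlbc hne3 hsub3
  have hd12 : Disjoint ((lab ∪ lcd) \ S) ((lac ∪ lbd) \ S) := by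
    rw [Finset.disjoint_left]
    intro z hz hz'
    rw [Finset.mem_sdiff, Finset.mem_union] at hz hz'
    apply hz.2
    rcases hz.1 with h | h <;> rcases hz'.1 with h' | h'
    · rw [p4_sec_meet hB hS hlab hlac haS hbS hcS hab hac hbc haab hbab haac hcac h h']; exact haS
    · rw [p4_sec_meet hB hS hlab hlbd hbS haS hdS (Ne.symm hab) hbd had hbab haab hbbd hdbd h h']
      exact hbS
    · rw [p4_sec_meet hB hS hlcd hlac hcS hdS haS hcd (Ne.symm hac) (Ne.symm had) hccd hdcd hcac
        haac h h']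
      exact hcS
    · rw [p4_sec_meet hB hS hlcd hlbd hdS hcS hbS (Ne.symm hcd) (Ne.symm hbd) (Ne.symm hbc) hdcd
        hccd hdbd hbbd h h']
      exact hdS
  have hd13 : Disjoint ((lab ∪ lcd) \ S) ((lad ∪ lbc) \ S) := by
    rw [Finset.disjoint_left]
    intro z hz hz'
    rw [Finset.mem_sdiff, Finset.mem_union] at hz hz'
    apply hz.2
    rcases hz.1 with h | h <;> rcases hz'.1 with h' | h'
    · rw [p4_sec_meet hB hS hlab hlad haS hbS hdS hab had hbd haab hbab haad hdad h h']; exact haS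
    · rw [p4_sec_meet hB hS hlab hlbc hbS haS hcS (Ne.symm hab) hbc hac hbab haab hbbc hcbc h h']
      exact hbS
    · rw [p4_sec_meet hB hS hlcd hlad hdS hcS haS (Ne.symm hcd) (Ne.symm had) (Ne.symm hac) hdcd
        hccd hdad haad h h']
      exact hdS
    · rw [p4_sec_meet hB hS hlcd hlbc hcS hdS hbS hcd (Ne.symm hbc) (Ne.symm hbd) hccd hdcd hcbc
        hbbc h h']
      exact hcS
  have hd23 : Disjoint ((lac ∪ lbd) \ S) ((lad ∪ lbc) \ S) := by
    rw [Finset.disjoint_left]
    intro z hz hz'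
    rw [Finset.mem_sdiff, Finset.mem_union] at hz hz'
    apply hz.2
    rcases hz.1 with h | h <;> rcases hz'.1 with h' | h'
    · rw [p4_sec_meet hB hS hlac hlad haS hcS hdS hac had hcd haac hcac haad hdad h h']; exact haS
    · rw [p4_sec_meet hB hS hlac hlbc hcS haS hbS (Ne.symm hac) (Ne.symm hbc) hab hcac haac hcbc
        hbbc h h']
      exact hcS
    · rw [p4_sec_meet hB hS hlbd hlad hdS hbS haS (Ne.symm hbd) (Ne.symm had) (Ne.symm hab) hdbd
        hbbd hdad haad h h']
      exact hdS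
    · rw [p4_sec_meet hB hS hlbd hlbc hbS hdS hcS hbd hbc (Ne.symm hcd) hbbd hdbd hbbc hcbc h h']
      exact hbS
  have hU : lab ∪ lcd ∪ lac ∪ lbd ∪ lad ∪ lbc =
      S ∪ (((lab ∪ lcd) \ S) ∪ ((lac ∪ lbd) \ S) ∪ ((lad ∪ lbc) \ S)) := by
    ext z
    simp only [Finset.mem_union, Finset.mem_sdiff]
    constructor
    · intro h
      by_cases hz : z ∈ S
      · exact Or.inl hz
      · right; tauto
    · rintro (h | h)
      · have := hsub1 h
        rw [Finset.mem_union] at this
        tauto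
      · tauto
  have hcU : (lab ∪ lcd ∪ lac ∪ lbd ∪ lad ∪ lbc).card = 19 := by
    rw [hU, Finset.card_union_of_disjoint, Finset.card_union_of_disjoint,
      Finset.card_union_of_disjoint hd12, hP1, hP2, hP3, hS4]
    · exact Finset.disjoint_union_left.mpr ⟨hd13, hd23⟩
    · rw [Finset.disjoint_left]
      intro z hz hz'
      simp only [Finset.mem_union, Finset.mem_sdiff] at hz'
      tauto
  rw [hcU]

/-- A tangent at `a` through a point `x` off the secants contains no second such point. -/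
theorem p4_tangent_full (hα : Fintype.card α = 21) {B : Set (Finset α)}
    (hB : Cfsg.IsSteinerSystem 2 5 B) {S : Finset α} (hS4 : S.card = 4)
    (hS : ∀ l ∈ B, (l ∩ S).card ≤ 2) {a x y : α} (ha : a ∈ S) (hx : x ∉ S) (hy : y ∉ S)
    (hxy : x ≠ y) (hxR : ∀ l ∈ B, 2 ≤ (l ∩ S).card → x ∉ l)
    (hyR : ∀ l ∈ B, 2 ≤ (l ∩ S).card → y ∉ l) {l : Finset α} (hl : l ∈ B) (hal : a ∈ l)
    (hxl : x ∈ l) (hyl : y ∈ l) : False := by
  classical
  have h3 : (S.erase a).card = 3 := by rw [Finset.card_erase_of_mem ha, hS4]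
  obtain ⟨b, c, d, hbc, hbd, hcd, hT⟩ := Finset.card_eq_three.mp h3
  have hb : b ∈ S.erase a := by rw [hT]; simp
  have hc : c ∈ S.erase a := by rw [hT]; simp
  have hd : d ∈ S.erase a := by rw [hT]; simp
  rw [Finset.mem_erase] at hb hc hd
  obtain ⟨lbc, hlbc, hbbc, hcbc⟩ := p4_exists_line hB hbc
  obtain ⟨lbd, hlbd, hbbd, hdbd⟩ := p4_exists_line hB hbd
  obtain ⟨lcd, hlcd, hccd, hdcd⟩ := p4_exists_line hB hcd
  obtain ⟨p₁, hp₁, hp₁'⟩ := p4_meet hα hB hl hlbc
  obtain ⟨p₂, hp₂, hp₂'⟩ := p4_meet hα hB hl hlbd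
  obtain ⟨p₃, hp₃, hp₃'⟩ := p4_meet hα hB hl hlcd
  have sbc := p4_two_le hb.2 hc.2 hbc hbbc hcbc
  have sbd := p4_two_le hb.2 hd.2 hbd hbbd hdbd
  have scd := p4_two_le hc.2 hd.2 hcd hccd hdcd
  have hlS : ∀ s ∈ S, s ∈ l → s = a := by
    intro s hs hsl
    by_contra hne
    exact hxR l hl (p4_two_le hs ha hne hsl hal) hxl
  have hp₁S : p₁ ∉ S := by
    intro h
    have e := hlS p₁ h hp₁
    rw [e] at hp₁'
    exact p4_arc_three hS hlbc ha hb.2 hc.2 (Ne.symm hb.1) (Ne.symm hc.1) hbc hp₁' hbbc hcbc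
  have hp₂S : p₂ ∉ S := by
    intro h
    have e := hlS p₂ h hp₂
    rw [e] at hp₂'
    exact p4_arc_three hS hlbd ha hb.2 hd.2 (Ne.symm hb.1) (Ne.symm hd.1) hbd hp₂' hbbd hdbd
  have hp₃S : p₃ ∉ S := by
    intro h
    have e := hlS p₃ h hp₃
    rw [e] at hp₃'
    exact p4_arc_three hS hlcd ha hc.2 hd.2 (Ne.symm hc.1) (Ne.symm hd.1) hcd hp₃' hccd hdcd
  have hxp₁ : x ≠ p₁ := by rintro rfl; exact hxR lbc hlbc sbc hp₁'
  have hxp₂ : x ≠ p₂ := by rintro rfl; exact hxR lbd hlbd sbd hp₂'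
  have hxp₃ : x ≠ p₃ := by rintro rfl; exact hxR lcd hlcd scd hp₃'
  have hyp₁ : y ≠ p₁ := by rintro rfl; exact hyR lbc hlbc sbc hp₁'
  have hyp₂ : y ≠ p₂ := by rintro rfl; exact hyR lbd hlbd sbd hp₂'
  have hyp₃ : y ≠ p₃ := by rintro rfl; exact hyR lcd hlcd scd hp₃'
  have hax : a ≠ x := by rintro rfl; exact hx ha
  have hay : a ≠ y := by rintro rfl; exact hy ha
  have hap₁ : a ≠ p₁ := by rintro rfl; exact hp₁S ha
  have hap₂ : a ≠ p₂ := by rintro rfl; exact hp₂S ha
  have hap₃ : a ≠ p₃ := by rintro rfl; exact hp₃S ha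
  have h12 : p₁ ≠ p₂ := by
    intro h
    rw [← h] at hp₂'
    have e := p4_sec_meet hB hS hlbc hlbd hb.2 hc.2 hd.2 hbc hbd hcd hbbc hcbc hbbd hdbd hp₁' hp₂'
    rw [e] at hp₁S
    exact hp₁S hb.2
  have h13 : p₁ ≠ p₃ := by
    intro h
    rw [← h] at hp₃'
    have e := p4_sec_meet hB hS hlbc hlcd hc.2 hb.2 hd.2 (Ne.symm hbc) hcd hbd hcbc hbbc hccd hdcd
      hp₁' hp₃'
    rw [e] at hp₁S
    exact hp₁S hc.2
  have h23 : p₂ ≠ p₃ := by
    intro h
    rw [← h] at hp₃'
    have e := p4_sec_meet hB hS hlbd hlcd hd.2 hb.2 hc.2 (Ne.symm hbd) (Ne.symm hcd) hbc hdbd hbbd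
      hdcd hccd hp₂' hp₃'
    rw [e] at hp₂S
    exact hp₂S hd.2
  have hsub : ({a, x, y, p₁, p₂, p₃} : Finset α) ⊆ l := by
    intro z hz
    simp only [Finset.mem_insert, Finset.mem_singleton] at hz
    rcases hz with rfl | rfl | rfl | rfl | rfl | rfl <;> assumption
  have hcard6 : ({a, x, y, p₁, p₂, p₃} : Finset α).card = 6 := by
    rw [Finset.card_insert_of_notMem (by simp [hax, hay, hap₁, hap₂, hap₃]),
      Finset.card_insert_of_notMem (by simp [hxy, hxp₁, hxp₂, hxp₃]),
      Finset.card_insert_of_notMem (by simp [hyp₁, hyp₂, hyp₃]),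
      Finset.card_insert_of_notMem (by simp [h12, h13]), Finset.card_pair h23]
  have := Finset.card_le_card hsub
  rw [hcard6, hB.1 l hl] at this
  omega

/-- Every 4-arc lies in exactly one hyperoval. -/
theorem p4_unique_hyperoval (hα : Fintype.card α = 21) {B : Set (Finset α)}
    (hB : Cfsg.IsSteinerSystem 2 5 B) (S : Finset α)
    (hS : S.card = 4 ∧ ∀ l ∈ B, (l ∩ S).card ≤ 2) :
    ∃! H : Finset α, (H.card = 6 ∧ ∀ l ∈ B, (l ∩ H).card ≤ 2) ∧ S ⊆ H := by
  classical
  obtain ⟨hS4, hSarc⟩ := hS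
  obtain ⟨a, ha⟩ := Finset.card_pos.mp (by omega : 0 < S.card)
  have h3 : (S.erase a).card = 3 := by rw [Finset.card_erase_of_mem ha, hS4]
  obtain ⟨b, c, d, hbc, hbd, hcd, hT⟩ := Finset.card_eq_three.mp h3
  have hSeq : ({a, b, c, d} : Finset α) = S := by rw [← hT, Finset.insert_erase ha]
  have hb : b ∈ S.erase a := by rw [hT]; simp
  have hc : c ∈ S.erase a := by rw [hT]; simp
  have hd : d ∈ S.erase a := by rw [hT]; simp
  rw [Finset.mem_erase] at hb hc hd
  have hR2 := p4_off_secants_card hα hB (Ne.symm hb.1) (Ne.symm hc.1) (Ne.symm hd.1) hbc hbd hcd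
    hSeq hSarc
  generalize hRdef : (Finset.univ : Finset α).filter (fun x => x ∉ S ∧
      ∀ l ∈ B, 2 ≤ (l ∩ S).card → x ∉ l) = R at hR2
  have hRmem : ∀ z, z ∈ R ↔ z ∉ S ∧ ∀ l ∈ B, 2 ≤ (l ∩ S).card → z ∉ l := by
    intro z; rw [← hRdef, Finset.mem_filter]; simp
  obtain ⟨x, y, hxy, hRxy⟩ := Finset.card_eq_two.mp hR2
  have hxR : x ∈ R := by rw [hRxy]; simp
  have hyR : y ∈ R := by rw [hRxy]; simp
  have hxR' := (hRmem x).mp hxR
  have hyR' := (hRmem y).mp hyR
  have hdisj : Disjoint S R := by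
    rw [Finset.disjoint_left]; intro z hzS hzR; exact ((hRmem z).mp hzR).1 hzS
  refine ⟨S ∪ R, ⟨⟨?_, ?_⟩, Finset.subset_union_left⟩, ?_⟩
  · rw [Finset.card_union_of_disjoint hdisj, hS4, hR2]
  · intro l hl
    have hd' : Disjoint (l ∩ S) (l ∩ R) :=
      Finset.disjoint_of_subset_left Finset.inter_subset_right
        (Finset.disjoint_of_subset_right Finset.inter_subset_right hdisj)
    rw [Finset.inter_union_distrib_left, Finset.card_union_of_disjoint hd']
    by_cases h2 : 2 ≤ (l ∩ S).card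
    · have hemp : l ∩ R = ∅ := by
        rw [Finset.eq_empty_iff_forall_notMem]
        intro z hz
        rw [Finset.mem_inter] at hz
        exact ((hRmem z).mp hz.2).2 l hl h2 hz.1
      rw [hemp, Finset.card_empty]
      have := hSarc l hl
      omega
    · have hR' : (l ∩ R).card ≤ 2 := (Finset.card_le_card Finset.inter_subset_right).trans hR2.le
      by_contra hcon
      have h1 : (l ∩ S).card = 1 := by omega
      have h2' : (l ∩ R).card = 2 := by omega
      obtain ⟨a', ha'⟩ := Finset.card_eq_one.mp h1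
      have ha'l : a' ∈ l ∩ S := by rw [ha']; simp
      have hRl : l ∩ R = R :=
        Finset.eq_of_subset_of_card_le Finset.inter_subset_right (by rw [h2', hR2])
      have hxl : x ∈ l := by
        have : x ∈ l ∩ R := by rw [hRl]; exact hxR
        exact (Finset.mem_inter.mp this).1
      have hyl : y ∈ l := by
        have : y ∈ l ∩ R := by rw [hRl]; exact hyR
        exact (Finset.mem_inter.mp this).1
      rw [Finset.mem_inter] at ha'l
      exact p4_tangent_full hα hB hS4 hSarc ha'l.2 hxR'.1 hyR'.1 hxy hxR'.2 hyR'.2 hl ha'l.1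
        hxl hyl
  · rintro H' ⟨⟨h6, harc⟩, hSH⟩
    apply Finset.eq_of_subset_of_card_le
    · intro z hz
      by_cases hzS : z ∈ S
      · exact Finset.mem_union_left _ hzS
      · apply Finset.mem_union_right
        rw [hRmem]
        refine ⟨hzS, ?_⟩
        intro l hl h2 hzl
        have hsub : insert z (l ∩ S) ⊆ l ∩ H' := by
          intro w hw
          rw [Finset.mem_insert] at hw
          rcases hw with rfl | hw
          · exact Finset.mem_inter.mpr ⟨hzl, hz⟩
          · rw [Finset.mem_inter] at hw ⊢; exact ⟨hw.1, hSH hw.2⟩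
        have h5 := Finset.card_le_card hsub
        rw [Finset.card_insert_of_notMem (fun h => hzS (Finset.mem_inter.mp h).2)] at h5
        have := harc l hl
        omega
    · rw [Finset.card_union_of_disjoint hdisj, hS4, hR2, h6]

/-- The number of hyperovals is 168. -/
theorem p4_hyperoval_count (hα : Fintype.card α = 21) {B : Set (Finset α)}
    (hB : Cfsg.IsSteinerSystem 2 5 B)
    [DecidablePred (fun Y : Finset α => ∀ l ∈ B, (l ∩ Y).card ≤ 2)] :
    ((Finset.powersetCard 6 (Finset.univ : Finset α)).filter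
      (fun Y => ∀ l ∈ B, (l ∩ Y).card ≤ 2)).card = 168 := by
  classical
  have hA := p4_arc4_count hα hB
  generalize hAs : (Finset.powersetCard 4 (Finset.univ : Finset α)).filter
      (fun Y => ∀ l ∈ B, (l ∩ Y).card ≤ 2) = As at hA
  generalize hHs : (Finset.powersetCard 6 (Finset.univ : Finset α)).filter
      (fun Y => ∀ l ∈ B, (l ∩ Y).card ≤ 2) = Hs
  have h1 : ∑ H ∈ Hs, (As.filter (fun S => S ⊆ H)).card =
      ∑ S ∈ As, (Hs.filter (fun H => S ⊆ H)).card := by
    simp_rw [Finset.card_filter]; exact Finset.sum_comm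
  have h2 : ∀ H ∈ Hs, (As.filter (fun S => S ⊆ H)).card = 15 := by
    intro H hH
    rw [← hHs, Finset.mem_filter, Finset.mem_powersetCard] at hH
    have e : As.filter (fun S => S ⊆ H) = Finset.powersetCard 4 H := by
      ext S
      simp only [← hAs, Finset.mem_filter, Finset.mem_powersetCard]
      constructor
      · rintro ⟨⟨⟨_, h4⟩, _⟩, hSH⟩; exact ⟨hSH, h4⟩
      · rintro ⟨hSH, h4⟩
        refine ⟨⟨⟨Finset.subset_univ _, h4⟩, ?_⟩, hSH⟩
        intro l hl
        exact (Finset.card_le_card (Finset.inter_subset_inter (subset_refl l) hSH)).trans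
          (hH.2 l hl)
    rw [e, Finset.card_powersetCard, hH.1.2]; rfl
  have h3 : ∀ S ∈ As, (Hs.filter (fun H => S ⊆ H)).card = 1 := by
    intro S hS
    rw [← hAs, Finset.mem_filter, Finset.mem_powersetCard] at hS
    obtain ⟨H, ⟨hH, hSH⟩, huniq⟩ := p4_unique_hyperoval hα hB S ⟨hS.1.2, hS.2⟩
    rw [Finset.card_eq_one]
    refine ⟨H, ?_⟩
    ext H'
    simp only [← hHs, Finset.mem_filter, Finset.mem_powersetCard, Finset.mem_singleton]
    constructor
    · rintro ⟨⟨⟨_, h6⟩, harc⟩, hsub⟩; exact huniq H' ⟨⟨h6, harc⟩, hsub⟩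
    · rintro rfl; exact ⟨⟨⟨Finset.subset_univ _, hH.1⟩, hH.2⟩, hSH⟩
  rw [Finset.sum_congr rfl h2, Finset.sum_congr rfl h3, Finset.sum_const, Finset.sum_const, hA]
    at h1
  simp only [smul_eq_mul] at h1
  omega

end

end Cfsg.Agent.Lib.Helper7
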