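import Mathlib
import Cfsg.Prelude
import Cfsg.Agent.Lib.Helper7.Plane4

set_option autoImplicit false

namespace Cfsg.Agent.Lib.Helper7

section
variable {α : Type*} [Fintype α] [DecidableEq α]

/-- `x` is collinear with `a` and `b`. -/
def p4Col (B : Set (Finset α)) (x a b : α) : Prop := ∃ l ∈ B, a ∈ l ∧ b ∈ l ∧ x ∈ l

theorem p4Col_symm {B : Set (Finset α)} {x a b : α} (h : p4Col B x a b) : p4Col B x b a := by
  obtain ⟨l, hl, ha, hb, hx⟩ := h
  exact ⟨l, hl, hb, ha, hx⟩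

/-- A plane of order 4 with a hyperoval `H`. -/
structure P4Hyp (B : Set (Finset α)) (H : Finset α) : Prop where
  card : Fintype.card α = 21
  st : Cfsg.IsSteinerSystem 2 5 B
  h6 : H.card = 6
  arc : ∀ l ∈ B, (l ∩ H).card ≤ 2

variable {B : Set (Finset α)} {H : Finset α}

theorem P4Hyp.ne_one (h : P4Hyp B H) {l : Finset α} (hl : l ∈ B) : (l ∩ H).card ≠ 1 := by
  classical
  have hfin : B.Finite := Set.toFinite B
  obtain ⟨Bf, hBf⟩ : ∃ Bf : Finset (Finset α), ∀ b, b ∈ Bf ↔ b ∈ B :=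
    ⟨hfin.toFinset, fun b => hfin.mem_toFinset⟩
  have h1 := st_moment h.st Bf hBf H 1 (by norm_num)
  have h2 := st_moment h.st Bf hBf H 2 (by norm_num)
  rw [h.card, h.h6] at h1 h2
  have hm : ∀ c ∈ Bf, (c ∩ H).card < 3 := fun c hc => Nat.lt_succ_of_le (h.arc c ((hBf c).mp hc))
  rw [st_sum_fiber Bf H 3 hm (fun j => Nat.choose j 1)] at h1
  rw [st_sum_fiber Bf H 3 hm (fun j => Nat.choose j 2)] at h2
  simp only [Finset.sum_range_succ, Finset.sum_range_zero] at h1 h2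
  norm_num [Nat.choose, -Finset.card_eq_zero] at h1 h2
  intro hc
  have hz : (Bf.filter (fun c => (c ∩ H).card = 1)).card = 0 := by omega
  rw [Finset.card_eq_zero] at hz
  have hmem : l ∈ Bf.filter (fun c => (c ∩ H).card = 1) :=
    Finset.mem_filter.mpr ⟨(hBf l).mpr hl, hc⟩
  rw [hz] at hmem
  simp at hmem

theorem P4Hyp.eq_of_mem_line (h : P4Hyp B H) {l : Finset α} (hl : l ∈ B) {a b z : α}
    (ha : a ∈ H) (hb : b ∈ H) (hz : z ∈ H) (hab : a ≠ b) (hal : a ∈ l) (hbl : b ∈ l)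
    (hzl : z ∈ l) : z = a ∨ z = b := by
  by_contra hcon
  simp only [not_or] at hcon
  exact p4_arc_three h.arc hl ha hb hz hab (Ne.symm hcon.1) (Ne.symm hcon.2) hal hbl hzl

theorem P4Hyp.two_of_mem (h : P4Hyp B H) {l : Finset α} (hl : l ∈ B) {a : α} (ha : a ∈ H)
    (hal : a ∈ l) : ∃ b ∈ H, b ≠ a ∧ b ∈ l ∧ ∀ c ∈ H, c ∈ l → c = a ∨ c = b := by
  have h1 := h.ne_one hl
  have h2 := h.arc l hl
  have h3 : 0 < (l ∩ H).card := Finset.card_pos.mpr ⟨a, Finset.mem_inter.mpr ⟨hal, ha⟩⟩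
  have h4 : 1 < (l ∩ H).card := by omega
  obtain ⟨b, hb, hba⟩ := Finset.exists_mem_ne h4 a
  rw [Finset.mem_inter] at hb
  exact ⟨b, hb.2, hba, hb.1, fun c hc hcl =>
    h.eq_of_mem_line hl ha hb.2 hc (Ne.symm hba) hal hb.1 hcl⟩

theorem P4Hyp.partner_exists (h : P4Hyp B H) {x a : α} (hx : x ∉ H) (ha : a ∈ H) :
    ∃ b ∈ H, b ≠ a ∧ p4Col B x a b := by
  have hxa : x ≠ a := by rintro rfl; exact hx ha
  obtain ⟨l, hl, hxl, hal⟩ := p4_exists_line h.st hxa
  obtain ⟨b, hb, hba, hbl, _⟩ := h.two_of_mem hl ha hal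
  exact ⟨b, hb, hba, l, hl, hal, hbl, hxl⟩

theorem P4Hyp.partner_unique (h : P4Hyp B H) {x a b b' : α} (hx : x ∉ H) (ha : a ∈ H)
    (hb : b ∈ H) (hb' : b' ∈ H) (hba : b ≠ a) (hb'a : b' ≠ a) (h1 : p4Col B x a b)
    (h2 : p4Col B x a b') : b = b' := by
  obtain ⟨l₁, hl₁, ha1, hb1, hx1⟩ := h1
  obtain ⟨l₂, hl₂, ha2, hb2, hx2⟩ := h2
  have hxa : x ≠ a := by rintro rfl; exact hx ha
  have e : l₁ = l₂ := p4_line_unique h.st hl₁ hl₂ hxa hx1 ha1 hx2 ha2
  rw [← e] at hb2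
  rcases h.eq_of_mem_line hl₁ ha hb hb' (Ne.symm hba) ha1 hb1 hb2 with h3 | h3
  · exact absurd h3 hb'a
  · exact h3.symm

/-- A point off the hyperoval is determined by its syntheme. -/
theorem P4Hyp.inj (h : P4Hyp B H) {x y : α} (hx : x ∉ H) (hy : y ∉ H)
    (hxy : ∀ a ∈ H, ∀ b ∈ H, a ≠ b → p4Col B x a b → p4Col B y a b) : x = y := by
  classical
  by_contra hne
  obtain ⟨a, ha⟩ : H.Nonempty := Finset.card_pos.mp (by rw [h.h6]; norm_num)
  obtain ⟨b, hb, hba, hab⟩ := h.partner_exists hx ha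
  obtain ⟨c, hc, hcn⟩ := Finset.exists_mem_notMem_of_card_lt_card (s := {a, b}) (t := H) (by
    have := Finset.card_le_two (a := a) (b := b); rw [h.h6]; omega)
  simp only [Finset.mem_insert, Finset.mem_singleton, not_or] at hcn
  obtain ⟨d, hd, hdc, hcd⟩ := h.partner_exists hx hc
  obtain ⟨l₁, hl₁, ha1, hb1, hx1⟩ := hab
  obtain ⟨l₁', hl₁', ha1', hb1', hy1⟩ := hxy a ha b hb (Ne.symm hba) ⟨l₁, hl₁, ha1, hb1, hx1⟩
  obtain ⟨l₂, hl₂, hc2, hd2, hx2⟩ := hcd
  obtain ⟨l₂', hl₂', hc2', hd2', hy2⟩ := hxy c hc d hd (Ne.symm hdc) ⟨l₂, hl₂, hc2, hd2, hx2⟩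
  have e1 : l₁' = l₁ := p4_line_unique h.st hl₁' hl₁ (Ne.symm hba) ha1' hb1' ha1 hb1
  have e2 : l₂' = l₂ := p4_line_unique h.st hl₂' hl₂ (Ne.symm hdc) hc2' hd2' hc2 hd2
  rw [e1] at hy1
  rw [e2] at hy2
  have e3 : l₁ = l₂ := p4_line_unique h.st hl₁ hl₂ hne hx1 hy1 hx2 hy2
  rw [← e3] at hc2
  exact p4_arc_three h.arc hl₁ ha hb hc (Ne.symm hba) (Ne.symm hcn.1) (Ne.symm hcn.2) ha1 hb1 hc2

/-- A point off the hyperoval lies on at most two external lines. -/
theorem P4Hyp.ext_two (h : P4Hyp B H) {x : α} {e f k : Finset α} (he : e ∈ B) (hf : f ∈ B)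
    (hk : k ∈ B) (hxe : x ∈ e) (hxf : x ∈ f) (hxk : x ∈ k) (hee : ∀ z ∈ e, z ∉ H)
    (hfe : ∀ z ∈ f, z ∉ H) (hke : ∀ z ∈ k, z ∉ H) (hef : e ≠ f) : k = e ∨ k = f := by
  classical
  by_contra hcon
  simp only [not_or] at hcon
  have hx : x ∉ H := hee x hxe
  have c_ef := p4_inter_card h.card h.st he hf hef
  have hefk : (e ∪ f) ∩ k = {x} := by
    ext z
    simp only [Finset.mem_inter, Finset.mem_union, Finset.mem_singleton]
    constructor
    · rintro ⟨hz | hz, hzk⟩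
      · by_contra hne; exact hcon.1 (p4_line_unique h.st hk he hne hzk hxk hz hxe)
      · by_contra hne; exact hcon.2 (p4_line_unique h.st hk hf hne hzk hxk hz hxf)
    · rintro rfl; exact ⟨Or.inl hxe, hxk⟩
  have hU : (e ∪ f ∪ k).card = 13 := by
    have h1 := Finset.card_union_add_card_inter e f
    have h2 := Finset.card_union_add_card_inter (e ∪ f) k
    rw [hefk, Finset.card_singleton] at h2
    rw [h.st.1 e he, h.st.1 f hf, c_ef] at h1
    rw [h.st.1 k hk] at h2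
    omega
  have hdisj : Disjoint H (e ∪ f ∪ k) := by
    rw [Finset.disjoint_left]
    intro z hzH hz
    simp only [Finset.mem_union] at hz
    rcases hz with (hz | hz) | hz
    · exact hee z hz hzH
    · exact hfe z hz hzH
    · exact hke z hz hzH
  have hW : ((H ∪ (e ∪ f ∪ k))ᶜ).card = 2 := by
    rw [Finset.card_compl, Finset.card_union_of_disjoint hdisj, h.h6, hU, h.card]
  have key : ∀ a ∈ H, ∀ s ∈ B, a ∈ s → x ∈ s → (H ∪ (e ∪ f ∪ k))ᶜ ⊆ s := by
    intro a ha s hs has hxs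
    obtain ⟨b, hb, hba, hbs, honly⟩ := h.two_of_mem hs ha has
    have hax : a ≠ x := by rintro rfl; exact hx ha
    have hbx : b ≠ x := by rintro rfl; exact hx hb
    have hsub : s \ {a, b, x} ⊆ (H ∪ (e ∪ f ∪ k))ᶜ := by
      intro z hz
      simp only [Finset.mem_sdiff, Finset.mem_insert, Finset.mem_singleton, not_or] at hz
      obtain ⟨hzs, hza, hzb, hzx⟩ := hz
      simp only [Finset.mem_compl, Finset.mem_union, not_or]
      refine ⟨fun hzH => ?_, ⟨⟨fun hze => ?_, fun hzf => ?_⟩, fun hzk => ?_⟩⟩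
      · rcases honly z hzH hzs with h1 | h1
        · exact hza h1
        · exact hzb h1
      · have e1 := p4_line_unique h.st hs he hzx hzs hxs hze hxe
        rw [e1] at has; exact hee a has ha
      · have e1 := p4_line_unique h.st hs hf hzx hzs hxs hzf hxf
        rw [e1] at has; exact hfe a has ha
      · have e1 := p4_line_unique h.st hs hk hzx hzs hxs hzk hxk
        rw [e1] at has; exact hke a has ha
    have hcard : (s \ {a, b, x}).card = 2 := by
      have hsub3 : ({a, b, x} : Finset α) ⊆ s := by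
        intro z hz
        simp only [Finset.mem_insert, Finset.mem_singleton] at hz
        rcases hz with rfl | rfl | rfl <;> assumption
      rw [Finset.card_sdiff_of_subset hsub3, h.st.1 s hs,
        Finset.card_eq_three.mpr ⟨a, b, x, Ne.symm hba, hax, hbx, rfl⟩]
    have e2 := Finset.eq_of_subset_of_card_le hsub (by rw [hW, hcard])
    rw [← e2]; exact Finset.sdiff_subset
  obtain ⟨u, hu⟩ : ((H ∪ (e ∪ f ∪ k))ᶜ).Nonempty := Finset.card_pos.mp (by omega)
  have hux : u ≠ x := by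
    rintro rfl
    simp only [Finset.mem_compl, Finset.mem_union, not_or] at hu
    exact hu.2.1.1 hxe
  obtain ⟨a, ha⟩ : H.Nonempty := Finset.card_pos.mp (by rw [h.h6]; norm_num)
  have hax : a ≠ x := by rintro rfl; exact hx ha
  obtain ⟨s, hs, has, hxs⟩ := p4_exists_line h.st hax
  have hus := key a ha s hs has hxs hu
  have hall : H ⊆ s ∩ H := by
    intro a' ha'
    have ha'x : a' ≠ x := by rintro rfl; exact hx ha'
    obtain ⟨s', hs', has', hxs'⟩ := p4_exists_line h.st ha'x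
    have hus' := key a' ha' s' hs' has' hxs' hu
    have e3 : s' = s := p4_line_unique h.st hs' hs hux hus' hxs' hus hxs
    rw [e3] at has'
    exact Finset.mem_inter.mpr ⟨has', ha'⟩
  have c1 := Finset.card_le_card hall
  have c2 := h.arc s hs
  rw [h.h6] at c1
  omega

/-- Four or more points pairwise joined by external lines are collinear. -/
theorem P4Hyp.clique (h : P4Hyp B H) (P : Finset α) (hP4 : 4 ≤ P.card)
    (hext : ∀ p ∈ P, ∀ q ∈ P, p ≠ q → ∀ m ∈ B, p ∈ m → q ∈ m → ∀ z ∈ m, z ∉ H) :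
    ∃ m ∈ B, P ⊆ m := by
  classical
  obtain ⟨x₁, hx₁⟩ : P.Nonempty := Finset.card_pos.mp (by omega)
  obtain ⟨x₂, hx₂, h21⟩ : ∃ x₂ ∈ P, x₂ ≠ x₁ := by
    obtain ⟨x₂, hx₂, hne⟩ := Finset.exists_mem_notMem_of_card_lt_card (s := {x₁}) (t := P) (by
      rw [Finset.card_singleton]; omega)
    exact ⟨x₂, hx₂, by simpa using hne⟩
  obtain ⟨e, he, h1e, h2e⟩ := p4_exists_line h.st (Ne.symm h21)
  by_cases hPe : P ⊆ e
  · exact ⟨e, he, hPe⟩
  exfalso
  obtain ⟨x₃, hx₃, h3e⟩ := Finset.not_subset.mp hPe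
  have h31 : x₃ ≠ x₁ := by rintro rfl; exact h3e h1e
  have h32 : x₃ ≠ x₂ := by rintro rfl; exact h3e h2e
  obtain ⟨f, hf, h1f, h3f⟩ := p4_exists_line h.st (Ne.symm h31)
  obtain ⟨g, hg, h2g, h3g⟩ := p4_exists_line h.st (Ne.symm h32)
  have hee := hext x₁ hx₁ x₂ hx₂ (Ne.symm h21) e he h1e h2e
  have hfe := hext x₁ hx₁ x₃ hx₃ (Ne.symm h31) f hf h1f h3f
  have hge := hext x₂ hx₂ x₃ hx₃ (Ne.symm h32) g hg h2g h3g
  have hef : e ≠ f := by rintro rfl; exact h3e h3f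
  have heg : e ≠ g := by rintro rfl; exact h3e h3g
  have hfg : f ≠ g := by
    rintro rfl
    exact hef (p4_line_unique h.st he hf (Ne.symm h21) h1e h2e h1f h2g)
  obtain ⟨x₄, hx₄, hne4⟩ := Finset.exists_mem_notMem_of_card_lt_card (s := {x₁, x₂, x₃}) (t := P)
    (by have := Finset.card_le_three (a := x₁) (b := x₂) (c := x₃); omega)
  simp only [Finset.mem_insert, Finset.mem_singleton, not_or] at hne4
  obtain ⟨h41, h42, h43⟩ := hne4
  obtain ⟨k₁, hk₁, h1k₁, h4k₁⟩ := p4_exists_line h.st (Ne.symm h41)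
  have hk₁e := hext x₁ hx₁ x₄ hx₄ (Ne.symm h41) k₁ hk₁ h1k₁ h4k₁
  rcases h.ext_two he hf hk₁ h1e h1f h1k₁ hee hfe hk₁e hef with hk | hk
  · rw [hk] at h4k₁
    obtain ⟨k₃, hk₃, h3k₃, h4k₃⟩ := p4_exists_line h.st (Ne.symm h43)
    have hk₃e := hext x₃ hx₃ x₄ hx₄ (Ne.symm h43) k₃ hk₃ h3k₃ h4k₃
    rcases h.ext_two hf hg hk₃ h3f h3g h3k₃ hfe hge hk₃e hfg with hk' | hk'
    · rw [hk'] at h4k₃
      exact hef (p4_line_unique h.st he hf (Ne.symm h41) h1e h4k₁ h1f h4k₃)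
    · rw [hk'] at h4k₃
      exact heg (p4_line_unique h.st he hg (Ne.symm h42) h2e h4k₁ h2g h4k₃)
  · rw [hk] at h4k₁
    obtain ⟨k₂, hk₂, h2k₂, h4k₂⟩ := p4_exists_line h.st (Ne.symm h42)
    have hk₂e := hext x₂ hx₂ x₄ hx₄ (Ne.symm h42) k₂ hk₂ h2k₂ h4k₂
    rcases h.ext_two he hg hk₂ h2e h2g h2k₂ hee hge hk₂e heg with hk' | hk'
    · rw [hk'] at h4k₂
      exact hef (p4_line_unique h.st he hf (Ne.symm h41) h1e h4k₂ h1f h4k₁)
    · rw [hk'] at h4k₂
      exact hfg (p4_line_unique h.st hf hg (Ne.symm h43) h3f h4k₁ h3g h4k₂)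

section transfer
variable {β : Type*} [Fintype β] [DecidableEq β] {B' : Set (Finset β)} {H' : Finset β}

/-- Transfer of a point off `H` to the point off `H'` with the corresponding syntheme. -/
theorem P4Hyp.transfer (h : P4Hyp B H) (h' : P4Hyp B' H') (σ : α → β) (hσ : Set.InjOn σ H)
    (hσH : ∀ a ∈ H, σ a ∈ H') (hσs : ∀ b' ∈ H', ∃ a ∈ H, σ a = b') {x : α} (hx : x ∉ H) :
    ∃ x', x' ∉ H' ∧ ∀ a ∈ H, ∀ b ∈ H, a ≠ b → p4Col B x a b → p4Col B' x' (σ a) (σ b) := by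
  classical
  have hσne : ∀ {u v : α}, u ∈ H → v ∈ H → u ≠ v → σ u ≠ σ v :=
    fun hu hv huv e => huv (hσ hu hv e)
  obtain ⟨a, ha⟩ : H.Nonempty := Finset.card_pos.mp (by rw [h.h6]; norm_num)
  obtain ⟨b, hb, hba, hab⟩ := h.partner_exists hx ha
  obtain ⟨c, hc, hcn⟩ := Finset.exists_mem_notMem_of_card_lt_card (s := {a, b}) (t := H) (by
    have := Finset.card_le_two (a := a) (b := b); rw [h.h6]; omega)
  simp only [Finset.mem_insert, Finset.mem_singleton, not_or] at hcn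
  obtain ⟨hca, hcb⟩ := hcn
  obtain ⟨d, hd, hdc, hcd⟩ := h.partner_exists hx hc
  have hda : d ≠ a := by
    rintro rfl
    exact hcb (h.partner_unique hx hd hc hb hca hba (p4Col_symm hcd) hab)
  have hdb : d ≠ b := by
    rintro rfl
    exact hca (h.partner_unique hx hd hc ha hcb (Ne.symm hba) (p4Col_symm hcd) (p4Col_symm hab))
  have hσab : σ a ≠ σ b := hσne ha hb (Ne.symm hba)
  have hσcd : σ c ≠ σ d := hσne hc hd (Ne.symm hdc)
  obtain ⟨l₁, hl₁, ha1, hb1⟩ := p4_exists_line h'.st hσab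
  obtain ⟨l₂, hl₂, hc2, hd2⟩ := p4_exists_line h'.st hσcd
  have hl12 : l₁ ≠ l₂ := by
    rintro rfl
    exact p4_arc_three h'.arc hl₁ (hσH a ha) (hσH b hb) (hσH c hc) hσab
      (hσne ha hc (Ne.symm hca)) (hσne hb hc (Ne.symm hcb)) ha1 hb1 hc2
  obtain ⟨x', hx1, hx2⟩ := p4_meet h'.card h'.st hl₁ hl₂
  have hx'H : x' ∉ H' := by
    intro hx'
    rcases h'.eq_of_mem_line hl₁ (hσH a ha) (hσH b hb) hx' hσab ha1 hb1 hx1 with e1 | e1 <;>
      rcases h'.eq_of_mem_line hl₂ (hσH c hc) (hσH d hd) hx' hσcd hc2 hd2 hx2 with e2 | e2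
    · exact hσne ha hc (Ne.symm hca) (e1.symm.trans e2)
    · exact hσne ha hd (Ne.symm hda) (e1.symm.trans e2)
    · exact hσne hb hc (Ne.symm hcb) (e1.symm.trans e2)
    · exact hσne hb hd (Ne.symm hdb) (e1.symm.trans e2)
  refine ⟨x', hx'H, ?_⟩
  -- the four points a, b, c, d
  have hS4 : ∀ u, (u = a ∨ u = b ∨ u = c ∨ u = d) →
      ∃ v ∈ H, v ≠ u ∧ p4Col B x u v ∧ p4Col B' x' (σ u) (σ v) := by
    rintro u (rfl | rfl | rfl | rfl)
    · exact ⟨b, hb, hba, hab, l₁, hl₁, ha1, hb1, hx1⟩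
    · exact ⟨a, ha, Ne.symm hba, p4Col_symm hab, l₁, hl₁, hb1, ha1, hx1⟩
    · exact ⟨d, hd, hdc, hcd, l₂, hl₂, hc2, hd2, hx2⟩
    · exact ⟨c, hc, Ne.symm hdc, p4Col_symm hcd, l₂, hl₂, hd2, hc2, hx2⟩
  have hS4H : ∀ u, (u = a ∨ u = b ∨ u = c ∨ u = d) → u ∈ H := by
    rintro u (rfl | rfl | rfl | rfl) <;> assumption
  intro p hp q hq hpq hcol
  by_cases hp4 : p = a ∨ p = b ∨ p = c ∨ p = d
  · obtain ⟨v, hv, hvp, hcolv, hcol'⟩ := hS4 p hp4
    have e := h.partner_unique hx hp hq hv (Ne.symm hpq) hvp hcol hcolv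
    rw [e]; exact hcol'
  by_cases hq4 : q = a ∨ q = b ∨ q = c ∨ q = d
  · obtain ⟨v, hv, hvq, hcolv, hcol'⟩ := hS4 q hq4
    have e := h.partner_unique hx hq hp hv hpq hvq (p4Col_symm hcol) hcolv
    rw [e]; exact p4Col_symm hcol'
  -- both outside the four points
  obtain ⟨r', hr', hr'p, hcolr⟩ := h'.partner_exists hx'H (hσH p hp)
  obtain ⟨r, hr, rfl⟩ := hσs r' hr'
  have hrp : r ≠ p := by rintro rfl; exact hr'p rfl
  have hr4 : ¬ (r = a ∨ r = b ∨ r = c ∨ r = d) := by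
    intro hr4
    obtain ⟨v, hv, hvr, hcolv, hcol'⟩ := hS4 r hr4
    have e := h'.partner_unique hx'H (hσH r hr) (hσH p hp) (hσH v hv) (hσne hp hr (Ne.symm hrp))
      (hσne hv hr hvr) (p4Col_symm hcolr) hcol'
    have e' : p = v := hσ hp hv e
    -- v is one of the four points
    rcases hr4 with rfl | rfl | rfl | rfl
    · have := h.partner_unique hx ha hv hb hvr hba hcolv hab
      exact hp4 (Or.inr (Or.inl (e'.trans this)))
    · have := h.partner_unique hx hb hv ha hvr (Ne.symm hba) hcolv (p4Col_symm hab)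
      exact hp4 (Or.inl (e'.trans this))
    · have := h.partner_unique hx hc hv hd hvr hdc hcolv hcd
      exact hp4 (Or.inr (Or.inr (Or.inr (e'.trans this))))
    · have := h.partner_unique hx hd hv hc hvr (Ne.symm hdc) hcolv (p4Col_symm hcd)
      exact hp4 (Or.inr (Or.inr (Or.inl (e'.trans this))))
  have hqr : q = r := by
    by_contra hne
    have hsub : ({a, b, c, d, p, q, r} : Finset α) ⊆ H := by
      intro z hz
      simp only [Finset.mem_insert, Finset.mem_singleton] at hz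
      rcases hz with rfl | rfl | rfl | rfl | rfl | rfl | rfl <;> assumption
    have hc7 : ({a, b, c, d, p, q, r} : Finset α).card = 7 := by
      simp only [not_or] at hp4 hq4 hr4
      rw [Finset.card_insert_of_notMem, Finset.card_insert_of_notMem,
        Finset.card_insert_of_notMem, Finset.card_insert_of_notMem,
        Finset.card_insert_of_notMem, Finset.card_pair hne]
      · simp [hpq, Ne.symm hrp]
      · simp [Ne.symm hp4.2.2.2, Ne.symm hq4.2.2.2, Ne.symm hr4.2.2.2]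
      · simp [Ne.symm hdc, Ne.symm hp4.2.2.1, Ne.symm hq4.2.2.1, Ne.symm hr4.2.2.1]
      · simp [Ne.symm hcb, Ne.symm hdb, Ne.symm hp4.2.1, Ne.symm hq4.2.1, Ne.symm hr4.2.1]
      · simp [Ne.symm hba, Ne.symm hca, Ne.symm hda, Ne.symm hp4.1, Ne.symm hq4.1, Ne.symm hr4.1]
    have := Finset.card_le_card hsub
    rw [hc7, h.h6] at this
    omega
  rw [hqr]; exact hcolr

/-- Extension of a bijection between hyperovals to an isomorphism of the planes. -/
theorem P4Hyp.ext (h : P4Hyp B H) (h' : P4Hyp B' H') (σ : α → β) (hσ : Set.InjOn σ H)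
    (hσH : ∀ a ∈ H, σ a ∈ H') (hσs : ∀ b' ∈ H', ∃ a ∈ H, σ a = b') :
    ∃ e : α ≃ β, (∀ a ∈ H, e a = σ a) ∧ ∀ l ∈ B, l.image e ∈ B' := by
  classical
  have hσne : ∀ {u v : α}, u ∈ H → v ∈ H → u ≠ v → σ u ≠ σ v :=
    fun hu hv huv e => huv (hσ hu hv e)
  haveI : Nonempty β := Fintype.card_pos_iff.mp (by rw [h'.card]; norm_num)
  have hE : ∀ x, x ∉ H → ∃ x', x' ∉ H' ∧ ∀ a ∈ H, ∀ b ∈ H, a ≠ b → p4Col B x a b →
      p4Col B' x' (σ a) (σ b) := fun x hx => h.transfer h' σ hσ hσH hσs hx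
  choose! φ hφ1 hφ2 using hE
  let g : α → β := fun x => if x ∈ H then σ x else φ x
  have gH : ∀ x ∈ H, g x = σ x := fun x hx => if_pos hx
  have gN : ∀ x, x ∉ H → g x = φ x := fun x hx => if_neg hx
  have pull : ∀ p, p ∉ H → ∀ a ∈ H, ∀ b ∈ H, a ≠ b → p4Col B' (φ p) (σ a) (σ b) →
      p4Col B p a b := by
    intro p hpH a ha b hb hab cp
    obtain ⟨b₁, hb₁, hb₁a, hcol₁⟩ := h.partner_exists hpH ha
    have c1 := hφ2 p hpH a ha b₁ hb₁ (Ne.symm hb₁a) hcol₁
    have e1 := h'.partner_unique (hφ1 p hpH) (hσH a ha) (hσH b hb) (hσH b₁ hb₁)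
      (hσne hb ha (Ne.symm hab)) (hσne hb₁ ha hb₁a) cp c1
    have e2 : b = b₁ := hσ hb hb₁ e1
    rw [e2]; exact hcol₁
  have ginj : Function.Injective g := by
    intro x y hxy
    by_cases hx : x ∈ H <;> by_cases hy : y ∈ H
    · rw [gH x hx, gH y hy] at hxy; exact hσ hx hy hxy
    · rw [gH x hx, gN y hy] at hxy
      exact absurd (hxy ▸ hσH x hx) (hφ1 y hy)
    · rw [gN x hx, gH y hy] at hxy
      exact absurd (hxy ▸ hσH y hy) (hφ1 x hx)
    · rw [gN x hx, gN y hy] at hxy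
      apply h.inj hx hy
      intro a ha b hb hab hcol
      have c1 := hφ2 x hx a ha b hb hab hcol
      rw [hxy] at c1
      exact pull y hy a ha b hb hab c1
  have hcard : Fintype.card α = Fintype.card β := by rw [h.card, h'.card]
  have gbij : Function.Bijective g :=
    (Fintype.bijective_iff_injective_and_card g).mpr ⟨ginj, hcard⟩
  refine ⟨Equiv.ofBijective g gbij, fun a ha => gH a ha, ?_⟩
  intro l hl
  show l.image g ∈ B'
  have himg_card : (l.image g).card = 5 := by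
    rw [Finset.card_image_of_injective _ ginj, h.st.1 l hl]
  by_cases hlH : ∃ a ∈ H, a ∈ l
  · obtain ⟨a, ha, hal⟩ := hlH
    obtain ⟨b, hb, hba, hbl, honly⟩ := h.two_of_mem hl ha hal
    have hσab : σ a ≠ σ b := hσne ha hb (Ne.symm hba)
    obtain ⟨l', hl', ha', hb'⟩ := p4_exists_line h'.st hσab
    have hsub : l.image g ⊆ l' := by
      intro z hz
      obtain ⟨p, hp, rfl⟩ := Finset.mem_image.mp hz
      by_cases hpH : p ∈ H
      · rcases honly p hpH hp with e | e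
        · rw [e, gH _ ha]; exact ha'
        · rw [e, gH _ hb]; exact hb'
      · rw [gN p hpH]
        obtain ⟨m, hm, ham, hbm, hpm⟩ :=
          hφ2 p hpH a ha b hb (Ne.symm hba) ⟨l, hl, hal, hbl, hp⟩
        have e : m = l' := p4_line_unique h'.st hm hl' hσab ham hbm ha' hb'
        rw [← e]; exact hpm
    have e : l.image g = l' :=
      Finset.eq_of_subset_of_card_le hsub (by rw [himg_card, h'.st.1 l' hl'])
    rw [e]; exact hl'
  · simp only [not_exists, not_and] at hlH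
    have hlext : ∀ z ∈ l, z ∉ H := fun z hz hzH => hlH z hzH hz
    obtain ⟨m, hm, hsub⟩ := h'.clique (l.image g) (by rw [himg_card]; norm_num) (by
      intro p' hp' q' hq' hpq' m hm hpm hqm z hzm hzH
      obtain ⟨p, hp, rfl⟩ := Finset.mem_image.mp hp'
      obtain ⟨q, hq, rfl⟩ := Finset.mem_image.mp hq'
      have hpH := hlext p hp
      have hqH := hlext q hq
      have hpq : p ≠ q := fun e => hpq' (by rw [e])
      rw [gN p hpH] at hpm
      rw [gN q hqH] at hqm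
      obtain ⟨w, hw, hwz, hwm, _⟩ := h'.two_of_mem hm hzH hzm
      obtain ⟨a, ha, rfl⟩ := hσs z hzH
      obtain ⟨b, hb, rfl⟩ := hσs w hw
      have hab : a ≠ b := fun e => hwz (by rw [e])
      obtain ⟨l₁, hl₁, ha1, hb1, hp1⟩ := pull p hpH a ha b hb hab ⟨m, hm, hzm, hwm, hpm⟩
      obtain ⟨l₂, hl₂, ha2, hb2, hq2⟩ := pull q hqH a ha b hb hab ⟨m, hm, hzm, hwm, hqm⟩
      have e12 : l₁ = l₂ := p4_line_unique h.st hl₁ hl₂ hab ha1 hb1 ha2 hb2
      rw [← e12] at hq2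
      have e1l : l₁ = l := p4_line_unique h.st hl₁ hl hpq hp1 hq2 hp hq
      rw [e1l] at ha1
      exact hlext a ha1 ha)
    have e : l.image g = m :=
      Finset.eq_of_subset_of_card_le hsub (by rw [himg_card, h'.st.1 m hm])
    rw [e]; exact hm

/-- The image of the line set under an isomorphism onto lines is the whole line set. -/
theorem p4_image_eq (hα : Fintype.card α = 21) (hβ : Fintype.card β = 21)
    (hB : Cfsg.IsSteinerSystem 2 5 B) (hB' : Cfsg.IsSteinerSystem 2 5 B') (e : α ≃ β)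
    (he : ∀ l ∈ B, l.image e ∈ B') : (fun b : Finset α => b.image e) '' B = B' := by
  classical
  have hfin : B.Finite := Set.toFinite B
  have hfin' : B'.Finite := Set.toFinite B'
  have c1 : B.ncard = 21 := by
    rw [Set.ncard_eq_toFinset_card B hfin]
    exact p4_card hα hB hfin.toFinset (fun b => hfin.mem_toFinset)
  have c2 : B'.ncard = 21 := by
    rw [Set.ncard_eq_toFinset_card B' hfin']
    exact p4_card hβ hB' hfin'.toFinset (fun b => hfin'.mem_toFinset)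
  apply Set.eq_of_subset_of_ncard_le _ _ hfin'
  · rintro _ ⟨l, hl, rfl⟩
    exact he l hl
  · rw [Set.ncard_image_of_injective B (Finset.image_injective e.injective), c1, c2]

end transfer

end

end Cfsg.Agent.Lib.Helper7
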