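import Mathlib
import Cfsg.Prelude
import Cfsg.Agent.S1140

set_option autoImplicit false

namespace Cfsg.Agent.Lib.Helper7

theorem qf2_main {F : Type*} [Field F] [Fintype F] [CharP F 2]
    (q : F → F)
    (hq : ∀ x y z : F, q (x + y + z) + q (x + y) + q (x + z) + q (y + z) + q x + q y + q z = 0) :
    ∃ (s : Finset ((F ≃+* F) × (F ≃+* F))) (c : (F ≃+* F) × (F ≃+* F) → F),
      ∀ x : F, q x = ∑ p ∈ s, c p * (p.1 x * p.2 x) := by
  classical
  letI : Algebra (ZMod 2) F := ZMod.algebra F 2
  have two : (2 : F) = 0 := CharTwo.two_eq_zero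
  have h2 : ∀ a : F, a + a = 0 := fun a => CharTwo.add_self_eq_zero a
  have hq0 : q 0 = 0 := by
    have h := hq 0 0 0
    simp only [add_zero] at h
    rw [h2, zero_add, h2, zero_add, h2, zero_add] at h
    exact h
  -- the polar form
  have hadd : ∀ x x' y : F, q (x + x' + y) + q (x + x') + q y =
      (q (x + y) + q x + q y) + (q (x' + y) + q x' + q y) := by
    intro x x' y
    linear_combination hq x x' y - (q (x + y) + q (x' + y) + q x + q x' + q y) * two
  have hsymm : ∀ x y : F, q (x + y) + q x + q y = q (y + x) + q y + q x := by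
    intro x y
    rw [add_comm x y]
    ring
  let Bx : F → (F →+ F) := fun x => AddMonoidHom.mk' (fun y => q (x + y) + q x + q y) (by
    intro y y'
    have h := hadd y y' x
    rw [hsymm x (y + y'), hsymm x y, hsymm x y']
    exact h)
  let Badd : F →+ (F →ₗ[ZMod 2] F) := AddMonoidHom.mk'
    (fun x => AddMonoidHom.toZModLinearMap 2 (Bx x)) (by
      intro x x'
      apply LinearMap.ext
      intro y
      exact hadd x x' y)
  let Bl : LinearMap.BilinMap (ZMod 2) F F := AddMonoidHom.toZModLinearMap 2 Badd
  have hBl : ∀ x y : F, Bl x y = q (x + y) + q x + q y := fun x y => rfl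
  let Q : QuadraticMap (ZMod 2) F F :=
    { toFun := q
      toFun_smul := by
        intro a x
        rcases (by decide : ∀ a : ZMod 2, a = 0 ∨ a = 1) a with rfl | rfl
        · rw [zero_smul, mul_zero, zero_smul]
          exact hq0
        · rw [one_smul, mul_one, one_smul]
      exists_companion' := ⟨Bl, fun x y => by
        rw [hBl]
        linear_combination (-(q x + q y)) * two⟩ }
  obtain ⟨B', hB'⟩ := LinearMap.BilinMap.toQuadraticMap_surjective Q
  have hB'x : ∀ x : F, B' x x = q x := by
    intro x
    have h := congrArg (fun Q' : QuadraticMap (ZMod 2) F F => Q' x) hB'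
    exact h
  let B2 : F →+ F →+ F := AddMonoidHom.mk' (fun x => (B' x).toAddMonoidHom) (by
    intro x y
    ext z
    simp)
  obtain ⟨s, c, hsc⟩ := (Cfsg.Agent.S1140.result (F := F)).2.2 B2
  refine ⟨s, c, fun x => ?_⟩
  rw [← hB'x x]
  exact hsc x x

end Cfsg.Agent.Lib.Helper7
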