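import Mathlib
import Cfsg.Prelude
import Cfsg.Agent.Lib.Helper7.Steiner
import Cfsg.Agent.S0356

set_option autoImplicit false

namespace Cfsg.Agent.Lib.Helper7

section
variable {α : Type*} [Fintype α] [DecidableEq α]

theorem s22_card (hα : Fintype.card α = 22) {B : Set (Finset α)}
    (hB : Cfsg.IsSteinerSystem 3 6 B) (Bf : Finset (Finset α)) (hBf : ∀ b, b ∈ Bf ↔ b ∈ B) :
    Bf.card = 77 := by
  have h := st_lambda hB Bf hBf ∅ (by simp)
  rw [hα] at h
  have e : Bf.filter (fun c => (∅ : Finset α) ⊆ c) = Bf := by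
    apply Finset.filter_true_of_mem
    intro c _
    exact Finset.empty_subset c
  rw [e] at h
  norm_num [Nat.choose] at h
  omega

theorem s22_disj_iff {B : Set (Finset α)} (hB : Cfsg.IsSteinerSystem 3 6 B) {b c : Finset α}
    (hb : b ∈ B) : Disjoint b c ↔ c ≠ b ∧ (c ∩ b).card = 0 := by
  rw [Finset.card_eq_zero, Finset.disjoint_iff_inter_eq_empty, Finset.inter_comm]
  constructor
  · intro h
    refine ⟨?_, h⟩
    rintro rfl
    rw [Finset.inter_self] at h
    have := hB.1 c hb
    rw [h] at this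
    simp at this
  · exact fun h => h.2

theorem s22_deg (hα : Fintype.card α = 22) {B : Set (Finset α)}
    (hB : Cfsg.IsSteinerSystem 3 6 B) (Bf : Finset (Finset α)) (hBf : ∀ b, b ∈ Bf ↔ b ∈ B)
    {b : Finset α} (hb : b ∈ B) : (Bf.filter (fun c => Disjoint b c)).card = 16 := by
  have h0 := st_block_moment hB Bf hBf b hb 0 (by norm_num)
  have h1 := st_block_moment hB Bf hBf b hb 1 (by norm_num)
  have h2 := st_block_moment hB Bf hBf b hb 2 (by norm_num)
  rw [hα] at h0 h1 h2
  simp only [Finset.sum_range_succ, Finset.sum_range_zero] at h0 h1 h2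
  norm_num [Nat.choose, -Finset.card_eq_zero] at h0 h1 h2
  have e : Bf.filter (fun c => Disjoint b c) =
      (Bf.erase b).filter (fun c => (c ∩ b).card = 0) := by
    ext c
    simp only [Finset.mem_filter, Finset.mem_erase]
    rw [s22_disj_iff hB hb]
    tauto
  rw [e]
  omega

theorem s22_pair_moment (hα : Fintype.card α = 22) {B : Set (Finset α)}
    (hB : Cfsg.IsSteinerSystem 3 6 B) (Bf : Finset (Finset α)) (hBf : ∀ b, b ∈ Bf ↔ b ∈ B)
    {b c : Finset α} (hb : b ∈ B) (hc : c ∈ B) (hbc : b ≠ c) (i : ℕ) (hi : i ≤ 3) :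
    (∑ j ∈ Finset.range 5,
        (((Bf.erase b).erase c).filter (fun d => (d ∩ (b ∪ c)).card = j)).card * Nat.choose j i
      + 2 * Nat.choose 6 i) * Nat.choose (6 - i) (3 - i) =
      Nat.choose (b ∪ c).card i * Nat.choose (22 - i) (3 - i) := by
  have h1 := st_moment hB Bf hBf (b ∪ c) i hi
  rw [hα] at h1
  have hbm : b ∈ Bf := (hBf b).mpr hb
  have hcm : c ∈ Bf.erase b := Finset.mem_erase.mpr ⟨hbc.symm, (hBf c).mpr hc⟩
  rw [← Finset.add_sum_erase Bf _ hbm, ← Finset.add_sum_erase (Bf.erase b) _ hcm] at h1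
  have eb : b ∩ (b ∪ c) = b := Finset.inter_eq_left.mpr Finset.subset_union_left
  have ec : c ∩ (b ∪ c) = c := Finset.inter_eq_left.mpr Finset.subset_union_right
  rw [eb, ec, hB.1 b hb, hB.1 c hc] at h1
  have hm : ∀ d ∈ (Bf.erase b).erase c, (d ∩ (b ∪ c)).card < 5 := by
    intro d hd
    rw [Finset.mem_erase, Finset.mem_erase] at hd
    have hdB : d ∈ B := (hBf d).mp hd.2.2
    have e1 := Cfsg.Agent.S0356.result hα hB hdB hb hd.2.1
    have e2 := Cfsg.Agent.S0356.result hα hB hdB hc hd.1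
    have e3 : (d ∩ (b ∪ c)).card ≤ (d ∩ b).card + (d ∩ c).card := by
      rw [Finset.inter_union_distrib_left]
      exact Finset.card_union_le _ _
    omega
  rw [st_sum_fiber ((Bf.erase b).erase c) (b ∪ c) 5 hm (fun j => Nat.choose j i)] at h1
  rw [← h1]
  ring

theorem s22_common (hα : Fintype.card α = 22) {B : Set (Finset α)}
    (hB : Cfsg.IsSteinerSystem 3 6 B) (Bf : Finset (Finset α)) (hBf : ∀ b, b ∈ Bf ↔ b ∈ B)
    {b c : Finset α} (hb : b ∈ B) (hc : c ∈ B) (hbc : b ≠ c) :
    (Disjoint b c → (Bf.filter (fun d => Disjoint b d ∧ Disjoint c d)).card = 0) ∧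
    (¬ Disjoint b c → (Bf.filter (fun d => Disjoint b d ∧ Disjoint c d)).card = 4) := by
  have h0 := s22_pair_moment hα hB Bf hBf hb hc hbc 0 (by norm_num)
  have h1 := s22_pair_moment hα hB Bf hBf hb hc hbc 1 (by norm_num)
  have h2 := s22_pair_moment hα hB Bf hBf hb hc hbc 2 (by norm_num)
  have h3 := s22_pair_moment hα hB Bf hBf hb hc hbc 3 (by norm_num)
  have e : Bf.filter (fun d => Disjoint b d ∧ Disjoint c d) =
      ((Bf.erase b).erase c).filter (fun d => (d ∩ (b ∪ c)).card = 0) := by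
    ext d
    simp only [Finset.mem_filter, Finset.mem_erase]
    rw [s22_disj_iff hB hb, s22_disj_iff hB hc, Finset.card_eq_zero, Finset.card_eq_zero,
      Finset.card_eq_zero, Finset.inter_union_distrib_left, Finset.union_eq_empty]
    tauto
  have hS : ∀ d ∈ (Bf.erase b).erase c,
      ((d ∩ b).card = 0 ∨ (d ∩ b).card = 2) ∧ ((d ∩ c).card = 0 ∨ (d ∩ c).card = 2) := by
    intro d hd
    rw [Finset.mem_erase, Finset.mem_erase] at hd
    have hdB : d ∈ B := (hBf d).mp hd.2.2
    exact ⟨Cfsg.Agent.S0356.result hα hB hdB hb hd.2.1,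
      Cfsg.Agent.S0356.result hα hB hdB hc hd.1⟩
  have hm1 : (((Bf.erase b).erase c).filter (fun d => (d ∩ (b ∪ c)).card = 1)).card = 0 := by
    rw [Finset.card_eq_zero, Finset.filter_eq_empty_iff]
    intro d hd hcon
    have hS' := hS d hd
    have e3 : (d ∩ (b ∪ c)).card ≤ (d ∩ b).card + (d ∩ c).card := by
      rw [Finset.inter_union_distrib_left]
      exact Finset.card_union_le _ _
    have e4 : (d ∩ b).card ≤ (d ∩ (b ∪ c)).card :=
      Finset.card_le_card (Finset.inter_subset_inter_left Finset.subset_union_left)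
    have e5 : (d ∩ c).card ≤ (d ∩ (b ∪ c)).card :=
      Finset.card_le_card (Finset.inter_subset_inter_left Finset.subset_union_right)
    omega
  rw [e]
  simp only [Finset.sum_range_succ, Finset.sum_range_zero] at h0 h1 h2 h3
  constructor
  · intro hdisj
    have hY : (b ∪ c).card = 12 := by
      rw [Finset.card_union_of_disjoint hdisj, hB.1 b hb, hB.1 c hc]
    have hm3 : (((Bf.erase b).erase c).filter (fun d => (d ∩ (b ∪ c)).card = 3)).card = 0 := by
      rw [Finset.card_eq_zero, Finset.filter_eq_empty_iff]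
      intro d hd hcon
      have hS' := hS d hd
      have e3 : (d ∩ (b ∪ c)).card = (d ∩ b).card + (d ∩ c).card := by
        rw [Finset.inter_union_distrib_left]
        exact Finset.card_union_of_disjoint
          (Finset.disjoint_of_subset_left Finset.inter_subset_right
            (Finset.disjoint_of_subset_right Finset.inter_subset_right hdisj))
      omega
    rw [hY] at h0 h1 h2 h3
    norm_num [Nat.choose, -Finset.card_eq_zero] at h0 h1 h2 h3
    omega
  · intro hnd
    have hbc2 : (b ∩ c).card = 2 := by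
      rcases Cfsg.Agent.S0356.result hα hB hb hc hbc with h | h
      · exfalso
        apply hnd
        rw [Finset.disjoint_iff_inter_eq_empty]
        exact Finset.card_eq_zero.mp h
      · exact h
    have hY : (b ∪ c).card = 10 := by
      have := Finset.card_union_add_card_inter b c
      rw [hB.1 b hb, hB.1 c hc, hbc2] at this
      omega
    rw [hY] at h0 h1 h2 h3
    norm_num [Nat.choose, -Finset.card_eq_zero] at h0 h1 h2 h3
    omega

theorem s22_point (hα : Fintype.card α = 22) {B : Set (Finset α)}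
    (hB : Cfsg.IsSteinerSystem 3 6 B) (Bf : Finset (Finset α)) (hBf : ∀ b, b ∈ Bf ↔ b ∈ B)
    (a : α) : (Bf.filter (fun c => a ∈ c)).card = 21 := by
  have h := st_lambda hB Bf hBf {a} (by simp)
  rw [hα] at h
  simp only [Finset.singleton_subset_iff, Finset.card_singleton] at h
  norm_num [Nat.choose] at h
  omega

theorem s22_pair (hα : Fintype.card α = 22) {B : Set (Finset α)}
    (hB : Cfsg.IsSteinerSystem 3 6 B) (Bf : Finset (Finset α)) (hBf : ∀ b, b ∈ Bf ↔ b ∈ B)
    {a a' : α} (haa : a ≠ a') : (Bf.filter (fun c => a ∈ c ∧ a' ∈ c)).card = 5 := by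
  have hc : ({a, a'} : Finset α).card = 2 := Finset.card_pair haa
  have h := st_lambda hB Bf hBf {a, a'} (by rw [hc]; norm_num)
  rw [hα, hc] at h
  have e : Bf.filter (fun c => ({a, a'} : Finset α) ⊆ c) = Bf.filter (fun c => a ∈ c ∧ a' ∈ c) := by
    ext c
    simp only [Finset.mem_filter, Finset.insert_subset_iff, Finset.singleton_subset_iff]
  rw [e] at h
  norm_num [Nat.choose] at h
  omega

theorem s22_sum_inter (S : Finset (Finset α)) (Y : Finset α) :
    ∑ c ∈ S, (c ∩ Y).card = ∑ x ∈ Y, (S.filter (fun c => x ∈ c)).card := by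
  have h0 : ∀ c, (c ∩ Y).card = (Y.filter (fun x => x ∈ c)).card := by
    intro c
    congr 1
    ext x
    simp only [Finset.mem_inter, Finset.mem_filter]
    tauto
  simp_rw [h0, Finset.card_filter]
  exact Finset.sum_comm

theorem s22_point_block (hα : Fintype.card α = 22) {B : Set (Finset α)}
    (hB : Cfsg.IsSteinerSystem 3 6 B) (Bf : Finset (Finset α)) (hBf : ∀ b, b ∈ Bf ↔ b ∈ B)
    {a : α} {b : Finset α} (hb : b ∈ B) (hab : a ∉ b) :
    (Bf.filter (fun c => a ∈ c ∧ Disjoint b c)).card = 6 := by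
  have hS : ∀ c ∈ Bf.filter (fun c => a ∈ c), (c ∩ b).card = 0 ∨ (c ∩ b).card = 2 := by
    intro c hc
    rw [Finset.mem_filter] at hc
    apply Cfsg.Agent.S0356.result hα hB ((hBf c).mp hc.1) hb
    rintro rfl
    exact hab hc.2
  have hm : ∀ c ∈ Bf.filter (fun c => a ∈ c), (c ∩ b).card < 3 := by
    intro c hc
    have := hS c hc
    omega
  have h1 := s22_sum_inter (Bf.filter (fun c => a ∈ c)) b
  have h2 : ∀ x ∈ b, ((Bf.filter (fun c => a ∈ c)).filter (fun c => x ∈ c)).card = 5 := by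
    intro x hx
    rw [Finset.filter_filter]
    apply s22_pair hα hB Bf hBf
    rintro rfl
    exact hab hx
  rw [Finset.sum_congr rfl h2, Finset.sum_const, hB.1 b hb, smul_eq_mul,
    st_sum_fiber (Bf.filter (fun c => a ∈ c)) b 3 hm (fun j => j)] at h1
  have h3 : ∑ c ∈ Bf.filter (fun c => a ∈ c), 1 = 21 := by
    rw [Finset.sum_const, smul_eq_mul, mul_one]
    exact s22_point hα hB Bf hBf a
  have h4 := st_sum_fiber (Bf.filter (fun c => a ∈ c)) b 3 hm (fun _ => 1)
  rw [h3] at h4
  simp only [Finset.sum_range_succ, Finset.sum_range_zero] at h1 h4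
  have hm1 : ((Bf.filter (fun c => a ∈ c)).filter (fun c => (c ∩ b).card = 1)).card = 0 := by
    rw [Finset.card_eq_zero, Finset.filter_eq_empty_iff]
    intro c hc hcon
    have := hS c hc
    omega
  have e : Bf.filter (fun c => a ∈ c ∧ Disjoint b c) =
      (Bf.filter (fun c => a ∈ c)).filter (fun c => (c ∩ b).card = 0) := by
    ext c
    simp only [Finset.mem_filter]
    rw [s22_disj_iff hB hb]
    constructor
    · rintro ⟨k1, k2, k3⟩
      exact ⟨⟨k1, k2⟩, k3.2⟩
    · rintro ⟨⟨k1, k2⟩, k3⟩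
      refine ⟨k1, k2, ?_, k3⟩
      rintro rfl
      exact hab k2
  rw [e]
  omega

theorem s22_count_set {B : Set (Finset α)} (Bf : Finset (Finset α))
    (hBf : ∀ b, b ∈ Bf ↔ b ∈ B) (s : Set B) (P : Finset α → Prop) [DecidablePred P]
    (h : ∀ x : B, x ∈ s ↔ P (x : Finset α)) : Nat.card s = (Bf.filter P).card := by
  rw [← Nat.card_eq_finsetCard]
  apply Nat.card_congr
  refine ⟨fun x => ⟨x.1.1, Finset.mem_filter.mpr ⟨(hBf _).mpr x.1.2, (h x.1).mp x.2⟩⟩,
    fun c => ⟨⟨c.1, (hBf _).mp (Finset.mem_filter.mp c.2).1⟩,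
      (h _).mpr (Finset.mem_filter.mp c.2).2⟩, ?_, ?_⟩
  · intro x
    rfl
  · intro c
    rfl

theorem s22_count_opt {B : Set (Finset α)} [Fintype B] (Bf : Finset (Finset α))
    (hBf : ∀ b, b ∈ Bf ↔ b ∈ B) (s : Set (Option (α ⊕ B)))
    (P : α → Prop) [DecidablePred P] (Q : Finset α → Prop) [DecidablePred Q]
    (p0 : Prop) [Decidable p0]
    (h0 : none ∈ s ↔ p0) (h1 : ∀ a, some (Sum.inl a) ∈ s ↔ P a)
    (h2 : ∀ c : B, some (Sum.inr c) ∈ s ↔ Q (c : Finset α)) :
    Nat.card s = (if p0 then 1 else 0) + (Finset.univ.filter P).card + (Bf.filter Q).card := by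
  classical
  rw [← s22_count_set Bf hBf {c : B | Q (c : Finset α)} Q (fun x => Iff.rfl)]
  rw [Nat.card_eq_fintype_card, Nat.card_eq_fintype_card, Fintype.card_subtype,
    Fintype.card_subtype, Finset.card_filter, Fintype.sum_option, Fintype.sum_sum_type,
    Finset.card_filter, Finset.card_filter]
  simp only [h0, h1, h2, Set.mem_setOf_eq]
  rw [add_assoc]

theorem pb_adj_none_none {B : Set (Finset α)} :
    ¬ (Cfsg.pointBlockGraph B).Adj none none := by
  intro h
  exact (Cfsg.pointBlockGraph B).ne_of_adj h rfl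

theorem pb_adj_none_inl {B : Set (Finset α)} (a : α) :
    (Cfsg.pointBlockGraph B).Adj none (some (Sum.inl a)) := by
  unfold Cfsg.pointBlockGraph
  rw [SimpleGraph.fromRel_adj]
  simp [Cfsg.pointBlockRel]

theorem pb_adj_none_inr {B : Set (Finset α)} (c : B) :
    ¬ (Cfsg.pointBlockGraph B).Adj none (some (Sum.inr c)) := by
  unfold Cfsg.pointBlockGraph
  rw [SimpleGraph.fromRel_adj]
  simp [Cfsg.pointBlockRel]

theorem pb_adj_inl_inl {B : Set (Finset α)} (a a' : α) :
    ¬ (Cfsg.pointBlockGraph B).Adj (some (Sum.inl a)) (some (Sum.inl a')) := by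
  unfold Cfsg.pointBlockGraph
  rw [SimpleGraph.fromRel_adj]
  simp [Cfsg.pointBlockRel]

theorem pb_adj_inl_inr {B : Set (Finset α)} (a : α) (c : B) :
    (Cfsg.pointBlockGraph B).Adj (some (Sum.inl a)) (some (Sum.inr c)) ↔ a ∈ (c : Finset α) := by
  unfold Cfsg.pointBlockGraph
  rw [SimpleGraph.fromRel_adj]
  simp [Cfsg.pointBlockRel]

theorem pb_adj_inr_inr {B : Set (Finset α)} (hB : Cfsg.IsSteinerSystem 3 6 B) (b c : B) :
    (Cfsg.pointBlockGraph B).Adj (some (Sum.inr b)) (some (Sum.inr c)) ↔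
      Disjoint (b : Finset α) (c : Finset α) := by
  unfold Cfsg.pointBlockGraph
  rw [SimpleGraph.fromRel_adj]
  simp only [Cfsg.pointBlockRel]
  constructor
  · rintro ⟨_, h | h⟩
    · exact h
    · exact h.symm
  · intro h
    refine ⟨?_, Or.inl h⟩
    intro hbc
    have hbc' : b = c := Sum.inr_injective (Option.some_injective _ hbc)
    subst hbc'
    exact ((s22_disj_iff hB b.2).mp h).1 rfl

theorem s22_inter_two (hα : Fintype.card α = 22) {B : Set (Finset α)}
    (hB : Cfsg.IsSteinerSystem 3 6 B) {b c : Finset α} (hb : b ∈ B) (hc : c ∈ B) (hbc : b ≠ c)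
    (hnd : ¬ Disjoint b c) : (b ∩ c).card = 2 := by
  rcases Cfsg.Agent.S0356.result hα hB hb hc hbc with h | h
  · exfalso
    apply hnd
    rw [Finset.disjoint_iff_inter_eq_empty]
    exact Finset.card_eq_zero.mp h
  · exact h

end

end Cfsg.Agent.Lib.Helper7
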