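import Mathlib
import Cfsg.Agent.Lib.Helper7.SylowCount
import Cfsg.Agent.Lib.Helper7.CoprimeSylow

set_option autoImplicit false

namespace Cfsg.Agent.Lib.Helper7

open Subgroup

variable {G : Type*} [Group G] [Finite G] {p : ℕ} [Fact p.Prime]

/-- Coprime action: for `K` a normal `p'`-subgroup, every prime-power part of `|K : N_K(P)|`
is congruent to `1` modulo `p`. -/
theorem coprime_relIndex_modEq (P : Sylow p G) (K : Subgroup G) [hKn : K.Normal]
    (hpK : ¬ p ∣ Nat.card K) (q : ℕ) (hq : q.Prime) :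
    q ^ ((normalizer ((P : Subgroup G) : Set G)).relIndex K).factorization q ≡ 1 [MOD p] := by
  have hp : p.Prime := Fact.out
  have hn0 : (normalizer ((P : Subgroup G) : Set G)).relIndex K ≠ 0 := by
    intro h
    have h1 := Subgroup.relIndex_dvd_card (normalizer ((P : Subgroup G) : Set G)) K
    rw [h] at h1
    exact Nat.card_pos.ne' (zero_dvd_iff.mp h1)
  by_cases hqp : q = p
  · subst hqp
    have h1 : ¬ q ∣ (normalizer ((P : Subgroup G) : Set G)).relIndex K := fun h =>
      hpK (h.trans (Subgroup.relIndex_dvd_card _ _))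
    rw [Nat.factorization_eq_zero_of_not_dvd h1, pow_zero]
  have := Fact.mk hq
  have hcop : (Nat.card (P : Subgroup G)).Coprime (Nat.card K) := by
    obtain ⟨k, hk⟩ := IsPGroup.iff_card.mp P.isPGroup'
    rw [hk]
    exact Nat.Coprime.pow_left k ((Nat.Prime.coprime_iff_not_dvd hp).mpr hpK)
  obtain ⟨C, hC⟩ : ∃ C : Subgroup G, C = K ⊓ normalizer ((P : Subgroup G) : Set G) := ⟨_, rfl⟩
  have hCK : C ≤ K := hC ▸ inf_le_left
  have hcent : ∀ c ∈ C, ∀ x ∈ (P : Subgroup G), x * c * x⁻¹ = c := by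
    intro c hc x hx
    rw [hC] at hc
    have h1 : c * x * c⁻¹ * x⁻¹ ∈ (P : Subgroup G) :=
      Subgroup.mul_mem _ ((Subgroup.mem_normalizer_iff.mp hc.2 x).mp hx) (Subgroup.inv_mem _ hx)
    have h2 : c * x * c⁻¹ * x⁻¹ ∈ K := by
      have h3 : c * x * c⁻¹ * x⁻¹ = c * (x * c⁻¹ * x⁻¹) := by group
      rw [h3]
      exact K.mul_mem hc.1 (hKn.conj_mem _ (K.inv_mem hc.1) x)
    have h3 : c * x * c⁻¹ * x⁻¹ = 1 := eq_one_of_mem_of_mem_coprime hcop h1 h2
    calc x * c * x⁻¹ = (c * x * c⁻¹ * x⁻¹)⁻¹ * c := by group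
      _ = c := by rw [h3]; group
  obtain ⟨R₀⟩ : Nonempty (Sylow q C) := inferInstance
  obtain ⟨R, hR⟩ : ∃ R : Subgroup G, R = (R₀ : Subgroup C).map C.subtype := ⟨_, rfl⟩
  have hRC : R ≤ C := hR ▸ Subgroup.map_subtype_le _
  have hRq : IsPGroup q R := hR ▸ R₀.isPGroup'.map _
  have hRA : (P : Subgroup G) ≤ normalizer (R : Set G) := by
    intro x hx
    rw [Subgroup.mem_normalizer_iff]
    intro h
    constructor
    · intro hh
      rw [hcent h (hRC hh) x hx]
      exact hh
    · intro hh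
      have h1 := hcent _ (hRC hh) x⁻¹ (Subgroup.inv_mem _ hx)
      have h2 : x⁻¹ * (x * h * x⁻¹) * x⁻¹⁻¹ = h := by group
      rw [h2] at h1
      rw [h1]
      exact hh
  have hsolP : Group.IsSolvable (P : Subgroup G) := by
    have : Group.IsNilpotent (P : Subgroup G) := P.isPGroup'.isNilpotent
    infer_instance
  obtain ⟨Q, hRQ, hPQ⟩ := exists_invariant_sylow_ge (P : Subgroup G) K
    le_normalizer_of_normal hcop (Or.inl hsolP) q R (hRC.trans hCK) hRq hRA
  obtain ⟨Q', hQ'⟩ : ∃ Q' : Subgroup G, Q' = (Q : Subgroup K).map K.subtype := ⟨_, rfl⟩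
  rw [← hQ'] at hRQ hPQ
  have hQ'K : Q' ≤ K := hQ' ▸ Subgroup.map_subtype_le _
  have hQ'q : IsPGroup q Q' := hQ' ▸ Q.isPGroup'.map _
  -- Q' ⊓ C = R
  have hQC : ∀ y : G, y ∈ Q' → y ∈ C → y ∈ R := by
    intro y hyQ hyC
    have hX : IsPGroup q ((Q' ⊓ C).subgroupOf C) :=
      (hQ'q.to_le inf_le_left).comap_subtype
    have hle : (R₀ : Subgroup C) ≤ (Q' ⊓ C).subgroupOf C := by
      intro r hr
      rw [Subgroup.mem_subgroupOf]
      refine ⟨hRQ ?_, r.2⟩
      rw [hR]
      exact Subgroup.mem_map_of_mem C.subtype hr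
    have heq := R₀.is_maximal' hX hle
    have h1 : (⟨y, hyC⟩ : C) ∈ (Q' ⊓ C).subgroupOf C := by
      rw [Subgroup.mem_subgroupOf]
      exact ⟨hyQ, hyC⟩
    rw [heq] at h1
    rw [hR]
    exact Subgroup.mem_map.mpr ⟨⟨y, hyC⟩, h1, rfl⟩
  -- the action of P on Q'
  let _ : MulAction (P : Subgroup G) Q' :=
    { smul := fun x y => ⟨x * y * (x : G)⁻¹,
        (Subgroup.mem_normalizer_iff.mp (hPQ x.2) y).mp y.2⟩
      one_smul := fun y => Subtype.ext (by
        show ((1 : (P : Subgroup G)) : G) * y * ((1 : (P : Subgroup G)) : G)⁻¹ = y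
        simp)
      mul_smul := fun a b y => Subtype.ext (by
        show ((a * b : (P : Subgroup G)) : G) * y * ((a * b : (P : Subgroup G)) : G)⁻¹ =
          (a : G) * ((b : G) * y * (b : G)⁻¹) * (a : G)⁻¹
        simp [mul_assoc]) }
  have hsmul : ∀ (x : (P : Subgroup G)) (y : Q'), ((x • y : Q') : G) = x * y * (x : G)⁻¹ :=
    fun x y => rfl
  have hfp := P.isPGroup'.card_modEq_card_fixedPoints Q'
  have hfixC : ∀ y : Q', (∀ x : (P : Subgroup G), x • y = y) → (y : G) ∈ C := by
    intro y hyfix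
    rw [hC]
    refine Subgroup.mem_inf.mpr ⟨hQ'K y.2, ?_⟩
    rw [Subgroup.mem_normalizer_iff]
    have hy : ∀ x : (P : Subgroup G), (x : G) * (y : G) * (x : G)⁻¹ = (y : G) := by
      intro x
      have h1 := hyfix x
      rw [← hsmul, h1]
    have hcomm : ∀ h : G, h * (y : G) * h⁻¹ = (y : G) → (y : G) * h * (y : G)⁻¹ = h := by
      intro h h1
      have h3 : h * (y : G) = (y : G) * h := by
        calc h * (y : G) = (h * (y : G) * h⁻¹) * h := by group
          _ = (y : G) * h := by rw [h1]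
      rw [← h3]; group
    intro h
    constructor
    · intro hh
      rw [hcomm h (hy ⟨h, hh⟩)]
      exact hh
    · intro hh
      have h2 : (y : G) * ((y : G) * h * (y : G)⁻¹) * (y : G)⁻¹ = (y : G) * h * (y : G)⁻¹ :=
        hcomm _ (hy ⟨_, hh⟩)
      have h3 : h = (y : G) * h * (y : G)⁻¹ := by
        calc h = (y : G)⁻¹ * ((y : G) * h * (y : G)⁻¹) * (y : G) := by group
          _ = (y : G)⁻¹ * ((y : G) * ((y : G) * h * (y : G)⁻¹) * (y : G)⁻¹) * (y : G) := by
              rw [h2]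
          _ = (y : G) * h * (y : G)⁻¹ := by group
      rw [h3]
      exact hh
  have hfix : Nat.card (MulAction.fixedPoints (P : Subgroup G) Q') = Nat.card R := by
    apply Nat.card_congr
    refine ⟨fun y => ⟨((y : Q') : G), hQC _ (y : Q').2 (hfixC _ y.2)⟩,
      fun r => ⟨⟨(r : G), hRQ r.2⟩, ?_⟩, fun y => rfl, fun r => rfl⟩
    intro x
    apply Subtype.ext
    rw [hsmul]
    exact hcent _ (hRC r.2) x x.2
  rw [hfix] at hfp
  have hcQ : Nat.card Q' = q ^ (Nat.card K).factorization q := by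
    rw [hQ', Subgroup.card_map_of_injective K.subtype_injective]
    exact Q.card_eq_multiplicity
  have hcR : Nat.card R = q ^ (Nat.card C).factorization q := by
    rw [hR, Subgroup.card_map_of_injective C.subtype_injective]
    exact R₀.card_eq_multiplicity
  have hmul : Nat.card C * (normalizer ((P : Subgroup G) : Set G)).relIndex K = Nat.card K := by
    have h1 := card_mul_relIndex_of_le hCK
    rw [hC, Subgroup.inf_relIndex_left] at h1
    rw [hC]
    exact h1
  have hfac : (Nat.card K).factorization q = (Nat.card C).factorization q +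
      ((normalizer ((P : Subgroup G) : Set G)).relIndex K).factorization q := by
    rw [← hmul, Nat.factorization_mul Nat.card_pos.ne' hn0]
    rfl
  rw [hcQ, hcR, hfac, pow_add] at hfp
  have hcop2 : Nat.gcd p (q ^ (Nat.card C).factorization q) = 1 :=
    Nat.Coprime.pow_right _ ((Nat.coprime_primes hp hq).mpr (Ne.symm hqp))
  apply Nat.ModEq.cancel_left_of_coprime hcop2
  rw [mul_one]
  exact hfp

end Cfsg.Agent.Lib.Helper7
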