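import Mathlib
import Cfsg.Prelude

set_option autoImplicit false

namespace Cfsg.Agent.Lib.Helper7

/-- the ternary word with given information digits -/
def tgW (a0 a1 a2 a3 b1 b2 : ZMod 3) : Cfsg.ArrayPt → ZMod 3 := fun p =>
  (![a0, a1, a2, a3] p.1) + (![b2, b1, b1 + b2, b1 + 2 * b2] p.1) * p.2 +
    (a0 + a1 + a2 + a3) * (p.2 * p.2)

/-- tetracode words -/
def tgT (c d : ZMod 3) : Fin 4 → ZMod 3 := c • ![0, 1, 1, 1] + d • ![1, 0, 1, 2]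

theorem tg_tetra (t : Fin 4 → ZMod 3) (ht : t ∈ Cfsg.tetracode) :
    ∃ c d : ZMod 3, t = tgT c d := by
  unfold Cfsg.tetracode at ht
  rw [Submodule.mem_span_pair] at ht
  obtain ⟨c, d, h⟩ := ht
  exact ⟨c, d, h.symm⟩

theorem tg_tetra_mem (c d : ZMod 3) : tgT c d ∈ Cfsg.tetracode := by
  unfold Cfsg.tetracode tgT
  rw [Submodule.mem_span_pair]
  exact ⟨c, d, rfl⟩

theorem tg_col_tab : ∀ a0 a1 a2 a3 b1 b2 : ZMod 3, ∀ i : Fin 4,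
    ∑ r : ZMod 3, tgW a0 a1 a2 a3 b1 b2 (i, r) = -(a0 + a1 + a2 + a3) := by
  decide +kernel

theorem tg_tet_tab : ∀ a0 a1 a2 a3 b1 b2 : ZMod 3, ∀ c d : ZMod 3,
    ∑ i : Fin 4, tgW a0 a1 a2 a3 b1 b2 (i, tgT c d i) = a0 + a1 + a2 + a3 := by
  decide +kernel

theorem tg_mem (a0 a1 a2 a3 b1 b2 : ZMod 3) :
    tgW a0 a1 a2 a3 b1 b2 ∈ Cfsg.ternaryGolayCode := by
  show Cfsg.IsTernaryGolayWord _
  refine ⟨a0 + a1 + a2 + a3, tg_col_tab a0 a1 a2 a3 b1 b2, ?_⟩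
  intro t ht
  obtain ⟨c, d, rfl⟩ := tg_tetra t ht
  exact tg_tet_tab a0 a1 a2 a3 b1 b2 c d

/-- a word from its first two rows -/
def tgX (a0 a1 a2 a3 b0 b1 b2 b3 s : ZMod 3) : Cfsg.ArrayPt → ZMod 3 := fun p =>
  if p.2 = 0 then ![a0, a1, a2, a3] p.1 else if p.2 = 1 then ![b0, b1, b2, b3] p.1
  else -s - ![a0, a1, a2, a3] p.1 - ![b0, b1, b2, b3] p.1

theorem tg_back_tab : ∀ a0 a1 a2 a3 b0 b1 b2 b3 s : ZMod 3,
    (∀ c d : ZMod 3, ∑ i : Fin 4, tgX a0 a1 a2 a3 b0 b1 b2 b3 s (i, tgT c d i) = s) →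
    tgX a0 a1 a2 a3 b0 b1 b2 b3 s =
      tgW a0 a1 a2 a3 (b1 - a1 - (a0 + a1 + a2 + a3)) (b0 - a0 - (a0 + a1 + a2 + a3)) := by
  decide +kernel

end Cfsg.Agent.Lib.Helper7
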