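import Mathlib
import Cfsg.Prelude
import Cfsg.Agent.Lib.Helper7.TGolay

set_option autoImplicit false

namespace Cfsg.Agent.Lib.Helper7

/-- the parameter space of the ternary code -/
abbrev tgP : Type := ZMod 3 × ZMod 3 × ZMod 3 × ZMod 3 × ZMod 3 × ZMod 3

/-- the word of a parameter -/
def tgG (c : tgP) : Cfsg.ArrayPt → ZMod 3 :=
  tgW c.1 c.2.1 c.2.2.1 c.2.2.2.1 c.2.2.2.2.1 c.2.2.2.2.2

theorem tg_G_mem (c : tgP) : tgG c ∈ Cfsg.ternaryGolayCode := tg_mem _ _ _ _ _ _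

theorem tg_param (x : Cfsg.ArrayPt → ZMod 3) (hx : x ∈ Cfsg.ternaryGolayCode) :
    ∃ c : tgP, x = tgG c := by
  have hx2 : Cfsg.IsTernaryGolayWord x := hx
  obtain ⟨s, hcol, htet⟩ := hx2
  have hx' : x = tgX (x (0, 0)) (x (1, 0)) (x (2, 0)) (x (3, 0)) (x (0, 1)) (x (1, 1))
      (x (2, 1)) (x (3, 1)) s := by
    funext ⟨i, r⟩
    have hc := hcol i
    have hsum : ∑ r : ZMod 3, x (i, r) = x (i, 0) + x (i, 1) + x (i, 2) :=
      Fin.sum_univ_three (fun r : Fin 3 => x (i, r))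
    rw [hsum] at hc
    have h2 : x (i, 2) = -s - x (i, 0) - x (i, 1) := by linear_combination hc
    have hr : r = 0 ∨ r = 1 ∨ r = 2 := by
      revert r
      decide
    rcases hr with rfl | rfl | rfl
    · fin_cases i <;> rfl
    · fin_cases i <;> rfl
    · fin_cases i <;> exact h2
  have h3 := hx'.trans (tg_back_tab _ _ _ _ _ _ _ _ s
    (fun c d => by rw [← hx']; exact htet _ (tg_tetra_mem c d)))
  exact ⟨(x (0, 0), x (1, 0), x (2, 0), x (3, 0), _, _), h3⟩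

/-- the dot product -/
def tgDot (x y : Cfsg.ArrayPt → ZMod 3) : ZMod 3 := ∑ p, x p * y p

theorem tg_dot_add (x y z : Cfsg.ArrayPt → ZMod 3) :
    tgDot x (y + z) = tgDot x y + tgDot x z := by
  unfold tgDot
  rw [← Finset.sum_add_distrib]
  apply Finset.sum_congr rfl
  intro p _
  rw [Pi.add_apply, mul_add]

theorem tg_dot_smul (x y : Cfsg.ArrayPt → ZMod 3) (c : ZMod 3) :
    tgDot x (c • y) = c * tgDot x y := by
  unfold tgDot
  rw [Finset.mul_sum]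
  apply Finset.sum_congr rfl
  intro p _
  rw [Pi.smul_apply, smul_eq_mul]
  ring

theorem tg_lin_tab : ∀ c : tgP, tgG c =
    c.1 • tgG (1, 0, 0, 0, 0, 0) + (c.2.1 • tgG (0, 1, 0, 0, 0, 0) +
      (c.2.2.1 • tgG (0, 0, 1, 0, 0, 0) + (c.2.2.2.1 • tgG (0, 0, 0, 1, 0, 0) +
        (c.2.2.2.2.1 • tgG (0, 0, 0, 0, 1, 0) + c.2.2.2.2.2 • tgG (0, 0, 0, 0, 0, 1))))) := by
  decide +kernel

theorem tg_dot_tab : ∀ c : tgP,
    tgDot (tgG c) (tgG (1, 0, 0, 0, 0, 0)) = 0 ∧ tgDot (tgG c) (tgG (0, 1, 0, 0, 0, 0)) = 0 ∧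
    tgDot (tgG c) (tgG (0, 0, 1, 0, 0, 0)) = 0 ∧ tgDot (tgG c) (tgG (0, 0, 0, 1, 0, 0)) = 0 ∧
    tgDot (tgG c) (tgG (0, 0, 0, 0, 1, 0)) = 0 ∧ tgDot (tgG c) (tgG (0, 0, 0, 0, 0, 1)) = 0 := by
  decide +kernel

theorem tg_s1591 (x y : Cfsg.ArrayPt → ZMod 3) (hx : x ∈ Cfsg.ternaryGolayCode)
    (hy : y ∈ Cfsg.ternaryGolayCode) : ∑ p, x p * y p = 0 := by
  obtain ⟨c, rfl⟩ := tg_param x hx
  obtain ⟨c', rfl⟩ := tg_param y hy
  obtain ⟨h1, h2, h3, h4, h5, h6⟩ := tg_dot_tab c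
  show tgDot (tgG c) (tgG c') = 0
  rw [tg_lin_tab c', tg_dot_add, tg_dot_add, tg_dot_add, tg_dot_add, tg_dot_add, tg_dot_smul,
    tg_dot_smul, tg_dot_smul, tg_dot_smul, tg_dot_smul, tg_dot_smul, h1, h2, h3, h4, h5, h6]
  simp

/-- the information digits -/
def tgInfo (x : Cfsg.ArrayPt → ZMod 3) : tgP :=
  (x (0, 0), x (1, 0), x (2, 0), x (3, 0),
    x (1, 1) - x (1, 0) - (x (0, 0) + x (1, 0) + x (2, 0) + x (3, 0)),
    x (0, 1) - x (0, 0) - (x (0, 0) + x (1, 0) + x (2, 0) + x (3, 0)))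

theorem tg_info_tab : ∀ c : tgP, tgInfo (tgG c) = c := by
  decide +kernel

theorem tg_G_inj : Function.Injective tgG :=
  Function.LeftInverse.injective tg_info_tab

theorem tg_wt_tab : ∀ c : tgP, tgG c ≠ 0 → (Cfsg.ternarySupport (tgG c)).card = 6 ∨
    (Cfsg.ternarySupport (tgG c)).card = 9 ∨ (Cfsg.ternarySupport (tgG c)).card = 12 := by
  decide +kernel

theorem tg_cnt_tab :
    ((Finset.univ : Finset tgP).filter (fun c => (Cfsg.ternarySupport (tgG c)).card = 6)).card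
      = 264 ∧
    ((Finset.univ : Finset tgP).filter (fun c => (Cfsg.ternarySupport (tgG c)).card = 9)).card
      = 440 ∧
    ((Finset.univ : Finset tgP).filter (fun c => (Cfsg.ternarySupport (tgG c)).card = 12)).card
      = 24 := by
  decide +kernel

theorem tg_count (k : ℕ) : {x : Cfsg.ArrayPt → ZMod 3 | x ∈ Cfsg.ternaryGolayCode ∧
    (Cfsg.ternarySupport x).card = k}.ncard =
    ((Finset.univ : Finset tgP).filter (fun c => (Cfsg.ternarySupport (tgG c)).card = k)).card := by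
  have hset : {x : Cfsg.ArrayPt → ZMod 3 | x ∈ Cfsg.ternaryGolayCode ∧
      (Cfsg.ternarySupport x).card = k} = tgG ''
      (((Finset.univ : Finset tgP).filter
        (fun c => (Cfsg.ternarySupport (tgG c)).card = k) : Finset tgP) : Set tgP) := by
    ext x
    constructor
    · rintro ⟨hx, hk⟩
      obtain ⟨c, rfl⟩ := tg_param x hx
      exact ⟨c, Finset.mem_coe.mpr (Finset.mem_filter.mpr ⟨Finset.mem_univ _, hk⟩), rfl⟩
    · rintro ⟨c, hc, rfl⟩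
      exact ⟨tg_G_mem c, (Finset.mem_filter.mp (Finset.mem_coe.mp hc)).2⟩
  rw [hset, Set.ncard_image_of_injective _ tg_G_inj, Set.ncard_coe_finset]

theorem tg_card : Nat.card ↥Cfsg.ternaryGolayCode = 729 := by
  have hbij : Function.Bijective (fun c : tgP =>
      (⟨tgG c, tg_G_mem c⟩ : ↥Cfsg.ternaryGolayCode)) := by
    constructor
    · intro c c' h
      exact tg_G_inj (congrArg Subtype.val h)
    · rintro ⟨x, hx⟩
      obtain ⟨c, rfl⟩ := tg_param x hx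
      exact ⟨c, rfl⟩
  rw [← Nat.card_congr (Equiv.ofBijective _ hbij)]
  simp

theorem tg_s1590 : Nat.card ↥Cfsg.ternaryGolayCode = 729 ∧ (∀ x ∈ Cfsg.ternaryGolayCode, x ≠ 0 → (Cfsg.ternarySupport x).card = 6 ∨ (Cfsg.ternarySupport x).card = 9 ∨ (Cfsg.ternarySupport x).card = 12) ∧ {x : Cfsg.ArrayPt → ZMod 3 | x ∈ Cfsg.ternaryGolayCode ∧ (Cfsg.ternarySupport x).card = 6}.ncard = 264 ∧ {x : Cfsg.ArrayPt → ZMod 3 | x ∈ Cfsg.ternaryGolayCode ∧ (Cfsg.ternarySupport x).card = 9}.ncard = 440 ∧ {x : Cfsg.ArrayPt → ZMod 3 | x ∈ Cfsg.ternaryGolayCode ∧ (Cfsg.ternarySupport x).card = 12}.ncard = 24 := by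
  obtain ⟨t6, t9, t12⟩ := tg_cnt_tab
  refine ⟨tg_card, ?_, ?_, ?_, ?_⟩
  · intro x hx hne
    obtain ⟨c, rfl⟩ := tg_param x hx
    exact tg_wt_tab c hne
  · rw [tg_count, t6]
  · rw [tg_count, t9]
  · rw [tg_count, t12]

end Cfsg.Agent.Lib.Helper7
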