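import Mathlib
import Cfsg.Prelude
import Cfsg.Agent.Lib.Helper7.TGolay2

set_option autoImplicit false

namespace Cfsg.Agent.Lib.Helper7

/-- sign pattern from twelve bits -/
def tgSf (b0 b1 b2 b3 b4 b5 b6 b7 b8 b9 b10 b11 : Bool) : Cfsg.ArrayPt → Bool := fun p =>
  if p.2 = 0 then ![b0, b1, b2, b3] p.1 else if p.2 = 1 then ![b4, b5, b6, b7] p.1
  else ![b8, b9, b10, b11] p.1

/-- the sign of a bit -/
def tgSg (b : Bool) : ZMod 3 := if b then 2 else 1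

/-- the unit parameters -/
def tgE (j : Fin 6) : tgP :=
  ![((1 : ZMod 3), (0 : ZMod 3), (0 : ZMod 3), (0 : ZMod 3), (0 : ZMod 3), (0 : ZMod 3)),
    (0, 1, 0, 0, 0, 0), (0, 0, 1, 0, 0, 0), (0, 0, 0, 1, 0, 0), (0, 0, 0, 0, 1, 0),
    (0, 0, 0, 0, 0, 1)] j

theorem tg_ok_of_mem (w : Cfsg.ArrayPt → ZMod 3) (hw : w ∈ Cfsg.ternaryGolayCode) :
    w = tgG (tgInfo w) := by
  obtain ⟨c, rfl⟩ := tg_param w hw
  rw [tg_info_tab]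

theorem tg_sign_tab : ∀ b0 b1 b2 b3 b4 b5 b6 b7 b8 b9 b10 b11 : Bool,
    (∀ j : Fin 6, (fun p => tgSg (tgSf b0 b1 b2 b3 b4 b5 b6 b7 b8 b9 b10 b11 p) * tgG (tgE j) p) =
      tgG (tgInfo (fun p => tgSg (tgSf b0 b1 b2 b3 b4 b5 b6 b7 b8 b9 b10 b11 p) * tgG (tgE j) p))) →
    (tgSf b0 b1 b2 b3 b4 b5 b6 b7 b8 b9 b10 b11 = fun _ => false) ∨
      (tgSf b0 b1 b2 b3 b4 b5 b6 b7 b8 b9 b10 b11 = fun _ => true) := by
  decide +kernel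

end Cfsg.Agent.Lib.Helper7
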