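import Mathlib
import Cfsg.Prelude
import Cfsg.Agent.Lib.Helper7.TGolay3

set_option autoImplicit false

namespace Cfsg.Agent.Lib.Helper7

theorem tg_unit_val (u : (ZMod 3)ˣ) : (u : ZMod 3) = tgSg (decide ((u : ZMod 3) = 2)) := by
  have h12 : (u : ZMod 3) = 1 ∨ (u : ZMod 3) = 2 := by
    have hne : (u : ZMod 3) ≠ 0 := u.ne_zero
    revert hne
    generalize (u : ZMod 3) = z
    revert z
    decide
  rcases h12 with h1 | h2
  · rw [h1]
    rfl
  · rw [h2]
    rfl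

theorem tg_s1593 (c : Cfsg.ArrayPt → (ZMod 3)ˣ) (h : (∀ x ∈ Cfsg.ternaryGolayCode,
    Cfsg.monomialMap 1 c x ∈ Cfsg.ternaryGolayCode)) : (∀ p, c p = 1) ∨ (∀ p, c p = -1) := by
  let β : Cfsg.ArrayPt → Bool := fun p => decide ((c p : ZMod 3) = 2)
  have hβ : β = tgSf (β (0, 0)) (β (1, 0)) (β (2, 0)) (β (3, 0)) (β (0, 1)) (β (1, 1))
      (β (2, 1)) (β (3, 1)) (β (0, 2)) (β (1, 2)) (β (2, 2)) (β (3, 2)) := by
    funext ⟨i, r⟩
    have hr : r = 0 ∨ r = 1 ∨ r = 2 := by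
      revert r
      decide
    rcases hr with rfl | rfl | rfl <;> fin_cases i <;> rfl
  have hmap : ∀ x : Cfsg.ArrayPt → ZMod 3,
      Cfsg.monomialMap 1 c x = fun p => tgSg (β p) * x p := by
    intro x
    funext p
    show (c p : ZMod 3) * x p = tgSg (β p) * x p
    rw [tg_unit_val (c p)]
  have key := tg_sign_tab (β (0, 0)) (β (1, 0)) (β (2, 0)) (β (3, 0)) (β (0, 1)) (β (1, 1))
      (β (2, 1)) (β (3, 1)) (β (0, 2)) (β (1, 2)) (β (2, 2)) (β (3, 2)) (by
    intro j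
    rw [← hβ]
    have h1 := h (tgG (tgE j)) (tg_G_mem _)
    rw [hmap] at h1
    exact tg_ok_of_mem _ h1)
  rw [← hβ] at key
  rcases key with hk | hk
  · left
    intro p
    have h1 : β p = false := congrFun hk p
    apply Units.ext
    rw [tg_unit_val (c p)]
    show tgSg (β p) = ((1 : (ZMod 3)ˣ) : ZMod 3)
    rw [h1]
    rfl
  · right
    intro p
    have h1 : β p = true := congrFun hk p
    apply Units.ext
    rw [tg_unit_val (c p)]
    show tgSg (β p) = ((-1 : (ZMod 3)ˣ) : ZMod 3)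
    rw [h1]
    rfl

end Cfsg.Agent.Lib.Helper7
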