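import Mathlib
import Cfsg.Prelude
import Cfsg.Agent.Lib.Helper7.TGolay2

set_option autoImplicit false

namespace Cfsg.Agent.Lib.Helper7

theorem tg_pt_tab : ∀ a b : ZMod 3, (if a - b ≠ 0 then 1 else 0) + (if a + b ≠ 0 then 1 else 0) +
    3 * (if a ≠ 0 ∧ b ≠ 0 then 1 else 0) =
      2 * ((if a ≠ 0 then 1 else 0) + (if b ≠ 0 then 1 else 0) : ℕ) := by
  decide

theorem tg_supp_card (x : Cfsg.ArrayPt → ZMod 3) :
    (Cfsg.ternarySupport x).card = ∑ p, if x p ≠ 0 then 1 else 0 := by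
  unfold Cfsg.ternarySupport
  rw [Finset.card_filter]

theorem tg_inter_card (x y : Cfsg.ArrayPt → ZMod 3) :
    (Cfsg.ternarySupport x ∩ Cfsg.ternarySupport y).card =
      ∑ p, if x p ≠ 0 ∧ y p ≠ 0 then 1 else 0 := by
  unfold Cfsg.ternarySupport
  rw [← Finset.filter_and, Finset.card_filter]

theorem tg_wt_identity (x y : Cfsg.ArrayPt → ZMod 3) :
    (Cfsg.ternarySupport (x - y)).card + (Cfsg.ternarySupport (x + y)).card +
      3 * (Cfsg.ternarySupport x ∩ Cfsg.ternarySupport y).card =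
      2 * ((Cfsg.ternarySupport x).card + (Cfsg.ternarySupport y).card) := by
  rw [tg_supp_card, tg_supp_card, tg_supp_card, tg_supp_card, tg_inter_card, Finset.mul_sum,
    ← Finset.sum_add_distrib, ← Finset.sum_add_distrib, ← Finset.sum_add_distrib,
    Finset.mul_sum]
  apply Finset.sum_congr rfl
  intro p _
  exact tg_pt_tab (x p) (y p)

theorem tg_supp_neg (x : Cfsg.ArrayPt → ZMod 3) :
    Cfsg.ternarySupport (-x) = Cfsg.ternarySupport x := by
  unfold Cfsg.ternarySupport
  ext p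
  simp

theorem tg_min_wt (z : Cfsg.ArrayPt → ZMod 3) (hz : z ∈ Cfsg.ternaryGolayCode) (hne : z ≠ 0) :
    6 ≤ (Cfsg.ternarySupport z).card := by
  obtain ⟨c, rfl⟩ := tg_param z hz
  rcases tg_wt_tab c hne with h | h | h <;> omega

theorem tg_hex_unique {x y : Cfsg.ArrayPt → ZMod 3} (hx : x ∈ Cfsg.ternaryGolayCode)
    (hy : y ∈ Cfsg.ternaryGolayCode) (hx6 : (Cfsg.ternarySupport x).card = 6)
    (hy6 : (Cfsg.ternarySupport y).card = 6)
    (h5 : 5 ≤ (Cfsg.ternarySupport x ∩ Cfsg.ternarySupport y).card) : y = x ∨ y = -x := by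
  have hid := tg_wt_identity x y
  by_cases h1 : x - y = 0
  · left
    exact (sub_eq_zero.mp h1).symm
  · by_cases h2 : x + y = 0
    · right
      exact eq_neg_of_add_eq_zero_right h2
    · exfalso
      have h3 := tg_min_wt _ (Submodule.sub_mem _ hx hy) h1
      have h4 := tg_min_wt _ (Submodule.add_mem _ hx hy) h2
      omega

theorem tg_s1592 : Cfsg.IsSteinerSystem 5 6 {h : Finset Cfsg.ArrayPt | ∃ x ∈ Cfsg.ternaryGolayCode, Cfsg.ternarySupport x = h ∧ h.card = 6} ∧ {h : Finset Cfsg.ArrayPt | ∃ x ∈ Cfsg.ternaryGolayCode, Cfsg.ternarySupport x = h ∧ h.card = 6}.ncard = 132 := by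
  classical
  let Wf : Finset (Cfsg.ArrayPt → ZMod 3) := Finset.univ.filter
    (fun x => x ∈ Cfsg.ternaryGolayCode ∧ (Cfsg.ternarySupport x).card = 6)
  let Hf : Finset (Finset Cfsg.ArrayPt) := Wf.image Cfsg.ternarySupport
  have hWmem : ∀ x, x ∈ Wf ↔ x ∈ Cfsg.ternaryGolayCode ∧ (Cfsg.ternarySupport x).card = 6 := by
    intro x
    exact ⟨fun h => (Finset.mem_filter.mp h).2, fun h => Finset.mem_filter.mpr ⟨Finset.mem_univ _, h⟩⟩
  have hH : {h : Finset Cfsg.ArrayPt | ∃ x ∈ Cfsg.ternaryGolayCode,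
      Cfsg.ternarySupport x = h ∧ h.card = 6} = (Hf : Set (Finset Cfsg.ArrayPt)) := by
    ext h
    rw [Finset.mem_coe, Finset.mem_image, Set.mem_setOf_eq]
    constructor
    · rintro ⟨x, hx, rfl, h6⟩
      exact ⟨x, (hWmem x).mpr ⟨hx, h6⟩, rfl⟩
    · rintro ⟨x, hx, rfl⟩
      exact ⟨x, ((hWmem x).mp hx).1, rfl, ((hWmem x).mp hx).2⟩
  have hW : Wf.card = 264 := by
    rw [← tg_s1590.2.2.1, ← Set.ncard_coe_finset]
    congr 1
    ext x
    rw [Finset.mem_coe, hWmem]
    rfl
  have huniq : ∀ h ∈ Hf, ∀ h' ∈ Hf, ∀ s : Finset Cfsg.ArrayPt, s.card = 5 → s ⊆ h → s ⊆ h' →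
      h = h' := by
    intro h hh h' hh' s hs hsh hsh'
    obtain ⟨x, hx, rfl⟩ := Finset.mem_image.mp hh
    obtain ⟨y, hy, rfl⟩ := Finset.mem_image.mp hh'
    have hx2 := (hWmem x).mp hx
    have hy2 := (hWmem y).mp hy
    have h5 : 5 ≤ (Cfsg.ternarySupport x ∩ Cfsg.ternarySupport y).card := by
      rw [← hs]
      exact Finset.card_le_card (Finset.subset_inter hsh hsh')
    rcases tg_hex_unique hx2.1 hy2.1 hx2.2 hy2.2 h5 with h | h
    · rw [h]
    · rw [h, tg_supp_neg]
  have hfib : ∀ h ∈ Hf, (Wf.filter (fun x => Cfsg.ternarySupport x = h)).card = 2 := by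
    intro h hh
    obtain ⟨x0, hx0, rfl⟩ := Finset.mem_image.mp hh
    have hx2 := (hWmem x0).mp hx0
    have heq : Wf.filter (fun x => Cfsg.ternarySupport x = Cfsg.ternarySupport x0) =
        {x0, -x0} := by
      ext y
      rw [Finset.mem_filter, Finset.mem_insert, Finset.mem_singleton]
      constructor
      · rintro ⟨hy, hsupp⟩
        have hy2 := (hWmem y).mp hy
        have h5 : 5 ≤ (Cfsg.ternarySupport x0 ∩ Cfsg.ternarySupport y).card := by
          rw [hsupp, Finset.inter_self, hx2.2]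
          norm_num
        exact tg_hex_unique hx2.1 hy2.1 hx2.2 hy2.2 h5
      · rintro (h | h)
        · rw [h]
          exact ⟨hx0, rfl⟩
        · rw [h]
          refine ⟨(hWmem _).mpr ⟨Submodule.neg_mem _ hx2.1, ?_⟩, tg_supp_neg x0⟩
          rw [tg_supp_neg]
          exact hx2.2
    rw [heq, Finset.card_pair]
    intro hneg
    have h0 : x0 = 0 := by
      funext p
      have hp := congrFun hneg p
      have key : ∀ a : ZMod 3, a = -a → a = 0 := by decide
      exact key _ hp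
    have h00 : (Cfsg.ternarySupport (0 : Cfsg.ArrayPt → ZMod 3)).card = 0 := by
      unfold Cfsg.ternarySupport
      simp
    rw [h0, h00] at hx2
    omega
  have hHcard : Hf.card = 132 := by
    have h1 := Finset.card_eq_sum_card_fiberwise (f := Cfsg.ternarySupport) (s := Wf) (t := Hf)
      (fun x hx => Finset.mem_image_of_mem _ hx)
    rw [Finset.sum_congr rfl hfib, Finset.sum_const, smul_eq_mul, hW] at h1
    omega
  have h12 : Fintype.card Cfsg.ArrayPt = 12 := by decide
  have hcover : (Hf.biUnion (fun h => Finset.powersetCard 5 h)) =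
      Finset.powersetCard 5 (Finset.univ : Finset Cfsg.ArrayPt) := by
    apply Finset.eq_of_subset_of_card_le
    · intro s hs
      rw [Finset.mem_biUnion] at hs
      obtain ⟨h, _, hs⟩ := hs
      rw [Finset.mem_powersetCard] at hs ⊢
      exact ⟨Finset.subset_univ _, hs.2⟩
    · rw [Finset.card_biUnion]
      · have h6 : ∀ h ∈ Hf, (Finset.powersetCard 5 h).card = 6 := by
          intro h hh
          obtain ⟨x, hx, rfl⟩ := Finset.mem_image.mp hh
          rw [Finset.card_powersetCard, ((hWmem x).mp hx).2]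
          rfl
        rw [Finset.sum_congr rfl h6, Finset.sum_const, smul_eq_mul, hHcard,
          Finset.card_powersetCard, Finset.card_univ, h12]
        decide
      · intro h hh h' hh' hne
        rw [Function.onFun, Finset.disjoint_left]
        intro s hs hs'
        rw [Finset.mem_powersetCard] at hs hs'
        exact hne (huniq h (Finset.mem_coe.mp hh) h' (Finset.mem_coe.mp hh') s hs.2 hs.1 hs'.1)
  refine ⟨⟨?_, ?_⟩, ?_⟩
  · rintro b ⟨x, _, rfl, h6⟩
    exact h6
  · intro s hs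
    have hs' : s ∈ Finset.powersetCard 5 (Finset.univ : Finset Cfsg.ArrayPt) :=
      Finset.mem_powersetCard.mpr ⟨Finset.subset_univ _, hs⟩
    rw [← hcover, Finset.mem_biUnion] at hs'
    obtain ⟨h, hh, hsh⟩ := hs'
    rw [hH]
    refine ⟨h, ⟨Finset.mem_coe.mpr hh, (Finset.mem_powersetCard.mp hsh).1⟩, ?_⟩
    rintro h' ⟨hh', hsh'⟩
    exact huniq h' (Finset.mem_coe.mp hh') h hh s hs hsh' (Finset.mem_powersetCard.mp hsh).1
  · rw [hH, Set.ncard_coe_finset, hHcard]

end Cfsg.Agent.Lib.Helper7
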