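import Mathlib
import Cfsg.Prelude

set_option autoImplicit false

namespace Cfsg.Agent.Lib.Helper7

theorem tri_inj {H : Type*} [Group H] {U : Type*} [AddCommGroup U] [Module ℝ U]
    (ρ : Representation ℝ H U)
    (hirr : ∀ W : Submodule ℝ U, (∀ g : H, W.map (ρ g) ≤ W) → W = ⊥ ∨ W = ⊤)
    (B : LinearMap.BilinForm ℝ U) (hB0 : B ≠ 0)
    (hBi : ∀ (g : H) (u v : U), B (ρ g u) (ρ g v) = B u v) : LinearMap.ker B = ⊥ := by
  rcases hirr (LinearMap.ker B) (by
    intro g x hx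
    obtain ⟨u, hu, rfl⟩ := Submodule.mem_map.mp hx
    rw [LinearMap.mem_ker] at hu ⊢
    ext w
    have h1 := hBi g u (ρ g⁻¹ w)
    rw [Representation.self_inv_apply] at h1
    rw [h1, hu]
    rfl) with h | h
  · exact h
  · exfalso
    apply hB0
    ext u w
    have hu : u ∈ LinearMap.ker B := by
      rw [h]
      exact Submodule.mem_top
    rw [LinearMap.mem_ker] at hu
    rw [hu]
    rfl

theorem tri_main {H : Type*} [Group H] {U : Type*} [AddCommGroup U] [Module ℝ U] [FiniteDimensional ℝ U] (ρ : Representation ℝ H U) (hirr : ∀ W : Submodule ℝ U, (∀ g : H, W.map (ρ g) ≤ W) → W = ⊥ ∨ W = ⊤) (B : LinearMap.BilinForm ℝ U) (hB0 : B ≠ 0) (hBs : ∀ u v, B u v = B v u) (hBi : ∀ (g : H) (u v : U), B (ρ g u) (ρ g v) = B u v) : (∃ m : U →ₗ[ℝ] U →ₗ[ℝ] U, m ≠ 0 ∧ (∀ u v, m u v = m v u) ∧ (∀ (g : H) (u v : U), m (ρ g u) (ρ g v) = ρ g (m u v)) ∧ ∀ m' : U →ₗ[ℝ] U →ₗ[ℝ] U, (∀ (g : H) (u v : U), m' (ρ g u) (ρ g v) = ρ g (m' u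 v)) → ∃ c : ℝ, m' = c • m) ↔ (∃ t : U →ₗ[ℝ] U →ₗ[ℝ] U →ₗ[ℝ] ℝ, t ≠ 0 ∧ (∀ u v w, t u v w = t v u w ∧ t u v w = t u w v) ∧ (∀ (g : H) (u v w : U), t (ρ g u) (ρ g v) (ρ g w) = t u v w) ∧ ∀ t' : U →ₗ[ℝ] U →ₗ[ℝ] U →ₗ[ℝ] ℝ, (∀ (g : H) (u v w : U), t' (ρ g u) (ρ g v) (ρ g w) = t' u v w) → ∃ c : ℝ, t' = c • t) := by
  have hker := tri_inj ρ hirr B hB0 hBi
  have hBinj : Function.Injective B := LinearMap.ker_eq_bot.mp hker
  have hinj2 : ∀ x y : U, (∀ w, B x w = B y w) → x = y :=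
    fun x y h => hBinj (LinearMap.ext h)
  obtain ⟨e, he0⟩ : ∃ e : U ≃ₗ[ℝ] Module.Dual ℝ U, ∀ u, e u = B u :=
    ⟨LinearMap.linearEquivOfInjective B hBinj (Subspace.dual_finrank_eq).symm, fun u => rfl⟩
  have he : ∀ (φ : Module.Dual ℝ U) (w : U), B (e.symm φ) w = φ w := by
    intro φ w
    have h1 : e (e.symm φ) = φ := e.apply_symm_apply φ
    rw [he0] at h1
    rw [h1]
  have L1 : ∀ m' : U →ₗ[ℝ] U →ₗ[ℝ] U,
      (∀ (g : H) (u v : U), m' (ρ g u) (ρ g v) = ρ g (m' u v)) →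
      ∀ (g : H) (u v w : U), (m'.compr₂ B) (ρ g u) (ρ g v) (ρ g w) = (m'.compr₂ B) u v w := by
    intro m' hm' g u v w
    rw [LinearMap.compr₂_apply, LinearMap.compr₂_apply, hm', hBi]
  have L3 : ∀ (t' : U →ₗ[ℝ] U →ₗ[ℝ] U →ₗ[ℝ] ℝ) (u v w : U),
      B ((t'.compr₂ e.symm.toLinearMap) u v) w = t' u v w := by
    intro t' u v w
    rw [LinearMap.compr₂_apply]
    exact he _ _
  have L2 : ∀ t' : U →ₗ[ℝ] U →ₗ[ℝ] U →ₗ[ℝ] ℝ,
      (∀ (g : H) (u v w : U), t' (ρ g u) (ρ g v) (ρ g w) = t' u v w) →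
      ∀ (g : H) (u v : U), (t'.compr₂ e.symm.toLinearMap) (ρ g u) (ρ g v) =
        ρ g ((t'.compr₂ e.symm.toLinearMap) u v) := by
    intro t' ht' g u v
    apply hinj2
    intro w
    rw [L3]
    have h1 := hBi g ((t'.compr₂ e.symm.toLinearMap) u v) (ρ g⁻¹ w)
    rw [Representation.self_inv_apply] at h1
    rw [h1, L3]
    have h2 := ht' g u v (ρ g⁻¹ w)
    rw [Representation.self_inv_apply] at h2
    exact h2
  constructor
  · rintro ⟨m, hm0, hmc, hme, hmu⟩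
    have ht0 : m.compr₂ B ≠ 0 := by
      intro h
      apply hm0
      ext u v
      apply hinj2
      intro w
      have h1 : (m.compr₂ B) u v w = 0 := by
        rw [h]
        rfl
      rw [LinearMap.compr₂_apply] at h1
      rw [h1]
      simp
    have hs12 : ∀ u v w, (m.compr₂ B) u v w = (m.compr₂ B) v u w := by
      intro u v w
      rw [LinearMap.compr₂_apply, LinearMap.compr₂_apply, hmc]
    have hinv := L1 m hme
    have huniq : ∀ t' : U →ₗ[ℝ] U →ₗ[ℝ] U →ₗ[ℝ] ℝ,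
        (∀ (g : H) (u v w : U), t' (ρ g u) (ρ g v) (ρ g w) = t' u v w) →
        ∃ c : ℝ, t' = c • m.compr₂ B := by
      intro t' ht'
      obtain ⟨c, hc⟩ := hmu _ (L2 t' ht')
      refine ⟨c, ?_⟩
      ext u v w
      rw [← L3 t' u v w, hc]
      simp [LinearMap.compr₂_apply]
    obtain ⟨c, hc⟩ := huniq
      ((LinearMap.lflip (R₀ := ℝ) (M := U) (N := U) (P := ℝ)).toLinearMap.comp (m.compr₂ B)) (by
        intro g u v w
        exact hinv g u w v)
    have hc' : ∀ u v w, (m.compr₂ B) u w v = c * (m.compr₂ B) u v w := by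
      intro u v w
      have h1 := congrArg (fun f : U →ₗ[ℝ] U →ₗ[ℝ] U →ₗ[ℝ] ℝ => f u v w) hc
      exact h1
    obtain ⟨u0, v0, w0, hne⟩ : ∃ u v w, (m.compr₂ B) u v w ≠ 0 := by
      by_contra hcon
      push_neg at hcon
      apply ht0
      ext u v w
      rw [hcon]
      rfl
    have hcc : c * c = 1 := by
      have h1 := hc' u0 v0 w0
      have h2 := hc' u0 w0 v0
      have h3 : (c * c - 1) * (m.compr₂ B) u0 v0 w0 = 0 := by
        rw [h1] at h2
        linear_combination (-1 : ℝ) * h2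
      rcases mul_eq_zero.mp h3 with h | h
      · linarith
      · exact absurd h hne
    have hs23 : ∀ u v w, (m.compr₂ B) u v w = (m.compr₂ B) u w v := by
      rcases mul_self_eq_one_iff.mp hcc with h | h
      · intro u v w
        rw [hc' u v w, h, one_mul]
      · exfalso
        apply hne
        have a1 := hc' u0 w0 v0
        have a2 := hs12 u0 w0 v0
        have a3 := hc' w0 v0 u0
        have a4 := hs12 w0 v0 u0
        have a5 := hc' v0 u0 w0
        have a6 := hs12 v0 u0 w0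
        rw [h] at a1 a3 a5
        linarith
    exact ⟨m.compr₂ B, ht0, fun u v w => ⟨hs12 u v w, hs23 u v w⟩, hinv, huniq⟩
  · rintro ⟨t, ht0, hts, hti, htu⟩
    refine ⟨t.compr₂ e.symm.toLinearMap, ?_, ?_, L2 t hti, ?_⟩
    · intro h
      apply ht0
      ext u v w
      rw [← L3 t u v w, h]
      simp
    · intro u v
      apply hinj2
      intro w
      rw [L3, L3]
      exact (hts u v w).1
    · intro m' hm'
      obtain ⟨c, hc⟩ := htu _ (L1 m' hm')
      refine ⟨c, ?_⟩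
      ext u v
      apply hinj2
      intro w
      have h1 : (m'.compr₂ B) u v w = c * t u v w := by
        rw [hc]
        rfl
      rw [LinearMap.compr₂_apply] at h1
      rw [h1]
      simp only [LinearMap.smul_apply, map_smul, smul_eq_mul]
      rw [L3]

end Cfsg.Agent.Lib.Helper7
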