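import Mathlib

set_option autoImplicit false

namespace Cfsg.Agent.Lib.Helper7

theorem ta_val_lt_of_dvd_two_mul {o k : ℕ} (hk : k ≠ 0) (h1 : o ∣ 2 * k) (h2 : ¬ o ∣ k) :
    padicValNat 2 k < padicValNat 2 o := by
  by_contra hcon
  push Not at hcon
  apply h2
  have ho : o ≠ 0 := by
    rintro rfl
    rw [zero_dvd_iff] at h1
    omega
  rw [← Nat.factorization_le_iff_dvd ho hk]
  intro p
  by_cases hp : p = 2
  · subst hp
    rw [Nat.factorization_def _ Nat.prime_two, Nat.factorization_def _ Nat.prime_two]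
    exact hcon
  · have h3 := (Nat.factorization_le_iff_dvd ho (by omega)).mpr h1 p
    rw [Nat.factorization_mul two_ne_zero hk, Finsupp.add_apply, Nat.prime_two.factorization,
      Finsupp.single_apply, if_neg (fun h => hp h.symm), zero_add] at h3
    exact h3

theorem ta_val_le_of_dvd {o k : ℕ} (hk : k ≠ 0) (h1 : o ∣ k) :
    padicValNat 2 o ≤ padicValNat 2 k := by
  have ho : o ≠ 0 := by
    rintro rfl
    rw [zero_dvd_iff] at h1
    exact hk h1
  haveI : Fact (Nat.Prime 2) := ⟨Nat.prime_two⟩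
  have h2 : 2 ^ padicValNat 2 o ∣ o := (padicValNat_dvd_iff_le ho).mpr le_rfl
  exact (padicValNat_dvd_iff_le hk).mp (h2.trans h1)

theorem ta_neg_one_ne_one {F : Type*} [Field F] [Fintype F] (hq : Odd (Fintype.card F)) :
    (-1 : F) ≠ 1 := by
  apply Ring.neg_one_ne_one_of_char_ne_two
  intro h
  have := FiniteField.even_card_iff_char_two.mp h
  rw [Nat.odd_iff] at hq
  omega

theorem ta_card_sub_one_ne_zero {F : Type*} [Field F] [Fintype F] : Fintype.card F - 1 ≠ 0 := by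
  have := Fintype.one_lt_card (α := F)
  omega

/-- `-1` is an `n`-th power in a finite field of odd order `q` iff `v₂(n) < v₂(q - 1)`. -/
theorem ta_exists_pow_eq_neg_one {F : Type*} [Field F] [Fintype F]
    (hq : Odd (Fintype.card F)) {n : ℕ} (hn : 1 ≤ n) :
    (∃ c : F, c ≠ 0 ∧ c ^ n = -1) ↔ padicValNat 2 n < padicValNat 2 (Fintype.card F - 1) := by
  have hne : (-1 : F) ≠ 1 := ta_neg_one_ne_one hq
  have hN : Fintype.card F - 1 ≠ 0 := ta_card_sub_one_ne_zero
  haveI : Fact (Nat.Prime 2) := ⟨Nat.prime_two⟩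
  constructor
  · rintro ⟨c, hc0, hc⟩
    have h1 : c ^ (Fintype.card F - 1) = 1 := FiniteField.pow_card_sub_one_eq_one c hc0
    have h2 : c ^ (2 * n) = 1 := by
      rw [mul_comm, pow_mul, hc]; norm_num
    have h3 : ¬ orderOf c ∣ n := by
      intro h
      rw [orderOf_dvd_iff_pow_eq_one, hc] at h
      exact hne h
    have h4 := ta_val_lt_of_dvd_two_mul (by omega) (orderOf_dvd_of_pow_eq_one h2) h3
    have h5 := ta_val_le_of_dvd hN (orderOf_dvd_of_pow_eq_one h1)
    omega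
  · intro h
    obtain ⟨a, ha⟩ : ∃ a, a = padicValNat 2 n := ⟨_, rfl⟩
    rw [← ha] at h
    have h1 : 2 ^ (a + 1) ∣ Fintype.card F - 1 := (padicValNat_dvd_iff_le hN).mpr h
    obtain ⟨g, hg⟩ := IsCyclic.exists_ofOrder_eq_natCard (α := Fˣ)
    have hcard : Nat.card Fˣ = Fintype.card F - 1 := by
      classical
      rw [Nat.card_eq_fintype_card, Fintype.card_units]
    rw [hcard] at hg
    obtain ⟨k, hk⟩ := h1
    have hk0 : k ≠ 0 := by
      rintro rfl
      rw [mul_zero] at hk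
      exact hN hk
    have ho : orderOf (g ^ k) = 2 ^ (a + 1) := by
      rw [orderOf_pow_of_dvd hk0 (by rw [hg, hk]; exact dvd_mul_left _ _), hg, hk,
        Nat.mul_div_cancel _ (Nat.pos_of_ne_zero hk0)]
    have hn0 : n ≠ 0 := by omega
    have hgcd : Nat.gcd (2 ^ (a + 1)) n = 2 ^ a := by
      obtain ⟨j, hj, hj2⟩ := (Nat.dvd_prime_pow Nat.prime_two).mp (Nat.gcd_dvd_left (2 ^ (a + 1)) n)
      have h3 : 2 ^ j ∣ n := hj2 ▸ Nat.gcd_dvd_right (2 ^ (a + 1)) n
      have h4 : j ≤ a := ha ▸ (padicValNat_dvd_iff_le hn0).mp h3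
      have h5 : 2 ^ a ∣ Nat.gcd (2 ^ (a + 1)) n :=
        Nat.dvd_gcd (pow_dvd_pow 2 (by omega)) ((padicValNat_dvd_iff_le hn0).mpr (by omega))
      rw [hj2] at h5
      have h6 : a ≤ j := (Nat.pow_dvd_pow_iff_le_right (by norm_num)).mp h5
      rw [hj2]
      congr 1
      omega
    have ho2 : orderOf ((g ^ k) ^ n) = 2 := by
      rw [orderOf_pow' _ hn0, ho, hgcd, pow_succ, Nat.mul_div_cancel_left _ (by positivity)]
    refine ⟨((g ^ k : Fˣ) : F), Units.ne_zero _, ?_⟩
    have h2 : (((g ^ k) ^ n : Fˣ) : F) ^ 2 = 1 := by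
      rw [← Units.val_pow_eq_pow_val, ← ho2, pow_orderOf_eq_one]
      rfl
    have h3 : (((g ^ k) ^ n : Fˣ) : F) ≠ 1 := by
      intro h
      have h4 : (g ^ k) ^ n = 1 := Units.ext h
      rw [h4, orderOf_one] at ho2
      omega
    rcases sq_eq_one_iff.mp h2 with h4 | h4
    · exact absurd h4 h3
    · rw [← h4]
      simp

theorem ta_val_two_pow_mul_odd (k m : ℕ) (hm : Odd m) : padicValNat 2 (2 ^ k * m) = k := by
  haveI : Fact (Nat.Prime 2) := ⟨Nat.prime_two⟩
  have hm0 : m ≠ 0 := by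
    rintro rfl
    simp at hm
  rw [padicValNat.mul (pow_ne_zero k two_ne_zero) hm0, padicValNat.prime_pow,
    padicValNat.eq_zero_of_not_dvd (Odd.not_two_dvd_nat hm), add_zero]

theorem ta_val_two_mul (m : ℕ) (hm : m ≠ 0) : padicValNat 2 (2 * m) = padicValNat 2 m + 1 := by
  haveI : Fact (Nat.Prime 2) := ⟨Nat.prime_two⟩
  rw [padicValNat.mul two_ne_zero hm, padicValNat_self, add_comm]

end Cfsg.Agent.Lib.Helper7
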